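import Mathlib
import Cfsg.Agent.Lib.Helper48.JordanConj

set_option autoImplicit false
set_option linter.unusedSectionVars false

namespace Cfsg.Agent.Lib.Helper48

open Module LinearMap

variable {F : Type*} [Field F] {t : ℕ} (d : Fin t → ℕ)

theorem blockDiagonal'_mulVec_apply (A : ∀ k, Matrix (Fin (d k)) (Fin (d k)) F)
    (x : ((k : Fin t) × Fin (d k)) → F) (k : Fin t) (i : Fin (d k)) :
    (Matrix.blockDiagonal' A).mulVec x ⟨k, i⟩ = (A k).mulVec (fun j => x ⟨k, j⟩) i := by
  simp only [Matrix.mulVec, dotProduct, Fintype.sum_sigma, Matrix.blockDiagonal'_apply]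
  rw [Finset.sum_eq_single k]
  · simp
  · intro k' _ hk'
    simp [hk'.symm]
  · simp

/-- the kernel of a block diagonal matrix -/
def kerBlockEquiv (A : ∀ k, Matrix (Fin (d k)) (Fin (d k)) F) :
    ker (Matrix.mulVecLin (Matrix.blockDiagonal' A)) ≃ₗ[F]
      ((k : Fin t) → ker (Matrix.mulVecLin (A k))) where
  toFun x := fun k => ⟨fun j => x.1 ⟨k, j⟩, by
    rw [LinearMap.mem_ker, Matrix.mulVecLin_apply]
    funext i
    rw [← blockDiagonal'_mulVec_apply]
    have := x.2
    rw [LinearMap.mem_ker, Matrix.mulVecLin_apply] at this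
    rw [this]
    rfl⟩
  invFun y := ⟨fun p => (y p.1).1 p.2, by
    rw [LinearMap.mem_ker, Matrix.mulVecLin_apply]
    funext ⟨k, i⟩
    rw [blockDiagonal'_mulVec_apply]
    have := (y k).2
    rw [LinearMap.mem_ker, Matrix.mulVecLin_apply] at this
    exact congrFun this i⟩
  map_add' _ _ := rfl
  map_smul' _ _ := rfl
  left_inv _ := rfl
  right_inv _ := rfl

theorem finrank_ker_blockDiagonal' (A : ∀ k, Matrix (Fin (d k)) (Fin (d k)) F) :
    finrank F (ker (Matrix.mulVecLin (Matrix.blockDiagonal' A))) =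
      ∑ k, finrank F (ker (Matrix.mulVecLin (A k))) := by
  rw [(kerBlockEquiv d A).finrank_eq, Module.finrank_pi_fintype]

theorem jordanTypeMatrix_sub_one_pow (k : ℕ) :
    (Cfsg.jordanTypeMatrix d F - 1) ^ k =
      Matrix.blockDiagonal' (fun i => (Cfsg.jordanBlock (d i) F - 1) ^ k) := by
  unfold Cfsg.jordanTypeMatrix
  have h1 : (fun i => (Cfsg.jordanBlock (d i) F - 1) ^ k) =
      ((fun i => Cfsg.jordanBlock (d i) F) - (1 : ∀ i, Matrix (Fin (d i)) (Fin (d i)) F)) ^ k := rfl
  rw [h1, Matrix.blockDiagonal'_pow, Matrix.blockDiagonal'_sub, Matrix.blockDiagonal'_one]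

/-- the multiset of block sizes -/
def sizes : Multiset ℕ := Finset.univ.val.map d

theorem jtype_jordanTypeMatrix :
    JType (Matrix.mulVecLin (Cfsg.jordanTypeMatrix d F - 1) :
      End F (((k : Fin t) × Fin (d k)) → F)) (sizes d) := by
  intro k
  rw [← mulVecLin_pow, jordanTypeMatrix_sub_one_pow, finrank_ker_blockDiagonal']
  unfold sizes
  rw [Multiset.map_map]
  change _ = ∑ i, min (d i) k
  refine Finset.sum_congr rfl (fun i _ => ?_)
  rw [mulVecLin_pow]
  exact finrank_ker_shiftEnd_pow k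

theorem isNilpotent_jordanTypeMatrix_sub_one :
    IsNilpotent (Matrix.mulVecLin (Cfsg.jordanTypeMatrix d F - 1) :
      End F (((k : Fin t) × Fin (d k)) → F)) := by
  refine ⟨∑ i, d i, ?_⟩
  rw [← mulVecLin_pow, jordanTypeMatrix_sub_one_pow]
  have : (fun i => (Cfsg.jordanBlock (d i) F - 1) ^ (∑ i, d i)) = fun i => 0 := by
    funext i
    exact pow_eq_zero_of_le (Finset.single_le_sum (fun _ _ => Nat.zero_le _) (Finset.mem_univ i))
      jordanBlock_sub_one_pow
  rw [this]
  have h0 : Matrix.blockDiagonal' (fun i => (0 : Matrix (Fin (d i)) (Fin (d i)) F)) = 0 :=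
    Matrix.blockDiagonal'_zero
  rw [h0]
  simp

theorem count_sizes (j : ℕ) :
    (sizes d).count j = (Finset.univ.filter (fun k : Fin t => d k = j)).card := by
  unfold sizes
  rw [Multiset.count_map]
  congr 1
  simp only [Finset.filter_val, eq_comm]

end Cfsg.Agent.Lib.Helper48
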