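import Mathlib
import Cfsg.Agent.Lib.Helper48.SympInvolMat
import Cfsg.Agent.Lib.Helper48.SqZero

set_option autoImplicit false
set_option linter.unusedSectionVars false

namespace Cfsg.Agent.Lib.Helper48

open Module LinearMap Matrix Cfsg.Agent.Lib.Helper17

variable {F : Type*} [Field F] [CharP F 2] {m : ℕ}

section Construct

variable {I : Type*} [Fintype I] [DecidableEq I]

/-- the square zero map attached to an isotropic family -/
noncomputable def nilFam (π : I → I) (e : I → (Fin m ⊕ Fin m → F)) : End F (Fin m ⊕ Fin m → F) :=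
  ∑ i, ((sympB m F).flip (e i)).smulRight (e (π i))

theorem nilFam_apply (π : I → I) (e : I → (Fin m ⊕ Fin m → F)) (v : Fin m ⊕ Fin m → F) :
    nilFam π e v = ∑ i, sympB m F v (e i) • e (π i) := by
  simp [nilFam, LinearMap.sum_apply, LinearMap.smulRight_apply]

theorem exists_invol (π : I → I) (hπ : Function.Involutive π) [Nonempty I]
    (x e : I → (Fin m ⊕ Fin m → F)) (hee : ∀ i j, sympB m F (e i) (e j) = 0)
    (hxe : ∀ i j, sympB m F (x i) (e j) = if i = j then 1 else 0) :
    ∃ a : Matrix.symplecticGroup (Fin m) F, orderOf a = 2 ∧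
      (∀ v, nilOf a v = ∑ i, sympB m F v (e i) • e (π i)) ∧
      ((a : Matrix (Fin m ⊕ Fin m) (Fin m ⊕ Fin m) F) - 1).rank = Fintype.card I := by
  have hsymm := symm_of_isAlt_char_two (sympB_isAlt (F := F) m)
  have hNe : ∀ v i, sympB m F (nilFam π e v) (e i) = 0 := by
    intro v i
    rw [nilFam_apply, map_sum, LinearMap.sum_apply]
    apply Finset.sum_eq_zero
    intro j _
    rw [map_smul, LinearMap.smul_apply, hee, smul_zero]
  have hNN : ∀ v, nilFam π e (nilFam π e v) = 0 := by
    intro v
    rw [nilFam_apply π e (nilFam π e v)]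
    apply Finset.sum_eq_zero
    intro i _
    rw [hNe, zero_smul]
  have hadj : ∀ u v, sympB m F (nilFam π e u) v = sympB m F u (nilFam π e v) := by
    intro u v
    rw [nilFam_apply, nilFam_apply, map_sum, map_sum, LinearMap.sum_apply,
      ← Equiv.sum_comp (hπ.toPerm π)]
    apply Finset.sum_congr rfl
    intro i _
    simp only [Function.Involutive.coe_toPerm, hπ i, map_smul, LinearMap.smul_apply, smul_eq_mul]
    rw [hsymm (e i) v, mul_comm]
  let g : (Fin m ⊕ Fin m → F) →ₗ[F] (Fin m ⊕ Fin m → F) := LinearMap.id + nilFam π e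
  have hgv : ∀ v, g v = v + nilFam π e v := fun v => rfl
  have hg : ∀ u v, Cfsg.sympForm m F (g u) (g v) = Cfsg.sympForm m F u v := by
    intro u v
    simp only [← sympB_apply, hgv, LinearMap.add_apply, map_add]
    rw [hadj u v, hadj u (nilFam π e v), hNN, map_zero, add_zero, add_assoc,
      CharTwo.add_self_eq_zero, add_zero]
  let a : Matrix.symplecticGroup (Fin m) F := spOfLinear m g hg
  have ha : ∀ v, (a : Matrix (Fin m ⊕ Fin m) (Fin m ⊕ Fin m) F) *ᵥ v = v + nilFam π e v :=
    fun v => spOfLinear_mulVec m _ hg v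
  have hnil : ∀ v, nilOf a v = nilFam π e v := by
    intro v
    rw [nilOf_apply, ha]; abel
  have hNx : ∀ i, nilFam π e (x i) = e (π i) := by
    intro i
    rw [nilFam_apply]
    simp only [hxe, ite_smul, one_smul, zero_smul, Finset.sum_ite_eq, Finset.mem_univ, if_true]
  have he0 : ∀ i, e i ≠ 0 := by
    intro i h0
    have := hxe i i
    rw [h0, map_zero, if_pos rfl] at this
    exact zero_ne_one this
  have hli : LinearIndependent F e := by
    rw [Fintype.linearIndependent_iff]
    intro c hc j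
    have h1 := congrArg (sympB m F (x j)) hc
    simp only [map_sum, map_smul, hxe, map_zero, smul_eq_mul, mul_ite, mul_one, mul_zero,
      Finset.sum_ite_eq, Finset.mem_univ, if_true] at h1
    exact h1
  refine ⟨a, ?_, fun v => by rw [hnil, nilFam_apply], ?_⟩
  · apply orderOf_eq_prime
    · apply Subtype.ext
      rw [Matrix.ext_iff_mulVec]
      intro v
      have hvv : ∀ w : Fin m ⊕ Fin m → F, w + w = 0 := by
        intro w
        funext i
        exact CharTwo.add_self_eq_zero (w i)
      rw [pow_two, sp_coe_mul_mulVec, ha, ha, map_add, hNN, add_zero, add_assoc, hvv, add_zero]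
      simp
    · intro h1
      obtain ⟨i⟩ := ‹Nonempty I›
      have h2 := ha (x i)
      rw [h1, hNx] at h2
      simp only [Submonoid.coe_one, Matrix.one_mulVec, left_eq_add] at h2
      exact he0 _ h2
  · rw [← finrank_range_nilOf]
    have hr : range (nilOf a) = Submodule.span F (Set.range e) := by
      apply le_antisymm
      · rintro _ ⟨v, rfl⟩
        rw [hnil, nilFam_apply]
        apply Submodule.sum_mem
        intro i _
        exact Submodule.smul_mem _ _ (Submodule.subset_span ⟨π i, rfl⟩)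
      · rw [Submodule.span_le]
        rintro _ ⟨i, rfl⟩
        exact ⟨x (π i), by rw [hnil, hNx, hπ i]⟩
    rw [hr, finrank_span_eq_card hli]

end Construct

section Standard

variable {I : Type*} (ι : I → Fin m)

/-- standard isotropic family -/
def stdE (i : I) : Fin m ⊕ Fin m → F := Pi.single (Sum.inl (ι i)) 1
/-- the dual family -/
def stdX (i : I) : Fin m ⊕ Fin m → F := Pi.single (Sum.inr (ι i)) 1

theorem stdE_stdE (i j : I) : sympB m F (stdE ι i) (stdE ι j) = 0 := by
  rw [sympB_apply, stdE, stdE, sympForm_single_inl_right]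
  simp

theorem stdX_stdE [DecidableEq I] (hι : Function.Injective ι) (i j : I) :
    sympB m F (stdX ι i) (stdE ι j) = if i = j then 1 else 0 := by
  rw [sympB_apply, stdX, stdE, sympForm_single_inl_right, Pi.single_apply]
  by_cases h : i = j
  · subst h; simp
  · rw [if_neg h, if_neg]
    intro h2
    exact h (hι (Sum.inr_injective h2)).symm

end Standard

/-- non alternating involutions of every rank -/
theorem exists_invol_nonalt (r : ℕ) (h1 : 1 ≤ r) (hr : r ≤ m) :
    ∃ a : Matrix.symplecticGroup (Fin m) F, orderOf a = 2 ∧ ¬ IsAltInvol a ∧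
      ((a : Matrix (Fin m ⊕ Fin m) (Fin m ⊕ Fin m) F) - 1).rank = r := by
  have hne : Nonempty (Fin r) := ⟨⟨0, h1⟩⟩
  have hinj : Function.Injective (Fin.castLE hr) := Fin.castLE_injective hr
  obtain ⟨a, ha, hN, hrank⟩ := exists_invol (F := F) (m := m) (_root_.id : Fin r → Fin r) (fun _ => rfl)
    (stdX (Fin.castLE hr)) (stdE (Fin.castLE hr)) (stdE_stdE _) (stdX_stdE _ hinj)
  refine ⟨a, ha, ?_, by rw [hrank, Fintype.card_fin]⟩
  intro halt
  have h2 := halt (stdX (Fin.castLE hr) ⟨0, h1⟩)
  rw [← sympB_nilOf_self, hN] at h2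
  simp only [stdX_stdE _ hinj, _root_.id, ite_smul, one_smul, zero_smul, Finset.sum_ite_eq,
    Finset.mem_univ, if_true] at h2
  exact one_ne_zero h2

/-- alternating involutions of every even rank -/
theorem exists_invol_alt (s : ℕ) (h1 : 1 ≤ s) (hs : 2 * s ≤ m) :
    ∃ a : Matrix.symplecticGroup (Fin m) F, orderOf a = 2 ∧ IsAltInvol a ∧
      ((a : Matrix (Fin m ⊕ Fin m) (Fin m ⊕ Fin m) F) - 1).rank = 2 * s := by
  have hne : Nonempty (Fin s ⊕ Fin s) := ⟨Sum.inl ⟨0, h1⟩⟩
  have hs' : s + s ≤ m := by omega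
  let ι : Fin s ⊕ Fin s → Fin m := fun p => Fin.castLE hs' (finSumFinEquiv p)
  have hinj : Function.Injective ι :=
    (Fin.castLE_injective hs').comp finSumFinEquiv.injective
  obtain ⟨a, ha, hN, hrank⟩ := exists_invol (F := F) (m := m) (Sum.swap : Fin s ⊕ Fin s → _)
    Sum.swap_swap (stdX ι) (stdE ι) (stdE_stdE _) (stdX_stdE _ hinj)
  refine ⟨a, ha, ?_, by rw [hrank, Fintype.card_sum, Fintype.card_fin, two_mul]⟩
  intro v
  rw [← sympB_nilOf_self, hN, map_sum, Fintype.sum_sum_type]
  simp only [map_smul, smul_eq_mul, Sum.swap_inl, Sum.swap_inr]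
  rw [← Finset.sum_add_distrib]
  apply Finset.sum_eq_zero
  intro i _
  rw [mul_comm, CharTwo.add_self_eq_zero]

theorem rank_invol_le {a : Matrix.symplecticGroup (Fin m) F} (ha : orderOf a = 2) :
    1 ≤ ((a : Matrix (Fin m ⊕ Fin m) (Fin m ⊕ Fin m) F) - 1).rank ∧
      ((a : Matrix (Fin m ⊕ Fin m) (Fin m ⊕ Fin m) F) - 1).rank ≤ m := by
  rw [← finrank_range_nilOf]
  constructor
  · rw [Nat.one_le_iff_ne_zero]
    intro h0
    rw [Submodule.finrank_eq_zero, LinearMap.range_eq_bot] at h0
    exact nilOf_ne_zero ha h0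
  · have := two_mul_rank_le_of_sq_zero (nilOf a) (nilOf_sq ha)
    rw [Module.finrank_pi, Fintype.card_sum, Fintype.card_fin] at this
    omega

end Cfsg.Agent.Lib.Helper48
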