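import Mathlib
import Cfsg.Agent.Lib.Helper48.JordanGL

set_option autoImplicit false
set_option linter.unusedSectionVars false

namespace Cfsg.Agent.Lib.Helper48

open Module LinearMap Polynomial

universe u

variable {F : Type u} [Field F]
variable {V : Type u} [AddCommGroup V] [Module F V] [FiniteDimensional F V]

/-- The Jordan type of a nilpotent map splits along an invariant direct decomposition. -/
theorem JType.exists_add_of_isCompl {N : End F V} (hN : IsNilpotent N) {μ : Multiset ℕ}
    (hμ : ∀ b ∈ μ, 1 ≤ b) (hJ : JType N μ) (A B : Submodule F V) (hAB : IsCompl A B)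
    (hA : ∀ x ∈ A, N x ∈ A) (hB : ∀ x ∈ B, N x ∈ B) :
    ∃ ν₁ ν₂ : Multiset ℕ, μ = ν₁ + ν₂ ∧ ν₁.sum = finrank F A ∧ ν₂.sum = finrank F B := by
  have hnil : ∀ (W : Submodule F V) (hW : ∀ x ∈ W, N x ∈ W),
      IsNilpotent (N.restrict hW : End F W) := by
    intro W hW
    obtain ⟨m, hm⟩ := hN
    refine ⟨m, ?_⟩
    rw [Module.End.pow_restrict]
    ext x
    simp [hm]
  obtain ⟨ν₁, h1, hJ1⟩ := exists_jtype _ A (N.restrict hA) rfl (hnil A hA)
  obtain ⟨ν₂, h2, hJ2⟩ := exists_jtype _ B (N.restrict hB) rfl (hnil B hB)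
  refine ⟨ν₁, ν₂, ?_, hJ1.sum_eq (hnil A hA), hJ2.sum_eq (hnil B hB)⟩
  have hJ' : JType N (ν₁ + ν₂) := by
    refine JType.of_intertwine (Submodule.prodEquivOfIsCompl A B hAB) ?_ (hJ1.prodMap hJ2)
    rintro ⟨x, y⟩
    simp [Submodule.coe_prodEquivOfIsCompl']
  refine hJ.unique hJ' hμ ?_
  intro b hb
  rcases Multiset.mem_add.1 hb with hb | hb
  · exact h1 b hb
  · exact h2 b hb

theorem sum_eq_sum_min_pred_add_count (μ : Multiset ℕ) (p : ℕ) (hp : 1 ≤ p)
    (h : ∀ b ∈ μ, b ≤ p) :
    μ.sum = (μ.map (fun b => min b (p - 1))).sum + μ.count p := by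
  induction μ using Multiset.induction_on with
  | empty => simp
  | cons b μ ih =>
    have hb : b ≤ p := h b (Multiset.mem_cons_self b μ)
    have ih' := ih (fun c hc => h c (Multiset.mem_cons_of_mem hc))
    rw [Multiset.sum_cons, Multiset.map_cons, Multiset.sum_cons, Multiset.count_cons, ih']
    split_ifs with hpb
    · subst hpb
      have : min p (p - 1) = p - 1 := by omega
      omega
    · have : min b (p - 1) = b := by omega
      omega

theorem sub_one_pow_pred_eq_geom_sum (p : ℕ) [Fact p.Prime] [CharP F p] (U : End F V) :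
    (U - 1) ^ (p - 1) = ∑ i ∈ Finset.range p, U ^ i := by
  have hp : 1 ≤ p := (Fact.out : p.Prime).one_lt.le
  have h : ((X : F[X]) - 1) ^ (p - 1) = ∑ i ∈ Finset.range p, (X : F[X]) ^ i := by
    have hne : (X : F[X]) - 1 ≠ 0 := by
      have := Polynomial.X_sub_C_ne_zero (1 : F)
      simpa using this
    apply mul_right_cancel₀ hne
    rw [geom_sum_mul, ← pow_succ, Nat.sub_add_cancel hp, sub_pow_char, one_pow]
  have := congrArg (aeval U) h
  simpa using this

theorem map_pow_decomp {t : ℕ} (U : End F V) (D : Fin t → Submodule F V)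
    (σ : Equiv.Perm (Fin t)) (hσ : ∀ j, (D j).map U = D (σ j)) (i : ℕ) (j : Fin t) :
    (D j).map (U ^ i) = D ((σ ^ i) j) := by
  induction i with
  | zero =>
    rw [pow_zero, pow_zero, Equiv.Perm.one_apply]
    exact Submodule.map_id _
  | succ i ih =>
    rw [pow_succ', Module.End.mul_eq_comp, Submodule.map_comp, ih, hσ, pow_succ',
      Equiv.Perm.mul_apply]

/-- A unipotent map of order `p` permuting the summands of an equidimensional decomposition:
its Jordan type contains a partition of the common dimension, unless there are many blocks of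
size `p`. -/
theorem exists_sub_partition_of_decomp (p : ℕ) [Fact p.Prime] [CharP F p] {t a : ℕ}
    (U : End F V) (μ : Multiset ℕ) (hμ : ∀ b ∈ μ, 1 ≤ b) (hμp : ∀ b ∈ μ, b ≤ p)
    (hN : IsNilpotent (U - 1)) (hJ : JType (U - 1) μ)
    (D : Fin t → Submodule F V) (hfin : ∀ i, finrank F (D i) = a) (hind : iSupIndep D)
    (htop : iSup D = ⊤) (ha : 0 < a) (ht : 0 < t)
    (σ : Equiv.Perm (Fin t)) (hσ : ∀ j, (D j).map U = D (σ j)) (hcount : μ.count p < a) :
    ∃ ν : Multiset ℕ, ν ≤ μ ∧ ν.sum = a := by
  have hpp : p.Prime := Fact.out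
  by_cases hfix : ∃ j, σ j = j
  · obtain ⟨j, hj⟩ := hfix
    have hUA : ∀ x ∈ D j, U x ∈ D j := by
      intro x hx
      have : U x ∈ (D j).map U := Submodule.mem_map_of_mem hx
      rwa [hσ, hj] at this
    have hUB : ∀ x ∈ ⨆ (i) (_ : i ≠ j), D i, U x ∈ ⨆ (i) (_ : i ≠ j), D i := by
      intro x hx
      have h1 : U x ∈ (⨆ (i) (_ : i ≠ j), D i).map U := Submodule.mem_map_of_mem hx
      have h2 : (⨆ (i) (_ : i ≠ j), D i).map U ≤ ⨆ (i) (_ : i ≠ j), D i := by
        rw [Submodule.map_iSup]
        refine iSup_le fun i => ?_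
        rw [Submodule.map_iSup]
        refine iSup_le fun hi => ?_
        rw [hσ]
        have : σ i ≠ j := by
          intro h
          apply hi
          apply σ.injective
          rw [h, hj]
        exact le_iSup₂_of_le (σ i) this le_rfl
      exact h2 h1
    have hcompl : IsCompl (D j) (⨆ (i) (_ : i ≠ j), D i) := by
      refine ⟨hind j, ?_⟩
      rw [codisjoint_iff, ← htop]
      exact (iSup_split_single D j).symm
    obtain ⟨ν₁, ν₂, h1, h2, -⟩ := hJ.exists_add_of_isCompl hN hμ (D j) _ hcompl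
      (fun x hx => by
        rw [LinearMap.sub_apply, Module.End.one_apply]
        exact Submodule.sub_mem _ (hUA x hx) hx)
      (fun x hx => by
        rw [LinearMap.sub_apply, Module.End.one_apply]
        exact Submodule.sub_mem _ (hUB x hx) hx)
    refine ⟨ν₁, ?_, by rw [h2, hfin]⟩
    rw [h1]
    exact Multiset.le_add_right _ _
  · exfalso
    push Not at hfix
    let j₀ : Fin t := ⟨0, ht⟩
    have hNp : (U - 1) ^ p = 0 := (hJ.pow_eq_zero_iff hN p).2 hμp
    have hUp : U ^ p = 1 := by
      have := sub_one_pow_char_pow p U 1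
      rw [pow_one, hNp] at this
      exact (sub_eq_zero.1 this.symm)
    have hinj : Function.Injective D := hind.injective (by
      intro i hi
      have := hfin i
      rw [hi, finrank_bot] at this
      omega)
    have hσp : (σ ^ p) j₀ = j₀ := by
      apply hinj
      rw [← map_pow_decomp U D σ hσ, hUp]
      exact Submodule.map_id _
    have hσi : ∀ i, 0 < i → i < p → (σ ^ i) j₀ ≠ j₀ := by
      intro i hi hip h
      have h1 : Function.IsPeriodicPt σ i j₀ := by
        rw [Function.IsPeriodicPt, Function.IsFixedPt, Equiv.Perm.iterate_eq_pow]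
        exact h
      have h2 : Function.IsPeriodicPt σ p j₀ := by
        rw [Function.IsPeriodicPt, Function.IsFixedPt, Equiv.Perm.iterate_eq_pow]
        exact hσp
      have h3 := h1.gcd h2
      have h4 : Nat.gcd i p = 1 := by
        exact Nat.Coprime.symm ((Nat.Prime.coprime_iff_not_dvd hpp).2
          (fun hd => absurd (Nat.le_of_dvd hi hd) (by omega)))
      rw [h4] at h3
      exact hfix j₀ h3
    have hdisj : Disjoint (D j₀) (ker ((U - 1) ^ (p - 1))) := by
      rw [Submodule.disjoint_def]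
      intro v hv hk
      rw [LinearMap.mem_ker, sub_one_pow_pred_eq_geom_sum p U, LinearMap.sum_apply] at hk
      have hp1 : p = (p - 1) + 1 := by have := hpp.one_lt; omega
      rw [hp1, Finset.sum_range_succ'] at hk
      simp only [pow_zero, Module.End.one_apply] at hk
      have hmem : (∑ i ∈ Finset.range (p - 1), (U ^ (i + 1)) v) ∈ ⨆ (i) (_ : i ≠ j₀), D i := by
        refine Submodule.sum_mem _ fun i hi => ?_
        have h1 : (U ^ (i + 1)) v ∈ (D j₀).map (U ^ (i + 1)) := Submodule.mem_map_of_mem hv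
        rw [map_pow_decomp U D σ hσ] at h1
        have h2 : (σ ^ (i + 1)) j₀ ≠ j₀ := hσi (i + 1) (Nat.succ_pos _) (by
          have := Finset.mem_range.1 hi
          omega)
        exact (le_iSup₂_of_le ((σ ^ (i + 1)) j₀) h2 le_rfl :
          D ((σ ^ (i + 1)) j₀) ≤ ⨆ (i) (_ : i ≠ j₀), D i) h1
      have hv2 : v ∈ ⨆ (i) (_ : i ≠ j₀), D i := by
        have : v = -(∑ i ∈ Finset.range (p - 1), (U ^ (i + 1)) v) := by
          rw [eq_neg_iff_add_eq_zero, add_comm]
          exact hk
        rw [this]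
        exact Submodule.neg_mem _ hmem
      exact (Submodule.disjoint_def.1 (hind j₀)) v hv hv2
    have h1 := Submodule.finrank_add_finrank_le_of_disjoint hdisj
    rw [hfin, hJ (p - 1), ← hJ.sum_eq hN,
      sum_eq_sum_min_pred_add_count μ p hpp.one_lt.le hμp] at h1
    omega

end Cfsg.Agent.Lib.Helper48
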