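import Mathlib

set_option autoImplicit false

namespace Cfsg.Agent.Lib.Helper48

/-- Splitting of a `G`-class contained in a normal subgroup `S = ker δ` into `S`-classes. -/
theorem card_classes_eq_index {S G A : Type*} [Group S] [Group G] [CommGroup A]
    (ι : S →* G) (hι : Function.Injective ι) (δ : G →* A)
    (hex : ∀ g, δ g = 1 ↔ g ∈ ι.range) (hδ : Function.Surjective δ)
    (X : S → Prop) (u₀ : S)
    (hX : ∀ u, X u ↔ ∃ g : G, g * ι u₀ * g⁻¹ = ι u)
    (H : Subgroup A) (hH : ∀ a, a ∈ H ↔ ∃ g, Commute g (ι u₀) ∧ δ g = a) :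
    Nat.card {C : ConjClasses S // ∃ u, ConjClasses.mk u = C ∧ X u} = H.index := by
  classical
  choose d hd using hδ
  have hu₀ : δ (ι u₀) = 1 := (hex _).2 ⟨u₀, rfl⟩
  have hs : ∀ a : A, ∃ s : S, ι s = d a * ι u₀ * (d a)⁻¹ := by
    intro a
    have : δ (d a * ι u₀ * (d a)⁻¹) = 1 := by
      rw [map_mul, map_mul, map_inv, hu₀, mul_one, mul_inv_cancel]
    exact (hex _).1 this
  choose s hs using hs
  let Θ : A → {C : ConjClasses S // ∃ u, ConjClasses.mk u = C ∧ X u} := fun a =>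
    ⟨ConjClasses.mk (s a), s a, rfl, (hX _).2 ⟨d a, (hs a).symm⟩⟩
  have hsurj : Function.Surjective Θ := by
    rintro ⟨C, u, rfl, hu⟩
    obtain ⟨g, hg⟩ := (hX u).1 hu
    refine ⟨δ g, ?_⟩
    apply Subtype.ext
    change ConjClasses.mk (s (δ g)) = ConjClasses.mk u
    rw [ConjClasses.mk_eq_mk_iff_isConj, isConj_iff]
    have h1 : δ (g * (d (δ g))⁻¹) = 1 := by rw [map_mul, map_inv, hd, mul_inv_cancel]
    obtain ⟨c, hc⟩ := (hex _).1 h1
    refine ⟨c, hι ?_⟩
    rw [map_mul, map_mul, map_inv, hc, hs, ← hg]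
    group
  have hker : ∀ a b : A, Θ a = Θ b ↔ a⁻¹ * b ∈ H := by
    intro a b
    have e1 : Θ a = Θ b ↔ IsConj (s a) (s b) := by
      rw [← ConjClasses.mk_eq_mk_iff_isConj]
      exact Subtype.ext_iff
    rw [e1, isConj_iff]
    constructor
    · rintro ⟨c, hc⟩
      have h2 := congrArg ι hc
      rw [map_mul, map_mul, map_inv, hs, hs] at h2
      have h3 : (b⁻¹ * a) ∈ H := by
        rw [hH]
        refine ⟨(d b)⁻¹ * ι c * d a, ?_, ?_⟩
        · have h4 : (d b)⁻¹ * ι c * d a * ι u₀ = ι u₀ * ((d b)⁻¹ * ι c * d a) := by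
            have h5 : ι c * d a * ι u₀ = d b * ι u₀ * (d b)⁻¹ * ι c * d a := by
              rw [← h2]; group
            calc (d b)⁻¹ * ι c * d a * ι u₀ = (d b)⁻¹ * (ι c * d a * ι u₀) := by group
              _ = (d b)⁻¹ * (d b * ι u₀ * (d b)⁻¹ * ι c * d a) := by rw [h5]
              _ = ι u₀ * ((d b)⁻¹ * ι c * d a) := by group
          exact h4
        · rw [map_mul, map_mul, map_inv, hd, hd, (hex (ι c)).2 ⟨c, rfl⟩, mul_one]
      have := H.inv_mem h3
      rwa [mul_inv_rev, inv_inv] at this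
    · intro hab
      obtain ⟨g, hg, hgd⟩ := (hH _).1 hab
      have h1 : δ (d b * g⁻¹ * (d a)⁻¹) = 1 := by
        rw [map_mul, map_mul, map_inv, map_inv, hd, hd, hgd]
        simp
      obtain ⟨c, hc⟩ := (hex _).1 h1
      refine ⟨c, hι ?_⟩
      rw [map_mul, map_mul, map_inv, hc, hs, hs]
      have h6 : g⁻¹ * ι u₀ * g = ι u₀ := by
        rw [mul_assoc, ← hg.eq, ← mul_assoc, inv_mul_cancel, one_mul]
      calc d b * g⁻¹ * (d a)⁻¹ * (d a * ι u₀ * (d a)⁻¹) * (d b * g⁻¹ * (d a)⁻¹)⁻¹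
          = d b * (g⁻¹ * ι u₀ * g) * (d b)⁻¹ := by group
        _ = d b * ι u₀ * (d b)⁻¹ := by rw [h6]
  let Θq : A ⧸ H → {C : ConjClasses S // ∃ u, ConjClasses.mk u = C ∧ X u} :=
    Quotient.lift Θ (by
      intro a b hab
      exact (hker a b).2 (QuotientGroup.leftRel_apply.1 hab))
  have hbij : Function.Bijective Θq := by
    constructor
    · intro x y
      induction x using QuotientGroup.induction_on with | _ a => ?_
      induction y using QuotientGroup.induction_on with | _ b => ?_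
      intro hxy
      exact QuotientGroup.eq.2 ((hker a b).1 hxy)
    · intro C
      obtain ⟨a, ha⟩ := hsurj C
      exact ⟨(a : A ⧸ H), ha⟩
  rw [Subgroup.index, Nat.card_eq_of_bijective Θq hbij]

end Cfsg.Agent.Lib.Helper48
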