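import Cfsg.Agent.Lib.Helper48.SingerFrob
import Cfsg.Agent.Lib.Helper50.SemiConj

/-! Elements of order three of `SL_3`: characteristic polynomial and conjugacy. -/

set_option autoImplicit false

namespace Cfsg.Agent.Lib.Helper48

open Cfsg Cfsg.Geo Polynomial
open scoped MatrixGroups Matrix

variable {F : Type*} [Field F]

/-- the remainder `charpoly - (X^3 - z)`. -/
theorem s3_rem (x : Matrix (Fin 3) (Fin 3) F) (z : F) (hx : x ^ 3 = z • 1) (hd : x.det = 1) :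
    ∃ a b : F, x.charpoly - (X ^ 3 - C z) = C a * X ^ 2 + C b * X + C (z - 1) ∧
      a • x ^ 2 + b • x + (z - 1) • 1 = 0 := by
  obtain ⟨r, hr⟩ : ∃ r, r = x.charpoly - (X ^ 3 - C z) := ⟨_, rfl⟩
  have hdeg : x.charpoly.degree = 3 := by
    rw [Matrix.charpoly_degree_eq_dim]; rfl
  have hdeg' : (X ^ 3 - C z : F[X]).degree = 3 := degree_X_pow_sub_C (by norm_num) z
  have hlt : r.degree < 3 := by
    rw [hr, ← hdeg]
    apply degree_sub_lt_left (by rw [hdeg, hdeg'])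
    · exact x.charpoly_monic.ne_zero
    · rw [x.charpoly_monic.leadingCoeff, (monic_X_pow_sub_C z (by norm_num)).leadingCoeff]
  have hc0 : r.coeff 0 = z - 1 := by
    have h1 := Matrix.det_eq_sign_charpoly_coeff x
    rw [hd] at h1
    simp only [Fintype.card_fin] at h1
    have h2 : x.charpoly.coeff 0 = -1 := by linear_combination h1
    rw [hr]
    simp [h2]
    ring
  have hform : r = C (r.coeff 2) * X ^ 2 + C (r.coeff 1) * X + C (z - 1) := by
    ext i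
    rcases i with _ | _ | _ | i
    · simp [hc0]
    · simp [coeff_one]
    · simp [coeff_one]
    · rw [coeff_eq_zero_of_degree_lt (lt_of_lt_of_le hlt (by
        have : (3 : ℕ) ≤ i + 1 + 1 + 1 := by omega
        exact_mod_cast this))]
      simp [coeff_one]
  refine ⟨r.coeff 2, r.coeff 1, hr ▸ hform, ?_⟩
  have h0 : aeval x r = 0 := by
    rw [hr, map_sub, Matrix.aeval_self_charpoly]
    simp [hx, Algebra.algebraMap_eq_smul_one]
  rw [hform] at h0
  simpa only [map_add, map_mul, aeval_C, map_pow, aeval_X, Algebra.algebraMap_eq_smul_one,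
    smul_mul_assoc, one_mul] using h0

/-- P3: a non-scalar element of `SL_3` with cube one has characteristic polynomial `X^3 - 1`. -/
theorem s3_charpoly (x : Matrix (Fin 3) (Fin 3) F) (hx : x ^ 3 = 1) (hd : x.det = 1)
    (hns : ∀ z : F, x ≠ z • 1) : x.charpoly = X ^ 3 - 1 := by
  obtain ⟨a, b, h1, h2⟩ := s3_rem x 1 (by rw [hx, one_smul]) hd
  rw [sub_self, zero_smul, add_zero] at h2
  have h3 : a • x + b • (1 : Matrix (Fin 3) (Fin 3) F) = 0 := by
    have h4 : x ^ 2 * (a • x ^ 2 + b • x) = a • x + b • (1 : Matrix (Fin 3) (Fin 3) F) := by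
      rw [mul_add, mul_smul_comm, mul_smul_comm, ← pow_add, ← pow_succ, hx]
      have : x ^ (2 + 2) = x := by
        calc x ^ (2 + 2) = x ^ 3 * x := by rw [← pow_succ]
          _ = x := by rw [hx, one_mul]
      rw [this]
    rw [← h4, h2, mul_zero]
  have ha : a = 0 := by
    by_contra ha
    apply hns (-(a⁻¹ * b))
    have h5 : a • x = -(b • (1 : Matrix (Fin 3) (Fin 3) F)) := eq_neg_of_add_eq_zero_left h3
    calc x = a⁻¹ • (a • x) := by rw [smul_smul, inv_mul_cancel₀ ha, one_smul]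
      _ = (-(a⁻¹ * b)) • 1 := by rw [h5, smul_neg, smul_smul, neg_smul]
  have hb : b = 0 := by
    rw [ha, zero_smul, zero_add] at h3
    have := congrFun (congrFun h3 0) 0
    simpa using this
  rw [ha, hb] at h1
  simp only [map_zero, zero_mul, add_zero, sub_self, map_one] at h1
  exact sub_eq_zero.1 h1

/-- no element of `SL_3` has cube a scalar `z ≠ 1` with `X^3 - z` irreducible. -/
theorem s3_no_irr (x : Matrix (Fin 3) (Fin 3) F) (z : F) (hx : x ^ 3 = z • 1) (hd : x.det = 1)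
    (hz : z ≠ 1) (hirr : Irreducible (X ^ 3 - C z : F[X])) : False := by
  obtain ⟨a, b, _, h2⟩ := s3_rem x z hx hd
  have hmin : (X ^ 3 - C z : F[X]) = minpoly F x := by
    apply minpoly.eq_of_irreducible_of_monic hirr _ (monic_X_pow_sub_C z (by norm_num))
    simp [hx, Algebra.algebraMap_eq_smul_one]
  have hp0 : (C a * X ^ 2 + C b * X + C (z - 1) : F[X]) ≠ 0 := by
    intro h
    have := congrArg (fun p => coeff p 0) h
    simp at this
    exact hz (sub_eq_zero.1 this)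
  have hle := minpoly.degree_le_of_ne_zero F x hp0 (by
    simpa only [map_add, map_mul, aeval_C, map_pow, aeval_X, Algebra.algebraMap_eq_smul_one,
      smul_mul_assoc, one_mul] using h2)
  rw [← hmin, degree_X_pow_sub_C (by norm_num) z] at hle
  have hlt : (C a * X ^ 2 + C b * X + C (z - 1) : F[X]).degree < 3 := by
    have := degree_quadratic_le (a := a) (b := b) (c := z - 1)
    exact lt_of_le_of_lt this (by norm_num)
  exact absurd hle (not_le.2 hlt)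

/-- the cyclic permutation matrix. -/
def s3Pi (F : Type*) [Field F] : Matrix (Fin 3) (Fin 3) F := !![0, 0, 1; 1, 0, 0; 0, 1, 0]

/-- the circulant `1 + t J`. -/
def s3C (t : F) : Matrix (Fin 3) (Fin 3) F := !![1 + t, t, t; t, 1 + t, t; t, t, 1 + t]

theorem s3C_det (t : F) : (s3C t).det = 1 + 3 * t := by
  rw [s3C, Matrix.det_fin_three]
  simp
  ring

theorem s3C_comm (t : F) : s3Pi F * s3C t = s3C t * s3Pi F := by
  ext i j
  fin_cases i <;> fin_cases j <;> simp [s3Pi, s3C, Matrix.mul_apply, Fin.sum_univ_three]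

theorem s3Pi_pow : s3Pi F ^ 3 = 1 := by
  ext i j
  fin_cases i <;> fin_cases j <;> simp [s3Pi, pow_succ, Matrix.mul_apply, Fin.sum_univ_three]

theorem s3Pi_charpoly : (s3Pi F).charpoly = X ^ 3 - 1 := by
  apply s3_charpoly _ s3Pi_pow
  · rw [s3Pi, Matrix.det_fin_three]; simp
  · intro z h
    have := congrFun (congrFun h 1) 0
    simp [s3Pi] at this

/-- P4: conjugacy by a matrix of determinant one. -/
theorem s3_conj (h3 : (3 : F) ≠ 0) (x φ : Matrix (Fin 3) (Fin 3) F) (hx : x ^ 3 = 1) (hφ : φ ^ 3 = 1)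
    (hcx : x.charpoly = X ^ 3 - 1) (hcφ : φ.charpoly = X ^ 3 - 1) :
    ∃ P : Matrix (Fin 3) (Fin 3) F, P.det = 1 ∧ x * P = P * φ := by
  have h3' : ((3 : ℕ) : F) ≠ 0 := by exact_mod_cast h3
  obtain ⟨X₁, hX₁⟩ := Cfsg.Agent.Lib.Helper50.SemiConj.exists_conj_of_pow x (s3Pi F) 3 3 h3' h3' hx s3Pi_pow
    (by rw [hcx, s3Pi_charpoly])
  obtain ⟨X₂, hX₂⟩ := Cfsg.Agent.Lib.Helper50.SemiConj.exists_conj_of_pow φ (s3Pi F) 3 3 h3' h3' hφ s3Pi_pow
    (by rw [hcφ, s3Pi_charpoly])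
  have i1 : ((X₁⁻¹ : (Matrix (Fin 3) (Fin 3) F)ˣ) : Matrix (Fin 3) (Fin 3) F) * (X₁ : Matrix (Fin 3) (Fin 3) F) = 1 := by
    rw [← Units.val_mul, inv_mul_cancel, Units.val_one]
  have i1' : (X₁ : Matrix (Fin 3) (Fin 3) F) * ((X₁⁻¹ : (Matrix (Fin 3) (Fin 3) F)ˣ) : Matrix (Fin 3) (Fin 3) F) = 1 := by
    rw [← Units.val_mul, mul_inv_cancel, Units.val_one]
  have i2 : ((X₂⁻¹ : (Matrix (Fin 3) (Fin 3) F)ˣ) : Matrix (Fin 3) (Fin 3) F) * (X₂ : Matrix (Fin 3) (Fin 3) F) = 1 := by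
    rw [← Units.val_mul, inv_mul_cancel, Units.val_one]
  have d1 : ((X₁⁻¹ : (Matrix (Fin 3) (Fin 3) F)ˣ) : Matrix (Fin 3) (Fin 3) F).det *
      (X₁ : Matrix (Fin 3) (Fin 3) F).det = 1 := by rw [← Matrix.det_mul, i1, Matrix.det_one]
  have d2 : ((X₂⁻¹ : (Matrix (Fin 3) (Fin 3) F)ˣ) : Matrix (Fin 3) (Fin 3) F).det *
      (X₂ : Matrix (Fin 3) (Fin 3) F).det = 1 := by rw [← Matrix.det_mul, i2, Matrix.det_one]
  obtain ⟨a, ha⟩ : ∃ a, a = (X₁ : Matrix (Fin 3) (Fin 3) F).det *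
      ((X₂⁻¹ : (Matrix (Fin 3) (Fin 3) F)ˣ) : Matrix (Fin 3) (Fin 3) F).det := ⟨_, rfl⟩
  refine ⟨((X₁⁻¹ : (Matrix (Fin 3) (Fin 3) F)ˣ) : Matrix (Fin 3) (Fin 3) F) * s3C ((a - 1) / 3) *
    (X₂ : Matrix (Fin 3) (Fin 3) F), ?_, ?_⟩
  · rw [Matrix.det_mul, Matrix.det_mul, s3C_det, mul_div_cancel₀ _ h3, add_sub_cancel, ha]
    calc _ = (((X₁⁻¹ : (Matrix (Fin 3) (Fin 3) F)ˣ) : Matrix (Fin 3) (Fin 3) F).det *
          (X₁ : Matrix (Fin 3) (Fin 3) F).det) *
          (((X₂⁻¹ : (Matrix (Fin 3) (Fin 3) F)ˣ) : Matrix (Fin 3) (Fin 3) F).det *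
          (X₂ : Matrix (Fin 3) (Fin 3) F).det) := by ring
      _ = 1 := by rw [d1, d2, one_mul]
  · have e1 : x * ((X₁⁻¹ : (Matrix (Fin 3) (Fin 3) F)ˣ) : Matrix (Fin 3) (Fin 3) F) =
        ((X₁⁻¹ : (Matrix (Fin 3) (Fin 3) F)ˣ) : Matrix (Fin 3) (Fin 3) F) * s3Pi F := by
      calc x * ((X₁⁻¹ : (Matrix (Fin 3) (Fin 3) F)ˣ) : Matrix (Fin 3) (Fin 3) F)
          = ((X₁⁻¹ : (Matrix (Fin 3) (Fin 3) F)ˣ) : Matrix (Fin 3) (Fin 3) F) *
            ((X₁ : Matrix (Fin 3) (Fin 3) F) * x) *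
            ((X₁⁻¹ : (Matrix (Fin 3) (Fin 3) F)ˣ) : Matrix (Fin 3) (Fin 3) F) := by
              rw [← mul_assoc, i1, one_mul]
        _ = ((X₁⁻¹ : (Matrix (Fin 3) (Fin 3) F)ˣ) : Matrix (Fin 3) (Fin 3) F) * s3Pi F := by
              rw [hX₁, mul_assoc, mul_assoc, i1', mul_one]
    rw [← mul_assoc, ← mul_assoc, e1, mul_assoc _ (s3Pi F), s3C_comm, mul_assoc, mul_assoc, mul_assoc,
      mul_assoc, hX₂]

end Cfsg.Agent.Lib.Helper48
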