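import Mathlib
import Cfsg.Agent.Lib.Helper48.QuadF2

set_option autoImplicit false
set_option linter.unusedSectionVars false
set_option linter.unusedSimpArgs false

namespace Cfsg.Agent.Lib.Helper48

open Finset

section Weight

variable {α : Type*} [Fintype α]

/-- Hamming weight -/
def wt (x : α → ZMod 2) : ℕ := ∑ p, (x p).val

theorem wt_cast (x : α → ZMod 2) : ((wt x : ℕ) : ZMod 2) = ∑ p, x p := by
  simp [wt, Nat.cast_sum, ZMod.natCast_zmod_val]

theorem wt_add (x y : α → ZMod 2) :
    wt (x + y) + 2 * ∑ p, (x p).val * (y p).val = wt x + wt y := by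
  unfold wt
  rw [Finset.mul_sum, ← Finset.sum_add_distrib, ← Finset.sum_add_distrib]
  apply Finset.sum_congr rfl
  intro p _
  simp only [Pi.add_apply]
  generalize x p = a
  generalize y p = b
  revert a b
  decide

theorem wt_comp (σ : α ≃ α) (x : α → ZMod 2) : wt (fun p => x (σ p)) = wt x :=
  Equiv.sum_comp σ (fun p => (x p).val)

theorem wt_add_one (x : α → ZMod 2) : wt (fun p => x p + 1) + wt x = Fintype.card α := by
  unfold wt
  rw [← Finset.sum_add_distrib, Fintype.card_eq_sum_ones]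
  apply Finset.sum_congr rfl
  intro p _
  simp only
  generalize x p = a
  revert a
  decide

theorem even_wt {x : α → ZMod 2} (hx : ∑ p, x p = 0) : ∃ a, wt x = 2 * a := by
  rw [← wt_cast] at hx
  exact (ZMod.natCast_eq_zero_iff _ _).1 hx

/-- half the weight modulo two -/
def hq (x : α → ZMod 2) : ZMod 2 := ((wt x / 2 : ℕ) : ZMod 2)

theorem hq_add (x y : α → ZMod 2) (hx : ∑ p, x p = 0) (hy : ∑ p, y p = 0) :
    hq (x + y) = hq x + hq y + x ⬝ᵥ y := by
  obtain ⟨a, ha⟩ := even_wt hx
  obtain ⟨b, hb⟩ := even_wt hy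
  have h := wt_add x y
  have hc : ((∑ p, (x p).val * (y p).val : ℕ) : ZMod 2) = x ⬝ᵥ y := by
    simp [dotProduct, Nat.cast_sum, ZMod.natCast_zmod_val]
  generalize (∑ p, (x p).val * (y p).val) = c at h hc
  have h1 : wt (x + y) / 2 + c = a + b := by omega
  have h2 : ((wt (x + y) / 2 : ℕ) : ZMod 2) + (c : ZMod 2) = (a : ZMod 2) + (b : ZMod 2) := by
    exact_mod_cast congrArg (Nat.cast : ℕ → ZMod 2) h1
  unfold hq
  have e1 : wt x / 2 = a := by omega
  have e2 : wt y / 2 = b := by omega
  rw [e1, e2, ← hc]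
  have := zmod2_add_self (c : ZMod 2)
  linear_combination h2 - this

theorem hq_comp (σ : α ≃ α) (x : α → ZMod 2) : hq (fun p => x (σ p)) = hq x := by
  unfold hq
  rw [wt_comp]

theorem hq_add_const (h4 : 4 ∣ Fintype.card α) (x : α → ZMod 2) (hx : ∑ p, x p = 0)
    (c : ZMod 2) : hq (fun p => x p + c) = hq x := by
  rcases (by revert c; decide : c = 0 ∨ c = 1) with rfl | rfl
  · simp
  · obtain ⟨a, ha⟩ := even_wt hx
    obtain ⟨t, ht⟩ := h4
    have h := wt_add_one x
    have h1 : wt (fun p => x p + 1) / 2 + a = 2 * t := by omega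
    have h2 : ((wt (fun p => x p + 1) / 2 : ℕ) : ZMod 2) + (a : ZMod 2) = 0 := by
      have := congrArg (Nat.cast : ℕ → ZMod 2) h1
      push_cast at this
      rw [this]
      have h3 : (2 : ZMod 2) = 0 := by decide
      rw [h3, zero_mul]
    unfold hq
    have e1 : wt x / 2 = a := by omega
    rw [e1]
    have := zmod2_add_self (a : ZMod 2)
    linear_combination h2 - this

end Weight

section Rep

variable {ι : Type*} [Fintype ι] [DecidableEq ι]

/-- extension of a vector to an even vector on two more points -/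
def ext0 (y : ι → ZMod 2) : ι ⊕ Fin 2 → ZMod 2
  | .inl i => y i
  | .inr t => if t = 0 then 0 else ∑ i, y i

theorem ext0_inl (y : ι → ZMod 2) (i : ι) : ext0 y (.inl i) = y i := rfl
theorem ext0_inr_zero (y : ι → ZMod 2) : ext0 y (.inr 0) = 0 := rfl
theorem ext0_inr_one (y : ι → ZMod 2) : ext0 y (.inr 1) = ∑ i, y i := rfl

/-- the retraction -/
def res0 (x : ι ⊕ Fin 2 → ZMod 2) : ι → ZMod 2 := fun i => x (.inl i) + x (.inr 0)

theorem ext0_add (y y' : ι → ZMod 2) : ext0 (y + y') = ext0 y + ext0 y' := by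
  funext p
  rcases p with i | t
  · rfl
  · fin_cases t
    · simp [ext0]
    · simp [ext0, Finset.sum_add_distrib]

theorem sum_ext0 (y : ι → ZMod 2) : ∑ p, ext0 y p = 0 := by
  rw [Fintype.sum_sum_type, Fin.sum_univ_two]
  simp only [ext0_inl, ext0_inr_zero, ext0_inr_one, zero_add]
  exact zmod2_add_self _

theorem res0_ext0 (y : ι → ZMod 2) : res0 (ext0 y) = y := by
  funext i
  simp [res0, ext0_inl, ext0_inr_zero]

theorem res0_add_const (x : ι ⊕ Fin 2 → ZMod 2) (c : ZMod 2) :
    res0 (fun p => x p + c) = res0 x := by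
  funext i
  simp only [res0]
  have := zmod2_add_self c
  linear_combination this

theorem ext0_res0 (heven : Even (Fintype.card ι)) (x : ι ⊕ Fin 2 → ZMod 2)
    (hx : ∑ p, x p = 0) : ext0 (res0 x) = fun p => x p + x (.inr 0) := by
  funext p
  rcases p with i | t
  · rfl
  · fin_cases t
    · exact (zmod2_add_self _).symm
    · change ∑ i, (x (.inl i) + x (.inr 0)) = x (.inr 1) + x (.inr 0)
      rw [Fintype.sum_sum_type, Fin.sum_univ_two] at hx
      rw [Finset.sum_add_distrib, Finset.sum_const, Finset.card_univ]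
      obtain ⟨r, hr⟩ := heven
      have h1 : Fintype.card ι • x (Sum.inr 0) = 0 := by
        rw [hr, add_smul, zmod2_add_self]
      rw [h1, add_zero]
      have h2 := zmod2_add_self (x (.inr 0) + x (.inr 1))
      linear_combination hx - h2

/-- the underlying function of the representation -/
def repFun (σ : Equiv.Perm (ι ⊕ Fin 2)) (y : ι → ZMod 2) : ι → ZMod 2 :=
  res0 (fun p => ext0 y (σ⁻¹ p))

theorem repFun_add (σ : Equiv.Perm (ι ⊕ Fin 2)) (y y' : ι → ZMod 2) :
    repFun σ (y + y') = repFun σ y + repFun σ y' := by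
  funext i
  simp only [repFun, res0, ext0_add, Pi.add_apply]
  ring

theorem sum_perm_ext0 (σ : Equiv.Perm (ι ⊕ Fin 2)) (y : ι → ZMod 2) :
    ∑ p, ext0 y (σ⁻¹ p) = 0 := by
  rw [Equiv.sum_comp σ⁻¹ (ext0 y), sum_ext0]

theorem ext0_repFun (heven : Even (Fintype.card ι)) (σ : Equiv.Perm (ι ⊕ Fin 2))
    (y : ι → ZMod 2) :
    ext0 (repFun σ y) = fun p => ext0 y (σ⁻¹ p) + ext0 y (σ⁻¹ (.inr 0)) :=
  ext0_res0 heven _ (sum_perm_ext0 σ y)

theorem repFun_mul (heven : Even (Fintype.card ι)) (σ τ : Equiv.Perm (ι ⊕ Fin 2))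
    (y : ι → ZMod 2) : repFun (σ * τ) y = repFun σ (repFun τ y) := by
  conv_rhs => rw [repFun, ext0_repFun heven]
  rw [res0_add_const (fun p => ext0 y (τ⁻¹ (σ⁻¹ p)))]
  simp only [repFun, mul_inv_rev, Equiv.Perm.coe_mul, Function.comp_apply]

theorem repFun_one (y : ι → ZMod 2) : repFun 1 y = y := by
  simp only [repFun, inv_one, Equiv.Perm.coe_one, id_eq]
  exact res0_ext0 y

/-- the representation of the symmetric group on even vectors modulo the all one vector -/
def evenRep (heven : Even (Fintype.card ι)) :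
    Equiv.Perm (ι ⊕ Fin 2) →* Module.End (ZMod 2) (ι → ZMod 2) where
  toFun σ := AddMonoidHom.toZModLinearMap 2 (AddMonoidHom.mk' (repFun σ) (repFun_add σ))
  map_one' := by
    apply LinearMap.ext
    intro y
    exact repFun_one y
  map_mul' σ τ := by
    apply LinearMap.ext
    intro y
    exact repFun_mul heven σ τ y

theorem evenRep_apply (heven : Even (Fintype.card ι)) (σ : Equiv.Perm (ι ⊕ Fin 2))
    (y : ι → ZMod 2) : evenRep heven σ y = repFun σ y := rfl

/-- the invariant quadratic form -/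
def evenQ (y : ι → ZMod 2) : ZMod 2 := hq (ext0 y)

theorem evenQ_rep (heven : Even (Fintype.card ι)) (h4 : 4 ∣ Fintype.card ι + 2)
    (σ : Equiv.Perm (ι ⊕ Fin 2)) (y : ι → ZMod 2) : evenQ (evenRep heven σ y) = evenQ y := by
  rw [evenRep_apply, evenQ, ext0_repFun heven,
    hq_add_const (by rw [Fintype.card_sum, Fintype.card_fin]; exact h4) _ (sum_perm_ext0 σ y)]
  exact hq_comp σ⁻¹ (ext0 y)

/-- `ext0` as a linear map -/
def extLin : (ι → ZMod 2) →ₗ[ZMod 2] (ι ⊕ Fin 2 → ZMod 2) :=
  AddMonoidHom.toZModLinearMap 2 (AddMonoidHom.mk' ext0 ext0_add)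

/-- the polar form -/
noncomputable def evenB : LinearMap.BilinForm (ZMod 2) (ι → ZMod 2) :=
  (Matrix.toBilin' (1 : Matrix (ι ⊕ Fin 2) (ι ⊕ Fin 2) (ZMod 2))).comp extLin extLin

theorem evenB_apply (u v : ι → ZMod 2) : evenB u v = ext0 u ⬝ᵥ ext0 v := by
  rw [evenB, LinearMap.BilinForm.comp_apply, Matrix.toBilin'_apply', Matrix.one_mulVec]
  rfl

theorem evenB_apply' (u v : ι → ZMod 2) :
    evenB u v = u ⬝ᵥ v + (∑ i, u i) * (∑ i, v i) := by
  rw [evenB_apply, dotProduct, Fintype.sum_sum_type, Fin.sum_univ_two]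
  simp only [ext0_inl, ext0_inr_zero, ext0_inr_one, mul_zero, zero_add]
  rfl

theorem evenQ_add (u v : ι → ZMod 2) : evenQ (u + v) = evenQ u + evenQ v + evenB u v := by
  rw [evenQ, ext0_add, hq_add _ _ (sum_ext0 u) (sum_ext0 v), evenB_apply]
  rfl

theorem evenB_nondeg (heven : Even (Fintype.card ι)) (w : ι → ZMod 2) (hw : w ≠ 0) :
    ∃ u, evenB w u ≠ 0 := by
  by_contra hcon
  push Not at hcon
  apply hw
  have h1 : ∀ i, w i + ∑ j, w j = 0 := by
    intro i
    have := hcon (Pi.single i 1)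
    rw [evenB_apply', dotProduct_single, mul_one, Finset.sum_pi_single' i (1 : ZMod 2) Finset.univ,
      if_pos (Finset.mem_univ i), mul_one] at this
    exact this
  have h2 : ∀ i, w i = ∑ j, w j := by
    intro i
    have := zmod2_add_self (∑ j, w j)
    linear_combination h1 i - this
  have h3 : ∑ j, w j = 0 := by
    obtain ⟨r, hr⟩ := heven
    calc ∑ j, w j = ∑ _j : ι, ∑ j, w j := Finset.sum_congr rfl (fun i _ => h2 i)
      _ = Fintype.card ι • ∑ j, w j := by rw [Finset.sum_const, Finset.card_univ]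
      _ = 0 := by rw [hr, add_smul, zmod2_add_self]
  funext i
  rw [h2 i, h3]
  rfl

end Rep

section Faithful

variable {ι : Type*} [Fintype ι] [DecidableEq ι]

theorem exists_ne_ne (h3 : 3 ≤ Fintype.card ι) (j j' : ι) : ∃ i, i ≠ j ∧ i ≠ j' := by
  by_contra hcon
  push Not at hcon
  have h1 : (Finset.univ : Finset ι) ⊆ {j, j'} := by
    intro i _
    by_cases h : i = j
    · simp [h]
    · simp [hcon i h]
  have h2 := Finset.card_le_card h1
  have h4 : ({j, j'} : Finset ι).card ≤ 2 := Finset.card_le_two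
  rw [Finset.card_univ] at h2
  omega

theorem fin2_cases (t : Fin 2) : t = 0 ∨ t = 1 := by
  revert t; decide

theorem ext0_single_eq_one_iff (j : ι) (p : ι ⊕ Fin 2) :
    ext0 (Pi.single j 1) p = 1 ↔ p = .inl j ∨ p = .inr 1 := by
  rcases p with l | t
  · rw [ext0_inl, Pi.single_apply]
    by_cases h : l = j
    · simp [h]
    · simp [h]
  · rcases fin2_cases t with rfl | rfl
    · rw [ext0_inr_zero]
      simp
    · rw [ext0_inr_one, Finset.sum_pi_single' j (1 : ZMod 2) Finset.univ,
        if_pos (Finset.mem_univ j)]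
      simp

theorem evenRep_injective (heven : Even (Fintype.card ι)) (h3 : 3 ≤ Fintype.card ι) :
    Function.Injective (evenRep heven) := by
  rw [injective_iff_map_eq_one]
  intro σ hσ
  have key : ∀ (y : ι → ZMod 2) (i : ι),
      ext0 y (σ⁻¹ (.inl i)) + ext0 y (σ⁻¹ (.inr 0)) = y i := by
    intro y i
    exact congrArg (fun f : Module.End (ZMod 2) (ι → ZMod 2) => f y i) hσ
  generalize hτ : σ⁻¹ = τ at key
  suffices h : τ = 1 by rw [← inv_inv σ, hτ, h, inv_one]
  have hinj := τ.injective
  have h11 : (1 : ZMod 2) + 1 = 0 := by decide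
  rcases ha : τ (.inr 0) with j | t
  · exfalso
    have h1 : ∀ i, i ≠ j → τ (.inl i) = .inr 1 := by
      intro i hi
      have h2 := key (Pi.single j 1) i
      rw [ha, ext0_inl, Pi.single_eq_same, Pi.single_eq_of_ne hi] at h2
      have h4 : ext0 (Pi.single j 1) (τ (.inl i)) = 1 := by linear_combination h2 - h11
      rcases (ext0_single_eq_one_iff j _).1 h4 with h5 | h5
      · rw [← ha] at h5
        exact absurd (hinj h5) (by simp)
      · exact h5
    obtain ⟨i, hi, -⟩ := exists_ne_ne h3 j j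
    obtain ⟨i', hi', hii'⟩ := exists_ne_ne h3 j i
    have := hinj ((h1 i hi).trans (h1 i' hi').symm)
    exact hii' (Sum.inl_injective this).symm
  · rcases fin2_cases t with rfl | rfl
    · have h1 : ∀ i, τ (.inl i) = .inl i := by
        intro i
        have h2 := key (Pi.single i 1) i
        rw [ha, ext0_inr_zero, add_zero, Pi.single_eq_same] at h2
        rcases (ext0_single_eq_one_iff i _).1 h2 with h5 | h5
        · exact h5
        · exfalso
          obtain ⟨j, hj, -⟩ := exists_ne_ne h3 i i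
          have h6 := key (Pi.single j 1) i
          rw [ha, ext0_inr_zero, add_zero, h5, Pi.single_eq_of_ne (Ne.symm hj)] at h6
          have h7 := (ext0_single_eq_one_iff j (.inr 1)).2 (Or.inr rfl)
          rw [h6] at h7
          exact zero_ne_one h7
      have h2 : τ (.inr 1) = .inr 1 := by
        rcases hb : τ (.inr 1) with l | t
        · rw [← h1 l] at hb
          exact absurd (hinj hb) (by simp)
        · rcases fin2_cases t with rfl | rfl
          · rw [← ha] at hb
            exact absurd (hinj hb) (by simp)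
          · rfl
      ext1 p
      rcases p with i | t
      · exact h1 i
      · rcases fin2_cases t with rfl | rfl
        · exact ha
        · exact h2
    · exfalso
      have h1 : ∀ i j, i ≠ j → τ (.inl i) = .inl j := by
        intro i j hi
        have h2 := key (Pi.single j 1) i
        rw [ha, (ext0_single_eq_one_iff j (.inr 1)).2 (Or.inr rfl), Pi.single_eq_of_ne hi] at h2
        have h4 : ext0 (Pi.single j 1) (τ (.inl i)) = 1 := by linear_combination h2 - h11
        rcases (ext0_single_eq_one_iff j _).1 h4 with h5 | h5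
        · exact h5
        · rw [← ha] at h5
          exact absurd (hinj h5) (by simp)
      have hne : Nonempty ι := Fintype.card_pos_iff.1 (by omega)
      obtain ⟨i⟩ := hne
      obtain ⟨j, hj, -⟩ := exists_ne_ne h3 i i
      obtain ⟨j', hj', hjj'⟩ := exists_ne_ne h3 i j
      have := (h1 i j (Ne.symm hj)).symm.trans (h1 i j' (Ne.symm hj'))
      exact hjj' (Sum.inl_injective this).symm

end Faithful

section CharSum

theorem wt_ext0 {ι : Type*} [Fintype ι] (y : ι → ZMod 2) : wt (ext0 y) = wt y + wt y % 2 := by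
  have h1 : wt (ext0 y) = wt y + (∑ i, y i).val := by
    unfold wt
    rw [Fintype.sum_sum_type, Fin.sum_univ_two]
    simp only [ext0_inl, ext0_inr_zero, ext0_inr_one, ZMod.val_zero, zero_add]
  rw [h1, ← wt_cast, ZMod.val_natCast]

/-- the sign attached to a weight -/
def chi (t : ℕ) : ℤ := sgn2 (((t + 1) / 2 : ℕ) : ZMod 2)

theorem sgn2_evenQ {ι : Type*} [Fintype ι] (y : ι → ZMod 2) : sgn2 (evenQ y) = chi (wt y) := by
  unfold evenQ hq chi
  rw [wt_ext0]
  have : (wt y + wt y % 2) / 2 = (wt y + 1) / 2 := by omega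
  rw [this]

theorem chi_add_two (t : ℕ) : chi (t + 2) = - chi t := by
  unfold chi
  have : (t + 2 + 1) / 2 = (t + 1) / 2 + 1 := by omega
  rw [this, Nat.cast_add, sgn2_add, Nat.cast_one, sgn2_one]
  ring

/-- shifted weight sums -/
def FS (c N : ℕ) : ℤ := ∑ y : Fin N → ZMod 2, chi (wt y + c)

theorem FS_zero (c : ℕ) : FS c 0 = chi c := by
  unfold FS
  rw [Fintype.sum_unique]
  simp [wt]

theorem FS_succ (c N : ℕ) : FS c (N + 1) = FS c N + FS (c + 1) N := by
  unfold FS
  rw [← Fintype.sum_equiv (Fin.consEquiv (fun _ : Fin (N + 1) => ZMod 2))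
    (fun p => chi (wt (Fin.cons p.1 p.2 : Fin (N + 1) → ZMod 2) + c))
    (fun y => chi (wt y + c)) (fun p => rfl), Fintype.sum_prod_type]
  have hw : ∀ (a : ZMod 2) (y : Fin N → ZMod 2),
      wt (Fin.cons a y : Fin (N + 1) → ZMod 2) = a.val + wt y := by
    intro a y
    unfold wt
    rw [Fin.sum_univ_succ]
    simp only [Fin.cons_zero, Fin.cons_succ]
  simp only [hw]
  have hu : (Finset.univ : Finset (ZMod 2)) = {0, 1} := by decide
  rw [hu, Finset.sum_pair (by decide)]
  congr 1
  · apply Finset.sum_congr rfl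
    intro y _
    simp
  · apply Finset.sum_congr rfl
    intro y _
    congr 1
    have : (1 : ZMod 2).val = 1 := by decide
    rw [this]
    ring

theorem FS_add_two (c N : ℕ) : FS (c + 2) N = - FS c N := by
  unfold FS
  rw [← Finset.sum_neg_distrib]
  apply Finset.sum_congr rfl
  intro y _
  rw [← add_assoc, chi_add_two]

theorem FS_add_four (N : ℕ) : FS 0 (N + 4) = -4 * FS 0 N := by
  have e1 : FS 2 N = - FS 0 N := FS_add_two 0 N
  have e2 : FS 3 N = - FS 1 N := FS_add_two 1 N
  have e3 : FS 4 N = - FS 2 N := FS_add_two 2 N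
  have s1 := FS_succ 0 (N + 3)
  have s2 := FS_succ 0 (N + 2)
  have s3 := FS_succ 1 (N + 2)
  have s4 := FS_succ 0 (N + 1)
  have s5 := FS_succ 1 (N + 1)
  have s6 := FS_succ 2 (N + 1)
  have s7 := FS_succ 0 N
  have s8 := FS_succ 1 N
  have s9 := FS_succ 2 N
  have s10 := FS_succ 3 N
  simp only [zero_add, Nat.reduceAdd] at s1 s2 s3 s4 s5 s6 s7 s8 s9 s10
  have e0 : N + 4 = N + 3 + 1 := rfl
  rw [e0]
  linarith

theorem FS_two : FS 0 2 = -2 := by
  have s1 := FS_succ 0 1
  have s2 := FS_succ 0 0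
  have s3 := FS_succ 1 0
  simp only [zero_add, Nat.reduceAdd, FS_zero] at s1 s2 s3
  have c0 : chi 0 = 1 := by decide
  have c1 : chi 1 = -1 := by decide
  have c2 : chi 2 = -1 := by decide
  rw [s1, s2, s3, c0, c1, c2]
  norm_num

theorem FS_eq (k : ℕ) : FS 0 (4 * k + 2) = (-4) ^ k * (-2) := by
  induction k with
  | zero => simpa using FS_two
  | succ k ih =>
    have : 4 * (k + 1) + 2 = (4 * k + 2) + 4 := by ring
    rw [this, FS_add_four, ih]
    ring

theorem charSum_evenQ (k : ℕ) :
    charSum (evenQ : (Fin (4 * k + 2) → ZMod 2) → ZMod 2) = (-4) ^ k * (-2) := by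
  rw [← FS_eq]
  unfold charSum FS
  apply Finset.sum_congr rfl
  intro y _
  rw [sgn2_evenQ, add_zero]

end CharSum

end Cfsg.Agent.Lib.Helper48
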