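import Mathlib

set_option autoImplicit false
set_option linter.unusedSectionVars false

namespace Cfsg.Agent.Lib.Helper48

open Module

section Fixed

variable {F : Type*} [Field F]

theorem mem_fixed_zpowers_iff (σ : F ≃+* F) (x : F) :
    x ∈ FixedPoints.subfield (Subgroup.zpowers σ) F ↔ σ x = x := by
  constructor
  · intro h
    exact h ⟨σ, Subgroup.mem_zpowers σ⟩
  · intro h g
    have hle : Subgroup.zpowers σ ≤ MulAction.stabilizer (F ≃+* F) x :=
      Subgroup.zpowers_le.2 (MulAction.mem_stabilizer_iff.2 h)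
    exact MulAction.mem_stabilizer_iff.1 (hle g.2)

theorem card_fixed_zpowers [Fintype F] {q₀ r : ℕ} (hr : r ≠ 0) (hF : Fintype.card F = q₀ ^ r)
    (σ : F ≃+* F) (hσ : orderOf σ = r) :
    Nat.card (FixedPoints.subfield (Subgroup.zpowers σ) F) = q₀ := by
  classical
  have : Finite (F ≃+* F) := Finite.of_injective (fun e : F ≃+* F => (e : F → F))
    DFunLike.coe_injective
  have : Fintype (Subgroup.zpowers σ) := Fintype.ofFinite _
  have h1 := FixedPoints.finrank_eq_card (Subgroup.zpowers σ) F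
  rw [← Nat.card_eq_fintype_card, Nat.card_zpowers, hσ] at h1
  have h2 := Module.card_eq_pow_finrank (K := FixedPoints.subfield (Subgroup.zpowers σ) F) (V := F)
  rw [h1, hF] at h2
  rw [Nat.card_eq_fintype_card]
  exact (Nat.pow_left_injective (n := r) (by omega) h2).symm

end Fixed

section GLcount

variable {F : Type*} [Field F] {n : ℕ} (σ : F ≃+* F)

theorem map_smul_mat (c : F) (A : Matrix (Fin n) (Fin n) F) :
    (c • A).map σ = σ c • A.map σ := by
  ext i j
  simp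

/-- scalar matrices -/
noncomputable def scGL (n : ℕ) : Fˣ →* GL (Fin n) F :=
  Units.map (Matrix.scalar (Fin n) : F →+* Matrix (Fin n) (Fin n) F).toMonoidHom

theorem scGL_mul_val (a : Fˣ) (g : GL (Fin n) F) :
    ((scGL n a * g : GL (Fin n) F) : Matrix (Fin n) (Fin n) F) =
      (a : F) • (g : Matrix (Fin n) (Fin n) F) := by
  simp [scGL, Matrix.scalar_apply, Matrix.smul_eq_diagonal_mul]

theorem exists_entry_ne_zero (hn : 1 ≤ n) (g : GL (Fin n) F) :
    ∃ i j, (g : Matrix (Fin n) (Fin n) F) i j ≠ 0 := by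
  by_contra hcon
  push Not at hcon
  have h0 : (g : Matrix (Fin n) (Fin n) F) = 0 := by
    ext i j
    exact hcon i j
  have h1 : (g : Matrix (Fin n) (Fin n) F) * ((g⁻¹ : GL (Fin n) F) : Matrix (Fin n) (Fin n) F) = 1 := by
    rw [← Units.val_mul, mul_inv_cancel, Units.val_one]
  rw [h0, zero_mul] at h1
  have := congrFun (congrFun h1 ⟨0, hn⟩) ⟨0, hn⟩
  simp at this

/-- the `σ`-fixed invertible matrices are those over the fixed field -/
theorem card_fixed_GL [Fintype F] {q₀ : ℕ}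
    (hK : Nat.card (FixedPoints.subfield (Subgroup.zpowers σ) F) = q₀) :
    Nat.card {g : GL (Fin n) F // (g : Matrix (Fin n) (Fin n) F).map σ =
      (g : Matrix (Fin n) (Fin n) F)} = ∏ i : Fin n, (q₀ ^ n - q₀ ^ (i : ℕ)) := by
  classical
  set K := FixedPoints.subfield (Subgroup.zpowers σ) F with hKdef
  have : Fintype K := Fintype.ofFinite _
  have hc := Matrix.card_GL_field (𝔽 := K) n
  rw [← Nat.card_eq_fintype_card, hK] at hc
  rw [← hc]
  symm
  let Φ : GL (Fin n) K → {g : GL (Fin n) F // (g : Matrix (Fin n) (Fin n) F).map σ =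
      (g : Matrix (Fin n) (Fin n) F)} := fun h =>
    ⟨Matrix.GeneralLinearGroup.map K.subtype h, by
      ext i j
      simp only [Matrix.map_apply, Matrix.GeneralLinearGroup.map_apply]
      exact (mem_fixed_zpowers_iff σ _).1 (h.val i j).2⟩
  refine Nat.card_congr (Equiv.ofBijective Φ ⟨?_, ?_⟩)
  · intro h h' e
    have e' := congrArg (fun g : {g : GL (Fin n) F // (g : Matrix (Fin n) (Fin n) F).map σ =
      (g : Matrix (Fin n) (Fin n) F)} => ((g : GL (Fin n) F) : Matrix (Fin n) (Fin n) F)) e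
    apply Units.ext
    ext i j
    have := congrFun (congrFun e' i) j
    simpa [Φ] using this
  · rintro ⟨g, hg⟩
    let A : Matrix (Fin n) (Fin n) K := fun i j => ⟨(g : Matrix (Fin n) (Fin n) F) i j,
      (mem_fixed_zpowers_iff σ _).2 (by
        have := congrFun (congrFun hg i) j
        simpa using this)⟩
    have hA : A.map K.subtype = (g : Matrix (Fin n) (Fin n) F) := by
      ext i j
      rfl
    have hdet : A.det ≠ 0 := by
      intro h0
      have h1 : K.subtype A.det = (g : Matrix (Fin n) (Fin n) F).det := by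
        rw [RingHom.map_det, RingHom.mapMatrix_apply, hA]
      rw [h0, map_zero] at h1
      have h2 : IsUnit (g : Matrix (Fin n) (Fin n) F).det :=
        (Matrix.isUnit_iff_isUnit_det _).1 g.isUnit
      rw [← h1] at h2
      exact not_isUnit_zero h2
    refine ⟨Matrix.GeneralLinearGroup.mkOfDetNeZero A hdet, ?_⟩
    apply Subtype.ext
    apply Units.ext
    ext i j
    rfl

theorem card_fixed_units [Fintype F] {q₀ : ℕ}
    (hK : Nat.card (FixedPoints.subfield (Subgroup.zpowers σ) F) = q₀) :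
    Nat.card {k : Fˣ // σ (k : F) = k} = q₀ - 1 := by
  classical
  set K := FixedPoints.subfield (Subgroup.zpowers σ) F with hKdef
  rw [← hK, ← Nat.card_units]
  symm
  let Φ : Kˣ → {k : Fˣ // σ (k : F) = k} := fun u =>
    ⟨Units.map K.subtype.toMonoidHom u, (mem_fixed_zpowers_iff σ _).1 (u : K).2⟩
  refine Nat.card_congr (Equiv.ofBijective Φ ⟨?_, ?_⟩)
  · intro u u' e
    have e' := congrArg (fun k : {k : Fˣ // σ (k : F) = k} => ((k : Fˣ) : F)) e
    apply Units.ext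
    apply Subtype.ext
    exact e'
  · rintro ⟨k, hk⟩
    have hne : (⟨(k : F), (mem_fixed_zpowers_iff σ _).2 hk⟩ : K) ≠ 0 := by
      intro h0
      exact k.ne_zero (congrArg Subtype.val h0)
    refine ⟨Units.mk0 _ hne, ?_⟩
    apply Subtype.ext
    apply Units.ext
    rfl

theorem fixed_scGL_mul {k : Fˣ} (hk : σ (k : F) = k) {g : GL (Fin n) F}
    (hg : (g : Matrix (Fin n) (Fin n) F).map σ = (g : Matrix (Fin n) (Fin n) F)) :
    ((scGL n k * g : GL (Fin n) F) : Matrix (Fin n) (Fin n) F).map σ =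
      ((scGL n k * g : GL (Fin n) F) : Matrix (Fin n) (Fin n) F) := by
  rw [scGL_mul_val, map_smul_mat, hk, hg]

theorem scalar_scGL_mul (μ : Fˣ) {g : GL (Fin n) F}
    (hg : (g : Matrix (Fin n) (Fin n) F).map σ = (g : Matrix (Fin n) (Fin n) F)) :
    ∃ c : F, c ≠ 0 ∧ ((scGL n μ * g : GL (Fin n) F) : Matrix (Fin n) (Fin n) F).map σ =
      c • ((scGL n μ * g : GL (Fin n) F) : Matrix (Fin n) (Fin n) F) := by
  have hμ : (μ : F) ≠ 0 := μ.ne_zero
  have hσμ : σ (μ : F) ≠ 0 := (map_ne_zero σ).2 hμ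
  refine ⟨σ (μ : F) / μ, div_ne_zero hσμ hμ, ?_⟩
  rw [scGL_mul_val, map_smul_mat, hg, smul_smul, div_mul_cancel₀ _ hμ]

theorem fixed_of_fixed_scGL_mul (hn : 1 ≤ n) {k : Fˣ} {g : GL (Fin n) F}
    (hg : (g : Matrix (Fin n) (Fin n) F).map σ = (g : Matrix (Fin n) (Fin n) F))
    (hkg : ((scGL n k * g : GL (Fin n) F) : Matrix (Fin n) (Fin n) F).map σ =
      ((scGL n k * g : GL (Fin n) F) : Matrix (Fin n) (Fin n) F)) : σ (k : F) = k := by
  obtain ⟨i, j, hij⟩ := exists_entry_ne_zero hn g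
  rw [scGL_mul_val, map_smul_mat, hg] at hkg
  have := congrFun (congrFun hkg i) j
  simp only [Matrix.smul_apply, smul_eq_mul] at this
  exact mul_right_cancel₀ hij this

theorem exists_fixed_scGL_mul (hn : 1 ≤ n) (g : GL (Fin n) F)
    (hg : ∃ c : F, c ≠ 0 ∧ (g : Matrix (Fin n) (Fin n) F).map σ =
      c • (g : Matrix (Fin n) (Fin n) F)) :
    ∃ a : Fˣ, ((scGL n a⁻¹ * g : GL (Fin n) F) : Matrix (Fin n) (Fin n) F).map σ =
      ((scGL n a⁻¹ * g : GL (Fin n) F) : Matrix (Fin n) (Fin n) F) := by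
  obtain ⟨c, hc, hcg⟩ := hg
  obtain ⟨i, j, hij⟩ := exists_entry_ne_zero hn g
  have h1 : σ ((g : Matrix (Fin n) (Fin n) F) i j) = c * (g : Matrix (Fin n) (Fin n) F) i j := by
    have := congrFun (congrFun hcg i) j
    simpa using this
  refine ⟨Units.mk0 _ hij, ?_⟩
  rw [scGL_mul_val, map_smul_mat, hcg, smul_smul]
  congr 1
  rw [Units.val_inv_eq_inv_val, Units.val_mk0, map_inv₀, h1]
  field_simp

theorem card_scalar_fixed_mul [Fintype F] (hn : 1 ≤ n) :
    Nat.card {g : GL (Fin n) F // ∃ c : F, c ≠ 0 ∧ (g : Matrix (Fin n) (Fin n) F).map σ =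
      c • (g : Matrix (Fin n) (Fin n) F)} * Nat.card {k : Fˣ // σ (k : F) = k} =
    Nat.card Fˣ * Nat.card {g : GL (Fin n) F // (g : Matrix (Fin n) (Fin n) F).map σ =
      (g : Matrix (Fin n) (Fin n) F)} := by
  classical
  rw [← Nat.card_prod, ← Nat.card_prod]
  have hgood := fun g : {g : GL (Fin n) F // ∃ c : F, c ≠ 0 ∧
      (g : Matrix (Fin n) (Fin n) F).map σ = c • (g : Matrix (Fin n) (Fin n) F)} =>
    exists_fixed_scGL_mul σ hn g.1 g.2
  choose a ha using hgood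
  have hinv : ∀ k : {k : Fˣ // σ (k : F) = k}, σ (((k : Fˣ)⁻¹ : Fˣ) : F) = (((k : Fˣ)⁻¹ : Fˣ) : F) := by
    intro k
    rw [Units.val_inv_eq_inv_val, map_inv₀, k.2]
  let E : {g : GL (Fin n) F // ∃ c : F, c ≠ 0 ∧ (g : Matrix (Fin n) (Fin n) F).map σ =
      c • (g : Matrix (Fin n) (Fin n) F)} × {k : Fˣ // σ (k : F) = k} →
      Fˣ × {g : GL (Fin n) F // (g : Matrix (Fin n) (Fin n) F).map σ =
      (g : Matrix (Fin n) (Fin n) F)} := fun x =>
    (a x.1 * x.2.1, ⟨scGL n (x.2.1)⁻¹ * (scGL n (a x.1)⁻¹ * x.1.1),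
      fixed_scGL_mul σ (hinv x.2) (ha x.1)⟩)
  refine Nat.card_congr (Equiv.ofBijective E ⟨?_, ?_⟩)
  · rintro ⟨g, k⟩ ⟨g', k'⟩ e
    have e1 : a g * k.1 = a g' * k'.1 := congrArg Prod.fst e
    have e2 : scGL n (k.1)⁻¹ * (scGL n (a g)⁻¹ * g.1) = scGL n (k'.1)⁻¹ * (scGL n (a g')⁻¹ * g'.1) :=
      congrArg (fun y => (y.2 : GL (Fin n) F)) e
    rw [← mul_assoc, ← mul_assoc, ← map_mul, ← map_mul, ← mul_inv_rev, ← mul_inv_rev, e1] at e2
    have e3 : g = g' := Subtype.ext (mul_left_cancel e2)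
    subst e3
    have e4 : k = k' := Subtype.ext (mul_left_cancel e1)
    rw [e4]
  · rintro ⟨μ, h⟩
    let g : {g : GL (Fin n) F // ∃ c : F, c ≠ 0 ∧ (g : Matrix (Fin n) (Fin n) F).map σ =
      c • (g : Matrix (Fin n) (Fin n) F)} := ⟨scGL n μ * h.1, scalar_scGL_mul σ μ h.2⟩
    have hk : σ ((((a g)⁻¹ * μ : Fˣ)) : F) = (((a g)⁻¹ * μ : Fˣ) : F) := by
      apply fixed_of_fixed_scGL_mul σ hn h.2
      have := ha g
      rwa [show scGL n (a g)⁻¹ * g.1 = scGL n ((a g)⁻¹ * μ) * h.1 by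
        rw [map_mul, mul_assoc]] at this
    refine ⟨(g, ⟨(a g)⁻¹ * μ, hk⟩), ?_⟩
    apply Prod.ext
    · change a g * ((a g)⁻¹ * μ) = μ
      rw [mul_inv_cancel_left]
    · apply Subtype.ext
      change scGL n ((a g)⁻¹ * μ)⁻¹ * (scGL n (a g)⁻¹ * (scGL n μ * h.1)) = h.1
      rw [← mul_assoc, ← mul_assoc, ← map_mul, ← map_mul]
      have : ((a g)⁻¹ * μ)⁻¹ * (a g)⁻¹ * μ = 1 := by group
      rw [this, map_one, one_mul]

theorem card_scalar_fixed [Fintype F] {q₀ r : ℕ} (hr : r ≠ 0) (hn : 1 ≤ n)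
    (hF : Fintype.card F = q₀ ^ r) (hσ : orderOf σ = r) :
    Nat.card {g : GL (Fin n) F // ∃ c : F, c ≠ 0 ∧ (g : Matrix (Fin n) (Fin n) F).map σ =
      c • (g : Matrix (Fin n) (Fin n) F)} =
      (q₀ ^ r - 1) / (q₀ - 1) * ∏ i : Fin n, (q₀ ^ n - q₀ ^ (i : ℕ)) := by
  have hK := card_fixed_zpowers hr hF σ hσ
  have h := card_scalar_fixed_mul σ (F := F) hn
  rw [card_fixed_units σ hK, card_fixed_GL σ hK, Nat.card_units, Nat.card_eq_fintype_card (α := F), hF] at h
  have hq : 1 < q₀ := by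
    rw [← hK]
    exact Finite.one_lt_card
  obtain ⟨d, hd⟩ : (q₀ - 1) ∣ (q₀ ^ r - 1) := by
    simpa using Nat.sub_dvd_pow_sub_pow q₀ 1 r
  rw [hd, Nat.mul_div_cancel_left _ (by omega)]
  rw [hd, mul_comm, mul_assoc] at h
  exact Nat.eq_of_mul_eq_mul_left (by omega) h

end GLcount

end Cfsg.Agent.Lib.Helper48
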