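import Mathlib
import Cfsg.Agent.Lib.Helper48.JordanGL

set_option autoImplicit false
set_option linter.unusedSectionVars false

namespace Cfsg.Agent.Lib.Helper48

open Module LinearMap Polynomial

universe u

variable {F : Type u} [Field F]

theorem isConj_mulEquiv_iff {G H : Type*} [Group G] [Group H] (E : G ≃* H) (a b : G) :
    IsConj (E a) (E b) ↔ IsConj a b := by
  constructor
  · intro h
    have := (E.symm.toMonoidHom).map_isConj h
    simpa using this
  · intro h
    exact (E.toMonoidHom).map_isConj h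

section Count

variable (p : ℕ) [Fact p.Prime] [CharP F p] (n : ℕ)

theorem isNilpotent_of_orderOf {g : GL (Fin n) F} (h : ∃ k, orderOf g = p ^ k) :
    IsNilpotent (((glEquivEnd g : (End F (Fin n → F))ˣ) : End F (Fin n → F)) - 1) := by
  apply (exists_orderOf_eq_pow_iff p (glEquivEnd g)).1
  rw [MulEquiv.orderOf_eq]
  exact h

theorem exists_partition_jtype (N : End F (Fin n → F)) (hN : IsNilpotent N) :
    ∃ μ : Nat.Partition n, JType N μ.parts := by
  obtain ⟨μ, hμ, hJ⟩ := exists_jtype n (Fin n → F) N finrank_fin_fun hN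
  exact ⟨⟨μ, fun hi => hμ _ hi, by rw [hJ.sum_eq hN, finrank_fin_fun]⟩, hJ⟩

theorem isConj_GL_iff_partition {a b : GL (Fin n) F} {l l' : Nat.Partition n}
    (hNa : IsNilpotent (((glEquivEnd a : (End F (Fin n → F))ˣ) : End F (Fin n → F)) - 1))
    (hNb : IsNilpotent (((glEquivEnd b : (End F (Fin n → F))ˣ) : End F (Fin n → F)) - 1))
    (ha : JType (((glEquivEnd a : (End F (Fin n → F))ˣ) : End F (Fin n → F)) - 1) l.parts)
    (hb : JType (((glEquivEnd b : (End F (Fin n → F))ˣ) : End F (Fin n → F)) - 1) l'.parts) :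
    IsConj a b ↔ l = l' := by
  rw [← isConj_mulEquiv_iff glEquivEnd, isConj_units_iff_jtype _ _ ha hb hNa hNb
    (fun i hi => l.parts_pos hi) (fun i hi => l'.parts_pos hi), Nat.Partition.ext_iff]

theorem card_unipotent_classes :
    Nat.card {C : ConjClasses (GL (Fin n) F) // ∃ g : GL (Fin n) F, ConjClasses.mk g = C ∧
      ∃ k : ℕ, orderOf g = p ^ k} = Fintype.card (Nat.Partition n) := by
  apply card_classes_of_relation (fun g : GL (Fin n) F => ∃ k : ℕ, orderOf g = p ^ k)
    (fun g (μ : Nat.Partition n) =>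
      JType (((glEquivEnd g : (End F (Fin n → F))ˣ) : End F (Fin n → F)) - 1) μ.parts)
  · intro g hg
    exact exists_partition_jtype n _ (isNilpotent_of_orderOf p n hg)
  · intro a b l l' ha hb hl hl'
    exact isConj_GL_iff_partition n (isNilpotent_of_orderOf p n ha) (isNilpotent_of_orderOf p n hb)
      hl hl'
  · intro l
    obtain ⟨a, hN, hJ⟩ := exists_unit_jtype (F := F) l.parts l.parts_sum
    refine ⟨glEquivEnd.symm a, ?_, ?_⟩
    · rw [← MulEquiv.orderOf_eq glEquivEnd, MulEquiv.apply_symm_apply]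
      exact (exists_orderOf_eq_pow_iff p a).2 hN
    · rw [MulEquiv.apply_symm_apply]
      exact hJ

/-- the partition `1 + 1 + ... + 1` -/
def onesPartition (n : ℕ) : Nat.Partition n :=
  ⟨Multiset.replicate n 1, fun hi => by rw [Multiset.eq_of_mem_replicate hi]; exact one_pos,
    by simp⟩

theorem eq_onesPartition_iff (μ : Nat.Partition n) :
    μ = onesPartition n ↔ ∀ a ∈ μ.parts, a ≤ 1 := by
  constructor
  · rintro rfl a ha
    exact (Multiset.eq_of_mem_replicate ha).le
  · intro h
    apply Nat.Partition.ext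
    have h1 : ∀ a ∈ μ.parts, a = 1 := fun a ha => le_antisymm (h a ha) (μ.parts_pos ha)
    have h2 := Multiset.eq_replicate_card.2 h1
    have h3 := μ.parts_sum
    rw [h2, Multiset.sum_replicate, smul_eq_mul, mul_one] at h3
    rw [h2, h3]
    rfl

theorem card_order_p_classes :
    Nat.card {C : ConjClasses (GL (Fin n) F) // ∃ g : GL (Fin n) F, ConjClasses.mk g = C ∧
      orderOf g = p} =
      (Finset.univ.filter (fun μ : Nat.Partition n => ∀ a ∈ μ.parts, a ≤ p)).card - 1 := by
  classical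
  have hp : 1 ≤ p := (Fact.out : p.Prime).one_lt.le
  have hP : ∀ g : GL (Fin n) F, orderOf g = p → ∃ k : ℕ, orderOf g = p ^ k :=
    fun g hg => ⟨1, by rw [hg, pow_one]⟩
  have key := card_classes_of_relation
    (L := {μ : Nat.Partition n // (∀ a ∈ μ.parts, a ≤ p) ∧ ¬ ∀ a ∈ μ.parts, a ≤ 1})
    (fun g : GL (Fin n) F => orderOf g = p)
    (fun g μ =>
      JType (((glEquivEnd g : (End F (Fin n → F))ˣ) : End F (Fin n → F)) - 1) μ.1.parts) ?_ ?_ ?_
  · rw [key, Fintype.card_subtype]
    have : (Finset.univ.filter (fun μ : Nat.Partition n => (∀ a ∈ μ.parts, a ≤ p) ∧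
        ¬ ∀ a ∈ μ.parts, a ≤ 1)) =
        (Finset.univ.filter (fun μ : Nat.Partition n => ∀ a ∈ μ.parts, a ≤ p)).erase
          (onesPartition n) := by
      ext μ
      simp only [Finset.mem_filter, Finset.mem_univ, true_and, Finset.mem_erase, Ne,
        eq_onesPartition_iff]
      tauto
    rw [this, Finset.card_erase_of_mem]
    simp only [Finset.mem_filter, Finset.mem_univ, true_and]
    intro a ha
    exact le_trans (((eq_onesPartition_iff n _).1 rfl) a ha) hp
  · intro g hg
    have hN := isNilpotent_of_orderOf p n (hP g hg)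
    obtain ⟨μ, hμ⟩ := exists_partition_jtype n _ hN
    have h1 := (orderOf_eq_prime_iff' p (glEquivEnd g)).1 (by rw [MulEquiv.orderOf_eq]; exact hg)
    rw [Ne, hμ.pow_eq_zero_iff hN, hμ.pow_eq_zero_iff hN] at h1
    exact ⟨⟨μ, h1⟩, hμ⟩
  · intro a b l l' ha hb hl hl'
    rw [isConj_GL_iff_partition n (isNilpotent_of_orderOf p n (hP a ha))
      (isNilpotent_of_orderOf p n (hP b hb)) hl hl', Subtype.ext_iff]
  · intro l
    obtain ⟨a, hN, hJ⟩ := exists_unit_jtype (F := F) l.1.parts l.1.parts_sum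
    refine ⟨glEquivEnd.symm a, ?_, ?_⟩
    · rw [← MulEquiv.orderOf_eq glEquivEnd, MulEquiv.apply_symm_apply, orderOf_eq_prime_iff', Ne,
        hJ.pow_eq_zero_iff hN, hJ.pow_eq_zero_iff hN]
      exact l.2
    · rw [MulEquiv.apply_symm_apply]
      exact hJ

end Count

end Cfsg.Agent.Lib.Helper48
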