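import Mathlib

set_option autoImplicit false
set_option linter.unusedSectionVars false

namespace Cfsg.Agent.Lib.Helper48

open Module LinearMap

variable {F : Type*} [Field F] {ι ι' : Type*} [Fintype ι] [DecidableEq ι] [Fintype ι']
  [DecidableEq ι']

theorem reindex_mulVec (e : ι ≃ ι') (M : Matrix ι ι F) (x : ι' → F) :
    (Matrix.reindex e e M).mulVec x = (M.mulVec (x ∘ e)) ∘ e.symm := by
  rw [Matrix.reindex_apply, Matrix.submatrix_mulVec_equiv]
  rfl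

theorem exists_intertwine_of_isConj (e : ι ≃ ι') (M : Matrix ι ι F) (A : Matrix ι' ι' F)
    (h : IsConj (Matrix.reindex e e M) A) :
    ∃ ψ : (ι → F) ≃ₗ[F] (ι' → F), ∀ x, ψ (M.mulVec x) = A.mulVec (ψ x) := by
  obtain ⟨c, hc⟩ := h
  have hc' : (c : Matrix ι' ι' F) * Matrix.reindex e e M = A * (c : Matrix ι' ι' F) := hc
  let R : (ι → F) ≃ₗ[F] (ι' → F) := LinearEquiv.funCongrLeft F F e.symm
  have hR : ∀ x, R x = x ∘ e.symm := fun x => rfl
  let Cc : (ι' → F) ≃ₗ[F] (ι' → F) := LinearEquiv.ofLinearMap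
    (Matrix.mulVecLin (c : Matrix ι' ι' F)) (Matrix.mulVecLin ((c⁻¹ : (Matrix ι' ι' F)ˣ) : Matrix ι' ι' F))
    (by rw [← Matrix.mulVecLin_mul, ← Units.val_mul, mul_inv_cancel]; simp)
    (by rw [← Matrix.mulVecLin_mul, ← Units.val_mul, inv_mul_cancel]; simp)
  have hCc : ∀ x, Cc x = (c : Matrix ι' ι' F).mulVec x := fun x => rfl
  refine ⟨R.trans Cc, ?_⟩
  intro x
  rw [LinearEquiv.trans_apply, LinearEquiv.trans_apply, hCc, hCc, hR, hR, Matrix.mulVec_mulVec,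
    ← hc', ← Matrix.mulVec_mulVec, reindex_mulVec]
  have : (x ∘ e.symm) ∘ e = x := by
    funext i
    simp
  rw [this]

theorem isConj_of_intertwine (e : ι ≃ ι') (M : Matrix ι ι F) (A : Matrix ι' ι' F)
    (ψ : (ι → F) ≃ₗ[F] (ι' → F)) (h : ∀ x, ψ (M.mulVec x) = A.mulVec (ψ x)) :
    IsConj (Matrix.reindex e e M) A := by
  let g : (ι' → F) ≃ₗ[F] (ι' → F) := (LinearEquiv.funCongrLeft F F e).trans ψ
  have hg : ∀ x, g x = ψ (x ∘ e) := fun x => rfl
  refine ⟨⟨LinearMap.toMatrix' (g : (ι' → F) →ₗ[F] (ι' → F)),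
    LinearMap.toMatrix' (g.symm : (ι' → F) →ₗ[F] (ι' → F)), ?_, ?_⟩, ?_⟩
  · rw [← LinearMap.toMatrix'_comp, LinearEquiv.comp_symm, LinearMap.toMatrix'_id]
  · rw [← LinearMap.toMatrix'_comp, LinearEquiv.symm_comp, LinearMap.toMatrix'_id]
  · change LinearMap.toMatrix' (g : (ι' → F) →ₗ[F] (ι' → F)) * Matrix.reindex e e M =
      A * LinearMap.toMatrix' (g : (ι' → F) →ₗ[F] (ι' → F))
    apply Matrix.toLin'.injective
    apply LinearMap.ext
    intro x
    rw [Matrix.toLin'_apply, Matrix.toLin'_apply, ← Matrix.mulVec_mulVec, ← Matrix.mulVec_mulVec,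
      LinearMap.toMatrix'_mulVec, LinearMap.toMatrix'_mulVec, LinearEquiv.coe_coe, hg, hg, ← h,
      reindex_mulVec]
    congr 1
    funext i
    simp

end Cfsg.Agent.Lib.Helper48
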