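import Mathlib
import Cfsg.Agent.Lib.Helper48.JordanReal
import Cfsg.Agent.Lib.Helper48.RegUnipExist

set_option autoImplicit false
set_option linter.unusedSectionVars false

namespace Cfsg.Agent.Lib.Helper48

open Module LinearMap

variable {F : Type*} [Field F]

section Hyp

variable (j : ℕ)

/-- the hyperbolic form `x·ψ + ε φ·y` -/
noncomputable def hypB (ε : F) : LinearMap.BilinForm F ((Fin j → F) × (Fin j → F)) :=
  (Matrix.toBilin' (1 : Matrix (Fin j) (Fin j) F)).comp (LinearMap.fst F _ _) (LinearMap.snd F _ _) +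
    ε • (Matrix.toBilin' (1 : Matrix (Fin j) (Fin j) F)).comp (LinearMap.snd F _ _)
      (LinearMap.fst F _ _)

theorem hypB_apply (ε : F) (p q : (Fin j → F) × (Fin j → F)) :
    hypB j ε p q = p.1 ⬝ᵥ q.2 + ε * (p.2 ⬝ᵥ q.1) := by
  simp [hypB, Matrix.toBilin'_apply']

theorem hypB_kind_alt : IsKind true (hypB j (-1 : F)) := by
  unfold IsKind
  rw [if_pos rfl]
  intro p
  rw [hypB_apply, dotProduct_comm p.2 p.1]
  ring

theorem hypB_kind_sym : IsKind false (hypB j (1 : F)) := by
  unfold IsKind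
  rw [if_neg (by simp)]
  intro p q
  rw [hypB_apply, hypB_apply, dotProduct_comm p.1 q.2, dotProduct_comm p.2 q.1]
  ring

theorem hypB_nondeg {ε : F} (hε : ε ≠ 0) (p : (Fin j → F) × (Fin j → F))
    (h : ∀ q, hypB j ε p q = 0) : p = 0 := by
  have h1 : p.1 = 0 := by
    apply dotProduct_eq_zero_iff.1
    intro w
    have := h (0, w)
    rw [hypB_apply] at this
    simpa using this
  have h2 : p.2 = 0 := by
    apply dotProduct_eq_zero_iff.1
    intro w
    have := h (w, 0)
    rw [hypB_apply] at this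
    simpa [hε] using this
  exact Prod.ext h1 h2

/-- inverse transpose of the Jordan block -/
noncomputable def jbT (F : Type*) [Field F] (j : ℕ) : Matrix (Fin j) (Fin j) F :=
  ((Cfsg.jordanBlock j F)⁻¹).transpose

theorem jb_transpose_mul_jbT : (Cfsg.jordanBlock j F).transpose * jbT F j = 1 := by
  unfold jbT
  rw [← Matrix.transpose_mul, Matrix.nonsing_inv_mul _ (by rw [jordanBlock_det]; exact isUnit_one),
    Matrix.transpose_one]

theorem jbT_mul_jb_transpose : jbT F j * (Cfsg.jordanBlock j F).transpose = 1 := by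
  unfold jbT
  rw [← Matrix.transpose_mul, Matrix.mul_nonsing_inv _ (by rw [jordanBlock_det]; exact isUnit_one),
    Matrix.transpose_one]

theorem jb_dot_jbT (x ψ : Fin j → F) :
    ((Cfsg.jordanBlock j F).mulVec x) ⬝ᵥ ((jbT F j).mulVec ψ) = x ⬝ᵥ ψ := by
  rw [← Matrix.vecMul_transpose, ← Matrix.dotProduct_mulVec, Matrix.mulVec_mulVec,
    jb_transpose_mul_jbT, Matrix.one_mulVec]

theorem jbT_sub_one : jbT F j - 1 = (- jbT F j) * (Cfsg.jordanBlock j F - 1).transpose := by
  rw [Matrix.transpose_sub, Matrix.transpose_one, mul_sub, neg_mul, jbT_mul_jb_transpose, mul_one]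
  abel

theorem jbT_commute : Commute (- jbT F j) (Cfsg.jordanBlock j F - 1).transpose := by
  change _ * _ = _ * _
  rw [Matrix.transpose_sub, Matrix.transpose_one, mul_sub, sub_mul, neg_mul, mul_neg,
    jbT_mul_jb_transpose, jb_transpose_mul_jbT, mul_one, one_mul]

theorem jbT_sub_one_pow (k : ℕ) :
    (jbT F j - 1) ^ k = (- jbT F j) ^ k * ((Cfsg.jordanBlock j F - 1) ^ k).transpose := by
  rw [jbT_sub_one, (jbT_commute j).mul_pow, Matrix.transpose_pow]

theorem isUnit_det_neg_jbT_pow (k : ℕ) : IsUnit ((- jbT F j) ^ k).det := by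
  rw [Matrix.det_pow]
  apply IsUnit.pow
  rw [← Matrix.isUnit_iff_isUnit_det]
  refine ⟨⟨- jbT F j, - (Cfsg.jordanBlock j F).transpose, ?_, ?_⟩, rfl⟩
  · rw [neg_mul_neg, jbT_mul_jb_transpose]
  · rw [neg_mul_neg, jb_transpose_mul_jbT]

theorem jtype_jbT : JType (Matrix.mulVecLin (jbT F j - 1) : End F (Fin j → F)) {j} := by
  intro k
  rw [← jtype_shiftEnd (K := F) j k]
  unfold shiftEnd
  rw [← mulVecLin_pow, ← mulVecLin_pow, finrank_ker_mulVecLin, finrank_ker_mulVecLin,
    jbT_sub_one_pow, Matrix.rank_mul_eq_right_of_isUnit_det _ _ (isUnit_det_neg_jbT_pow j k),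
    Matrix.rank_transpose]

theorem jbT_sub_one_pow_eq_zero : (jbT F j - 1) ^ j = 0 := by
  rw [jbT_sub_one_pow, jordanBlock_sub_one_pow, Matrix.transpose_zero, mul_zero]

/-- the isometry `diag(J, J⁻ᵀ)` -/
noncomputable def hypU (F : Type*) [Field F] (j : ℕ) : End F ((Fin j → F) × (Fin j → F)) :=
  LinearMap.prodMap (Matrix.mulVecLin (Cfsg.jordanBlock j F)) (Matrix.mulVecLin (jbT F j))

theorem hypU_apply (p : (Fin j → F) × (Fin j → F)) :
    hypU F j p = ((Cfsg.jordanBlock j F).mulVec p.1, (jbT F j).mulVec p.2) := rfl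

theorem hypU_iso (ε : F) : IsoB (hypB j ε) (hypU F j) := by
  intro p q
  rw [hypB_apply, hypB_apply, hypU_apply, hypU_apply]
  simp only
  rw [jb_dot_jbT, dotProduct_comm ((jbT F j).mulVec p.2), jb_dot_jbT, dotProduct_comm q.1]

theorem hypU_sub_one : hypU F j - 1 =
    LinearMap.prodMap (Matrix.mulVecLin (Cfsg.jordanBlock j F - 1))
      (Matrix.mulVecLin (jbT F j - 1)) := by
  apply LinearMap.ext
  rintro ⟨x, y⟩
  simp [hypU]

theorem realK_double (s : Bool) : RealK F s (2 • {j}) := by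
  have hJ : JType (hypU F j - 1) (2 • {j}) := by
    rw [hypU_sub_one, two_nsmul]
    exact (jtype_shiftEnd (K := F) j).prodMap (jtype_jbT j)
  have hN : IsNilpotent (hypU F j - 1) := by
    refine ⟨j, ?_⟩
    rw [hypU_sub_one, prodMap_pow', ← mulVecLin_pow, ← mulVecLin_pow, jordanBlock_sub_one_pow,
      jbT_sub_one_pow_eq_zero]
    apply LinearMap.ext
    rintro ⟨x, y⟩
    simp
  cases s with
  | true =>
    exact RealK.of_space (hypB j (-1 : F)) (hypU F j) (hypB_kind_alt j)
      (hypB_nondeg j (by simp)) (hypU_iso j _) hN hJ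
  | false =>
    exact RealK.of_space (hypB j (1 : F)) (hypU F j) (hypB_kind_sym j)
      (hypB_nondeg j (by simp)) (hypU_iso j _) hN hJ

end Hyp

section SingleAlt

variable (k : ℕ) (hk : 0 < k)

/-- `φ ↦ φ_0 e_0` -/
noncomputable def corner (F : Type*) [Field F] (k : ℕ) (hk : 0 < k) : End F (Fin k → F) :=
  (LinearMap.single F (fun _ : Fin k => F) ⟨0, hk⟩) ∘ₗ (LinearMap.proj ⟨0, hk⟩)

theorem corner_apply (φ : Fin k → F) :
    corner F k hk φ = Pi.single (⟨0, hk⟩ : Fin k) (φ ⟨0, hk⟩) := rfl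

theorem corner_dot (φ ψ : Fin k → F) : corner F k hk φ ⬝ᵥ ψ = φ ⟨0, hk⟩ * ψ ⟨0, hk⟩ := by
  rw [corner_apply, single_dotProduct]

/-- the shear `(x, φ) ↦ (x + φ_0 e_0, φ)` -/
noncomputable def shearU (F : Type*) [Field F] (k : ℕ) (hk : 0 < k) :
    End F ((Fin k → F) × (Fin k → F)) :=
  LinearMap.prod (LinearMap.fst F _ _ + corner F k hk ∘ₗ LinearMap.snd F _ _) (LinearMap.snd F _ _)

theorem shearU_apply (p : (Fin k → F) × (Fin k → F)) :
    shearU F k hk p = (p.1 + corner F k hk p.2, p.2) := rfl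

theorem shearU_iso : IsoB (hypB k (-1 : F)) (shearU F k hk) := by
  intro p q
  rw [hypB_apply, hypB_apply, shearU_apply, shearU_apply]
  simp only
  rw [add_dotProduct, dotProduct_add, corner_dot, dotProduct_comm p.2 (corner F k hk q.2), corner_dot]
  ring

/-- a regular unipotent isometry of the hyperbolic alternating form -/
noncomputable def regU (F : Type*) [Field F] (k : ℕ) (hk : 0 < k) :
    End F ((Fin k → F) × (Fin k → F)) := hypU F k * shearU F k hk

theorem regU_iso : IsoB (hypB k (-1 : F)) (regU F k hk) := by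
  intro p q
  unfold regU
  rw [Module.End.mul_apply, Module.End.mul_apply, hypU_iso, shearU_iso]

theorem regU_sub_one_apply (p : (Fin k → F) × (Fin k → F)) :
    (regU F k hk - 1) p = ((Cfsg.jordanBlock k F).mulVec (p.1 + corner F k hk p.2) - p.1,
      (jbT F k - 1).mulVec p.2) := by
  unfold regU
  rw [LinearMap.sub_apply, Module.End.mul_apply, shearU_apply, hypU_apply, Module.End.one_apply,
    Matrix.sub_mulVec, Matrix.one_mulVec]
  rfl

theorem regU_sub_one_pow_snd (i : ℕ) (p : (Fin k → F) × (Fin k → F)) :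
    (((regU F k hk - 1) ^ i) p).2 = ((jbT F k - 1) ^ i).mulVec p.2 := by
  induction i with
  | zero => simp
  | succ i ih =>
    rw [pow_succ', Module.End.mul_apply, regU_sub_one_apply, pow_succ', ← Matrix.mulVec_mulVec, ← ih]

theorem regU_sub_one_pow_fst (i : ℕ) (x : Fin k → F) :
    ((regU F k hk - 1) ^ i) (x, 0) = (((Cfsg.jordanBlock k F - 1) ^ i).mulVec x, 0) := by
  induction i with
  | zero => simp
  | succ i ih =>
    rw [pow_succ', Module.End.mul_apply, ih, regU_sub_one_apply, pow_succ', ← Matrix.mulVec_mulVec]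
    simp only [map_zero, add_zero, Matrix.mulVec_zero]
    rw [Matrix.sub_mulVec, Matrix.one_mulVec]

theorem regU_sub_one_pow_eq_zero : (regU F k hk - 1) ^ (k + k) = 0 := by
  apply LinearMap.ext
  intro p
  rw [pow_add, Module.End.mul_apply]
  have h2 := regU_sub_one_pow_snd k hk k p
  rw [jbT_sub_one_pow_eq_zero, Matrix.zero_mulVec] at h2
  have h3 : ((regU F k hk - 1) ^ k) p = ((((regU F k hk - 1) ^ k) p).1, 0) := Prod.ext rfl h2
  rw [h3, regU_sub_one_pow_fst, jordanBlock_sub_one_pow, Matrix.zero_mulVec]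
  rfl

theorem transpose_sub_one_mulVec (φ : Fin k → F) (i : Fin k) (hi : (i : ℕ) + 1 < k) :
    ((Cfsg.jordanBlock k F - 1).transpose.mulVec φ) i = φ ⟨(i : ℕ) + 1, hi⟩ := by
  rw [Matrix.mulVec, dotProduct]
  simp only [Matrix.transpose_apply, jordanBlock_sub_one_apply]
  rw [Finset.sum_eq_single (⟨(i : ℕ) + 1, hi⟩ : Fin k)]
  · simp
  · intro l _ hl
    have : (l : ℕ) ≠ (i : ℕ) + 1 := fun h => hl (Fin.ext h)
    simp [this]
  · simp

theorem regU_ker : finrank F (ker (regU F k hk - 1)) ≤ 1 := by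
  have hle : ker (regU F k hk - 1) ≤ (ker (shiftEnd F k)).map (LinearMap.inl F _ _) := by
    rintro ⟨x, φ⟩ hp
    rw [LinearMap.mem_ker, regU_sub_one_apply, Prod.mk_eq_zero] at hp
    obtain ⟨h1, h2⟩ := hp
    simp only at h1 h2
    have h3 : (Cfsg.jordanBlock k F - 1).transpose.mulVec φ = 0 := by
      rw [jbT_sub_one, ← Matrix.mulVec_mulVec] at h2
      have := congrArg (fun w => (- (Cfsg.jordanBlock k F).transpose).mulVec w) h2
      simp only [Matrix.mulVec_zero] at this
      rwa [Matrix.mulVec_mulVec, neg_mul_neg, jb_transpose_mul_jbT, Matrix.one_mulVec] at this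
    have h4 : ∀ l : Fin k, 0 < (l : ℕ) → φ l = 0 := by
      intro l hl
      have hl2 := l.2
      have := congrFun h3 ⟨(l : ℕ) - 1, by omega⟩
      rw [transpose_sub_one_mulVec k φ ⟨(l : ℕ) - 1, by omega⟩ (by simp only; omega)] at this
      have e : (⟨(l : ℕ) - 1 + 1, by omega⟩ : Fin k) = l := Fin.ext (by simp only; omega)
      simp only [e] at this
      exact this
    have h5 : φ ⟨0, hk⟩ = 0 := by
      have := congrFun h1 ⟨0, hk⟩
      have e : (Cfsg.jordanBlock k F).mulVec (x + corner F k hk φ) =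
          (Cfsg.jordanBlock k F - 1).mulVec (x + corner F k hk φ) + (x + corner F k hk φ) := by
        rw [Matrix.sub_mulVec, Matrix.one_mulVec, sub_add_cancel]
      rw [e] at this
      simp only [Pi.sub_apply, Pi.add_apply, Pi.zero_apply] at this
      rw [jordanBlock_sub_one_mulVec, dif_neg (by simp), corner_apply, Pi.single_eq_same] at this
      simpa using this
    have h6 : φ = 0 := by
      funext l
      rcases Nat.eq_zero_or_pos (l : ℕ) with h0 | hpos
      · have : l = ⟨0, hk⟩ := Fin.ext h0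
        rw [this, h5]
        rfl
      · exact h4 l hpos
    subst h6
    refine ⟨x, ?_, rfl⟩
    change x ∈ ker (shiftEnd F k)
    rw [LinearMap.mem_ker]
    unfold shiftEnd
    rw [Matrix.mulVecLin_apply, Matrix.sub_mulVec, Matrix.one_mulVec]
    simpa using h1
  exact le_trans (Submodule.finrank_mono hle)
    (le_trans (Submodule.finrank_map_le _ _) shiftEnd_ker)

theorem realK_single_alt (k : ℕ) : RealK F true {2 * k} := by
  rcases Nat.eq_zero_or_pos k with rfl | hk
  · obtain ⟨n, B, u, h1, h2, h3, h4, h5⟩ := RealK.zero (F := F) true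
    refine ⟨n, B, u, h1, h2, h3, h4, ?_⟩
    intro i
    rw [h5 i]
    simp
  · have hdim : finrank F ((Fin k → F) × (Fin k → F)) = 2 * k := by
      rw [Module.finrank_prod, finrank_fin_fun]
      ring
    have hn : (regU F k hk - 1) ^ finrank F ((Fin k → F) × (Fin k → F)) = 0 := by
      rw [hdim, two_mul]
      exact regU_sub_one_pow_eq_zero k hk
    have hJ := jtype_of_regular (regU F k hk - 1) (regU_ker k hk) hn
    rw [hdim] at hJ
    exact RealK.of_space (hypB k (-1 : F)) (regU F k hk) (hypB_kind_alt k)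
      (hypB_nondeg k (by simp)) (regU_iso k hk) ⟨_, hn⟩ hJ

end SingleAlt

section SingleSym

theorem antiM_transpose_odd (n : ℕ) (hn : Odd n) : (antiM F n).transpose = antiM F n := by
  ext i j
  simp only [Matrix.transpose_apply, antiM, Matrix.of_apply]
  by_cases h : (i : ℕ) + (j : ℕ) + 1 = n
  · rw [if_pos h, if_pos (by omega)]
    have hev : Even ((i : ℕ) + (j : ℕ)) := by
      rcases hn with ⟨r, hr⟩
      exact ⟨r, by omega⟩
    have e : (-1 : F) ^ (i : ℕ) * (-1 : F) ^ (j : ℕ) = 1 := by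
      rw [← pow_add, hev.neg_one_pow]
    have e2 : (-1 : F) ^ (i : ℕ) * (-1 : F) ^ (i : ℕ) = 1 := by
      rw [← mul_pow]; simp
    calc (-1 : F) ^ (j : ℕ) = ((-1 : F) ^ (i : ℕ) * (-1 : F) ^ (i : ℕ)) * (-1 : F) ^ (j : ℕ) := by
          rw [e2, one_mul]
      _ = (-1 : F) ^ (i : ℕ) * ((-1 : F) ^ (i : ℕ) * (-1 : F) ^ (j : ℕ)) := by ring
      _ = (-1 : F) ^ (i : ℕ) := by rw [e, mul_one]
  · rw [if_neg h, if_neg (by omega)]

theorem antiB_symm (n : ℕ) (hn : Odd n) (x y : Fin n → F) : antiB F n x y = antiB F n y x := by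
  rw [antiB_apply, antiB_apply, Matrix.dotProduct_mulVec, ← Matrix.mulVec_transpose,
    antiM_transpose_odd n hn, dotProduct_comm]

theorem realK_single_sym (h2 : (2 : F) ≠ 0) (n : ℕ) (hn : Odd n) : RealK F false {n} := by
  let y : End F (Fin n → F) := shiftEnd F n
  have hny : y ^ finrank F (Fin n → F) = 0 := shiftEnd_pow_finrank
  have hu₀ : IsoB (antiB F n) (cayInv y) := isoB_cayInv ⟨_, hny⟩ (antiB_skew F n)
  obtain ⟨h1, hnn⟩ := reg_cayInv h2 (shiftEnd_ker (K := F) (e := n)) hny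
  have hJ := jtype_of_regular (cayInv y - 1) h1 hnn
  have hd := finrank_fin_fun (K := F) (e := n)
  rw [hd] at hJ
  refine RealK.of_space (antiB F n) (cayInv y) ?_ (antiB_nondeg F n) hu₀ ⟨_, hnn⟩ hJ
  unfold IsKind
  rw [if_neg (by simp)]
  exact antiB_symm n hn

end SingleSym

end Cfsg.Agent.Lib.Helper48
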