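import Mathlib
import Cfsg.Agent.Lib.Helper48.JordanRealBlocks
import Cfsg.Agent.Lib.Helper48.JordanBlockDiag
import Cfsg.Agent.Lib.Helper48.JordanForm
import Cfsg.Agent.Lib.Helper48.JordanMat
import Cfsg.Agent.Lib.Helper48.RegUnipSpClass

set_option autoImplicit false
set_option linter.unusedSectionVars false

namespace Cfsg.Agent.Lib.Helper48

open Module LinearMap Cfsg.Agent.Lib.Helper17

variable {F : Type*} [Field F] {t : ℕ} (d : Fin t → ℕ)

theorem sum_sizes : (sizes d).sum = ∑ k, d k := rfl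

theorem card_sigma_fin : Fintype.card ((k : Fin t) × Fin (d k)) = ∑ k, d k := by
  rw [Fintype.card_sigma]
  simp

/-- from an intertwiner of `J_d` and `A` to the Jordan type of `A - 1` -/
theorem jtype_of_intertwine {ι : Type*} [Fintype ι] [DecidableEq ι] (A : Matrix ι ι F)
    (ψ : (((k : Fin t) × Fin (d k)) → F) ≃ₗ[F] (ι → F))
    (hψ : ∀ x, ψ ((Cfsg.jordanTypeMatrix d F).mulVec x) = A.mulVec (ψ x)) :
    JType ((Matrix.mulVecLin A : End F (ι → F)) - 1) (sizes d) ∧
      IsNilpotent ((Matrix.mulVecLin A : End F (ι → F)) - 1) := by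
  have hint : ∀ x, ψ ((Matrix.mulVecLin (Cfsg.jordanTypeMatrix d F - 1) :
      End F (((k : Fin t) × Fin (d k)) → F)) x) =
      ((Matrix.mulVecLin A : End F (ι → F)) - 1) (ψ x) := by
    intro x
    rw [Matrix.mulVecLin_apply, Matrix.sub_mulVec, Matrix.one_mulVec, map_sub, hψ,
      LinearMap.sub_apply, Matrix.mulVecLin_apply, Module.End.one_apply]
  refine ⟨(jtype_jordanTypeMatrix d).of_intertwine ψ hint, ?_⟩
  obtain ⟨k, hk⟩ := isNilpotent_jordanTypeMatrix_sub_one (F := F) d
  refine ⟨k, ?_⟩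
  apply LinearMap.ext
  intro y
  have := intertwine_pow ψ _ _ hint k (ψ.symm y)
  rw [ψ.apply_symm_apply, hk] at this
  rw [← this]
  simp

/-- realisation of the alternating kind -/
theorem realK_alt_of_even (μ : Multiset ℕ) (h : ∀ j, Odd j → Even (μ.count j)) :
    RealK F true μ := by
  apply RealK.of_count
  intro j _
  rcases Nat.even_or_odd j with hj | hj
  · obtain ⟨k, rfl⟩ := hj
    rw [← two_mul]
    exact (realK_single_alt k).nsmul _
  · obtain ⟨c, hc⟩ := h j hj
    rw [hc, ← two_mul, mul_comm, mul_smul]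
    exact (realK_double j true).nsmul c

/-- realisation of the symmetric kind -/
theorem realK_sym_of_even (h2 : (2 : F) ≠ 0) (μ : Multiset ℕ)
    (h : ∀ j, Even j → 0 < j → Even (μ.count j)) (hpos : ∀ a ∈ μ, 1 ≤ a) :
    RealK F false μ := by
  apply RealK.of_count
  intro j hjm
  rcases Nat.even_or_odd j with hj | hj
  · obtain ⟨c, hc⟩ := h j hj (hpos j hjm)
    rw [hc, ← two_mul, mul_comm, mul_smul]
    exact (realK_double j false).nsmul c
  · exact (realK_single_sym h2 j hj).nsmul _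

/-- from a realisation to an intertwiner with `J_d` -/
theorem exists_intertwine_of_realK {s : Bool} (h : RealK F s (sizes d)) :
    ∃ (B : LinearMap.BilinForm F (Fin (∑ k, d k) → F)) (u : End F (Fin (∑ k, d k) → F))
      (φ : (((k : Fin t) × Fin (d k)) → F) ≃ₗ[F] (Fin (∑ k, d k) → F)), IsKind s B ∧
      (∀ x, (∀ y, B x y = 0) → x = 0) ∧ IsoB B u ∧
      ∀ x, φ ((Cfsg.jordanTypeMatrix d F).mulVec x) = u (φ x) := by
  obtain ⟨n, B, u, hk, hnd, hu, hN, hJ⟩ := h
  have hn : ∑ k, d k = n := by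
    have := hJ.sum_eq hN
    rw [sum_sizes, finrank_fin_fun] at this
    exact this
  subst hn
  obtain ⟨φ, hφ⟩ := (jtype_jordanTypeMatrix (F := F) d).exists_equiv hJ
    (isNilpotent_jordanTypeMatrix_sub_one d) hN
  refine ⟨B, u, φ, hk, hnd, hu, ?_⟩
  intro x
  have := hφ x
  rw [Matrix.mulVecLin_apply, Matrix.sub_mulVec, Matrix.one_mulVec, map_sub,
    LinearMap.sub_apply, Module.End.one_apply] at this
  exact sub_left_injective this

theorem sp_realises_iff {m : ℕ} (hsum : ∑ k, d k = 2 * m) :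
    (∃ e : ((k : Fin t) × Fin (d k)) ≃ (Fin m ⊕ Fin m), ∃ A : Matrix.symplecticGroup (Fin m) F,
      IsConj (Matrix.reindex e e (Cfsg.jordanTypeMatrix d F))
        (A : Matrix (Fin m ⊕ Fin m) (Fin m ⊕ Fin m) F)) ↔
    ∀ j : ℕ, Odd j → Even (Finset.univ.filter (fun k : Fin t => d k = j)).card := by
  constructor
  · rintro ⟨e, A, hconj⟩ j hj
    obtain ⟨ψ, hψ⟩ := exists_intertwine_of_isConj e _ _ hconj
    obtain ⟨hJ, hN⟩ := jtype_of_intertwine d _ ψ hψ
    obtain ⟨i, rfl⟩ := hj
    rw [← count_sizes]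
    have hnd := sympB_nondegenerate (F := F) m
    have hA := sympB_isAlt (F := F) m
    exact even_count_of_even hJ (2 * i)
      (even_finrank_ker_pow_of_isAlt hA hnd.1 (isoB_mulVecLin A) hN i)
      (even_finrank_ker_pow_of_isAlt hA hnd.1 (isoB_mulVecLin A) hN (i + 1))
  · intro h
    have hR : RealK F true (sizes d) := realK_alt_of_even _ (fun j hj => by
      rw [count_sizes]; exact h j hj)
    obtain ⟨B, u, φ, hk, hnd, hu, hφ⟩ := exists_intertwine_of_realK d hR
    have hAlt : B.IsAlt := by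
      unfold IsKind at hk
      rw [if_pos rfl] at hk
      exact hk
    obtain ⟨Φ, hΦ⟩ := exists_symp_coords B hAlt hnd (k := m) (by rw [finrank_fin_fun, hsum])
    let g : End F (Fin m ⊕ Fin m → F) := (Φ.symm : _ →ₗ[F] _) ∘ₗ u ∘ₗ (Φ : _ →ₗ[F] _)
    have hg : ∀ x, g x = Φ.symm (u (Φ x)) := fun x => rfl
    have hg' : ∀ x w, Cfsg.sympForm m F (g x) (g w) = Cfsg.sympForm m F x w := by
      intro x w
      rw [← hΦ, ← hΦ, hg, hg, Φ.apply_symm_apply, Φ.apply_symm_apply, hu]
    have hcard : Fintype.card ((k : Fin t) × Fin (d k)) = Fintype.card (Fin m ⊕ Fin m) := by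
      rw [card_sigma_fin, hsum]
      simp only [Fintype.card_sum, Fintype.card_fin]
      omega
    refine ⟨Fintype.equivOfCardEq hcard, spOfLinear m g hg', ?_⟩
    apply isConj_of_intertwine _ _ _ (φ.trans Φ.symm)
    intro x
    rw [spOfLinear_mulVec, LinearEquiv.trans_apply, LinearEquiv.trans_apply, hg,
      Φ.apply_symm_apply, hφ]

end Cfsg.Agent.Lib.Helper48
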