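import Mathlib
import Cfsg.Prelude.Def_ClassicalGeometry

set_option autoImplicit false

namespace Cfsg.Agent.Lib.Helper48

open Module LinearMap Matrix

variable {F : Type*} [Field F] {m : ℕ}

/-- `sympForm` as a bilinear form. -/
noncomputable def sympBilin (m : ℕ) (F : Type*) [Field F] :
    LinearMap.BilinForm F (Fin m ⊕ Fin m → F) :=
  Matrix.toBilin' (Matrix.J (Fin m) F)

theorem sympBilin_apply (u v : Fin m ⊕ Fin m → F) :
    sympBilin m F u v = Cfsg.sympForm m F u v := by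
  rw [sympBilin, Matrix.toBilin'_apply']
  rfl

theorem sympForm_mulVec (A : Matrix (Fin m ⊕ Fin m) (Fin m ⊕ Fin m) F)
    (hA : A ∈ Matrix.symplecticGroup (Fin m) F) (x y : Fin m ⊕ Fin m → F) :
    Cfsg.sympForm m F (A *ᵥ x) (A *ᵥ y) = Cfsg.sympForm m F x y := by
  have h := SymplecticGroup.mem_iff'.1 hA
  unfold Cfsg.sympForm
  rw [← Matrix.vecMul_transpose, ← Matrix.dotProduct_mulVec, Matrix.mulVec_mulVec,
    Matrix.mulVec_mulVec, h]

theorem sympBilin_mulVecLin (A : Matrix (Fin m ⊕ Fin m) (Fin m ⊕ Fin m) F)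
    (hA : A ∈ Matrix.symplecticGroup (Fin m) F) (x y : Fin m ⊕ Fin m → F) :
    sympBilin m F (Matrix.mulVecLin A x) (Matrix.mulVecLin A y) = sympBilin m F x y := by
  simp only [sympBilin_apply, Matrix.mulVecLin_apply]
  exact sympForm_mulVec A hA x y

end Cfsg.Agent.Lib.Helper48
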