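import Mathlib
import Cfsg.Agent.Lib.Helper48.JordanSp
import Cfsg.Agent.Lib.Helper49.Transfer
import Cfsg.Agent.S2585

set_option autoImplicit false
set_option linter.unusedSectionVars false

namespace Cfsg.Agent.Lib.Helper48

open Module LinearMap Cfsg.Agent.Lib.Helper17 Cfsg.Agent.Lib.Helper49

variable {F : Type*} [Field F]

section General

variable {ι : Type} [Fintype ι] [DecidableEq ι] (Q : QuadraticForm F (ι → F))

theorem isoB_polar_mulVecLin (A : ↥(Cfsg.isometryGroup F ⇑Q)) :
    IsoB (QuadraticMap.polarBilin Q)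
      (Matrix.mulVecLin ((A : Matrix.GeneralLinearGroup ι F) : Matrix ι ι F)) := by
  intro x y
  have h : ∀ v, Q (((A : Matrix.GeneralLinearGroup ι F) : Matrix ι ι F).mulVec v) = Q v := by
    intro v
    rw [← isoEquiv_apply]
    exact (isoEquiv Q A).2 v
  simp only [QuadraticMap.polarBilin_apply_apply, QuadraticMap.polar, Matrix.mulVecLin_apply]
  rw [← Matrix.mulVec_add, h, h, h]

/-- an isometry group element from an injective endomorphism preserving `Q` -/
theorem exists_isometry_of_end (u : End F (ι → F)) (hinj : Function.Injective u)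
    (hu : ∀ x, Q (u x) = Q x) :
    ∃ A : ↥(Cfsg.isometryGroup F ⇑Q),
      ∀ v, ((A : Matrix.GeneralLinearGroup ι F) : Matrix ι ι F).mulVec v = u v := by
  let g : (ι → F) ≃ₗ[F] (ι → F) := LinearEquiv.ofInjectiveEndo u hinj
  have hg : ∀ x, g x = u x := fun x => rfl
  have hmem : g ∈ OG Q := fun x => by rw [hg, hu]
  exact ⟨(isoEquiv Q).symm ⟨g, hmem⟩, fun v => by rw [isoEquiv_symm_mulVec]; rfl⟩

end General

section Cayley

variable {V : Type*} [AddCommGroup V] [Module F V] [FiniteDimensional F V]

/-- odd powers of `u - 1`, `u` a unipotent isometry of a symmetric form, have even rank -/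
theorem even_finrank_ker_pow_of_symm (h2 : (2 : F) ≠ 0) {B : LinearMap.BilinForm F V}
    (hS : ∀ x y, B x y = B y x) (hB1 : ∀ x, (∀ w, B x w = 0) → x = 0) {u : End F V}
    (hu : IsoB B u) (hN : IsNilpotent (u - 1)) (l : ℕ) :
    Even (finrank F V + finrank F (ker ((u - 1) ^ (2 * l + 1)))) := by
  have hunit : IsUnit (u + 1) := by
    have e : u + 1 = 2 + (u - 1) := by
      rw [← one_add_one_eq_two]; abel
    rw [e]
    exact isUnit_two_add_of_isNilpotent h2 hN
  set d := Ring.inverse (u + 1) with hd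
  have hd1 : (u + 1) * d = 1 := Ring.mul_inverse_cancel _ hunit
  have hd2 : d * (u + 1) = 1 := Ring.inverse_mul_cancel _ hunit
  have hdu : Commute d u :=
    (commute_ringInverse hunit ((Commute.refl u).add_right (Commute.one_right u))).symm
  have hdN : Commute d (u - 1) := hdu.sub_right (Commute.one_right d)
  have hy : SkewB B ((u - 1) * d) := skewB_of_isoB hu hd1 rfl
  have h3 := even_finrank_ker_of_skew h2 hS hB1 (hy.pow_odd l)
  have hker : ker (((u - 1) * d) ^ (2 * l + 1)) = ker ((u - 1) ^ (2 * l + 1)) := by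
    rw [hdN.symm.eq, hdN.mul_pow]
    ext x
    rw [LinearMap.mem_ker, LinearMap.mem_ker, Module.End.mul_apply]
    constructor
    · intro h
      have := congrArg (fun w => ((u + 1) ^ (2 * l + 1)) w) h
      simp only [map_zero] at this
      have e : (u + 1) ^ (2 * l + 1) * d ^ (2 * l + 1) = 1 := by
        rw [← (((hdu.add_right (Commute.one_right d)).symm)).mul_pow, hd1, one_pow]
      rwa [← Module.End.mul_apply, e, Module.End.one_apply] at this
    · intro h
      rw [h, map_zero]
  rwa [hker] at h3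

end Cayley

section Odd

variable {t : ℕ} (d : Fin t → ℕ)

theorem orth_realises_iff_odd (h2 : (2 : F) ≠ 0) {n : ℕ} (hd : ∀ k, 1 ≤ d k)
    (hsum : ∑ k, d k = n) :
    (∃ Q : QuadraticForm F (Fin n → F), (QuadraticMap.polarBilin Q).Nondegenerate ∧
      ∃ e : ((k : Fin t) × Fin (d k)) ≃ Fin n, ∃ A : ↥(Cfsg.isometryGroup F ⇑Q),
        IsConj (Matrix.reindex e e (Cfsg.jordanTypeMatrix d F))
          ((A : Matrix.GeneralLinearGroup (Fin n) F) : Matrix (Fin n) (Fin n) F)) ↔
    ∀ j : ℕ, Even j → 0 < j → Even (Finset.univ.filter (fun k : Fin t => d k = j)).card := by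
  constructor
  · rintro ⟨Q, hQ, e, A, hconj⟩ j hj hj0
    obtain ⟨ψ, hψ⟩ := exists_intertwine_of_isConj e _ _ hconj
    obtain ⟨hJ, hN⟩ := jtype_of_intertwine d _ ψ hψ
    obtain ⟨c, hc⟩ := hj
    obtain ⟨l, rfl⟩ : ∃ l, j = (2 * l + 1) + 1 := ⟨c - 1, by omega⟩
    rw [← count_sizes]
    have hS : ∀ x y, QuadraticMap.polarBilin Q x y = QuadraticMap.polarBilin Q y x := by
      intro x y
      simp only [QuadraticMap.polarBilin_apply_apply]
      exact QuadraticMap.polar_comm _ _ _
    exact even_count_of_even hJ (2 * l + 1)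
      (even_finrank_ker_pow_of_symm h2 hS hQ.1 (isoB_polar_mulVecLin Q A) hN l)
      (even_finrank_ker_pow_of_symm h2 hS hQ.1 (isoB_polar_mulVecLin Q A) hN (l + 1))
  · intro h
    subst hsum
    have hR : RealK F false (sizes d) := realK_sym_of_even h2 _ (fun j hj hj0 => by
      rw [count_sizes]; exact h j hj hj0) (by
        intro a ha
        unfold sizes at ha
        obtain ⟨k, -, rfl⟩ := Multiset.mem_map.1 ha
        exact hd k)
    obtain ⟨B, u, φ, hk, hnd, hu, hφ⟩ := exists_intertwine_of_realK d hR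
    have hS : ∀ x y, B x y = B y x := by
      unfold IsKind at hk
      rw [if_neg (by simp)] at hk
      exact hk
    let Q : QuadraticForm F (Fin (∑ k, d k) → F) := LinearMap.BilinMap.toQuadraticMap B
    have hQ : ∀ x, Q x = B x x := fun x => rfl
    have hpol : ∀ x y, QuadraticMap.polarBilin Q x y = 2 * B x y := by
      intro x y
      simp only [QuadraticMap.polarBilin_apply_apply, QuadraticMap.polar, hQ, map_add,
        LinearMap.add_apply]
      rw [hS y x]
      ring
    have hinj : Function.Injective u := by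
      rw [← LinearMap.ker_eq_bot, LinearMap.ker_eq_bot']
      intro x hx
      apply hnd
      intro y
      rw [← hu, hx]
      simp
    obtain ⟨A, hA⟩ := exists_isometry_of_end Q u hinj (fun x => by rw [hQ, hQ, hu])
    refine ⟨Q, ⟨?_, ?_⟩, Fintype.equivOfCardEq (by rw [card_sigma_fin, Fintype.card_fin]), A, ?_⟩
    · intro x hx
      apply hnd
      intro y
      have := hx y
      rw [hpol] at this
      exact (mul_eq_zero.1 this).resolve_left h2
    · intro y hy
      apply hnd
      intro x
      have := hy x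
      rw [hpol, hS] at this
      exact (mul_eq_zero.1 this).resolve_left h2
    · apply isConj_of_intertwine _ _ _ φ
      intro x
      rw [hA, hφ]

end Odd

section Even

variable {t : ℕ} (d : Fin t → ℕ)

theorem orth_realises_iff_even [Fintype F] [CharP F 2] {m : ℕ} (hsum : ∑ k, d k = 2 * m) :
    (∃ Q : QuadraticForm F (Fin (2 * m) → F), (QuadraticMap.polarBilin Q).Nondegenerate ∧
      ∃ e : ((k : Fin t) × Fin (d k)) ≃ Fin (2 * m), ∃ A : ↥(Cfsg.isometryGroup F ⇑Q),
        IsConj (Matrix.reindex e e (Cfsg.jordanTypeMatrix d F))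
          ((A : Matrix.GeneralLinearGroup (Fin (2 * m)) F) :
            Matrix (Fin (2 * m)) (Fin (2 * m)) F)) ↔
    ∀ j : ℕ, Odd j → Even (Finset.univ.filter (fun k : Fin t => d k = j)).card := by
  constructor
  · rintro ⟨Q, hQ, e, A, hconj⟩ j hj
    obtain ⟨ψ, hψ⟩ := exists_intertwine_of_isConj e _ _ hconj
    obtain ⟨hJ, hN⟩ := jtype_of_intertwine d _ ψ hψ
    obtain ⟨i, rfl⟩ := hj
    rw [← count_sizes]
    have hA : (QuadraticMap.polarBilin Q).IsAlt := by
      intro x
      simp only [QuadraticMap.polarBilin_apply_apply]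
      rw [QuadraticMap.polar_self, two_smul]
      exact CharTwo.add_self_eq_zero _
    exact even_count_of_even hJ (2 * i)
      (even_finrank_ker_pow_of_isAlt hA hQ.1 (isoB_polar_mulVecLin Q A) hN i)
      (even_finrank_ker_pow_of_isAlt hA hQ.1 (isoB_polar_mulVecLin Q A) hN (i + 1))
  · intro h
    obtain ⟨e₀, A₀, hconj⟩ := (sp_realises_iff (F := F) d hsum).2 h
    obtain ⟨ψ₀, hψ₀⟩ := exists_intertwine_of_isConj e₀ _ _ hconj
    obtain ⟨Q₀, hpol, hQ₀⟩ := Cfsg.Agent.S2585.result A₀
    let ε : Fin m ⊕ Fin m ≃ Fin (2 * m) := finSumFinEquiv.trans (finCongr (two_mul m).symm)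
    let L : (Fin (2 * m) → F) ≃ₗ[F] (Fin m ⊕ Fin m → F) := LinearEquiv.funCongrLeft F F ε
    let Q : QuadraticForm F (Fin (2 * m) → F) := Q₀.comp (L : _ →ₗ[F] _)
    have hQ : ∀ x, Q x = Q₀ (L x) := fun x => rfl
    have hpolQ : ∀ x y, QuadraticMap.polarBilin Q x y = sympB m F (L x) (L y) := by
      intro x y
      rw [sympB_apply, ← hpol]
      simp only [QuadraticMap.polarBilin_apply_apply, QuadraticMap.polar, hQ, map_add]
    let u : End F (Fin (2 * m) → F) := (L.symm : _ →ₗ[F] _) ∘ₗ
      Matrix.mulVecLin (A₀ : Matrix (Fin m ⊕ Fin m) (Fin m ⊕ Fin m) F) ∘ₗ (L : _ →ₗ[F] _)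
    have hu : ∀ x, u x = L.symm ((A₀ : Matrix (Fin m ⊕ Fin m) (Fin m ⊕ Fin m) F).mulVec (L x)) :=
      fun x => rfl
    have hnd := sympB_nondegenerate (F := F) m
    have hinj : Function.Injective u := by
      rw [← LinearMap.ker_eq_bot, LinearMap.ker_eq_bot']
      intro x hx
      rw [hu, L.symm.map_eq_zero_iff] at hx
      have : L x = 0 := by
        apply hnd.1
        intro w
        rw [sympB_apply, ← sp_sympForm m A₀, hx, ← sympB_apply]
        simp
      exact L.map_eq_zero_iff.1 this
    obtain ⟨A, hA⟩ := exists_isometry_of_end Q u hinj (fun x => by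
      rw [hQ, hQ, hu, L.apply_symm_apply, hQ₀])
    refine ⟨Q, ⟨?_, ?_⟩, e₀.trans ε, A, ?_⟩
    · intro x hx
      have : L x = 0 := by
        apply hnd.1
        intro w
        have := hx (L.symm w)
        rwa [hpolQ, L.apply_symm_apply] at this
      exact L.map_eq_zero_iff.1 this
    · intro y hy
      have : L y = 0 := by
        apply hnd.2
        intro w
        have := hy (L.symm w)
        rwa [hpolQ, L.apply_symm_apply] at this
      exact L.map_eq_zero_iff.1 this
    · apply isConj_of_intertwine _ _ _ (ψ₀.trans L.symm)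
      intro x
      rw [hA, hu, LinearEquiv.trans_apply, LinearEquiv.trans_apply, L.apply_symm_apply, hψ₀]

end Even

end Cfsg.Agent.Lib.Helper48
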