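import Mathlib
import Cfsg.Agent.Lib.Helper48.OrthInvolMat
import Cfsg.Agent.Lib.Helper48.SqZero

set_option autoImplicit false
set_option linter.unusedSectionVars false

namespace Cfsg.Agent.Lib.Helper48

open Module LinearMap QuadraticMap Cfsg.Agent.Lib.Helper49

section Abstract

variable {F V : Type*} [Field F] [CharP F 2] [AddCommGroup V] [Module F V] (Q : QuadraticForm F V)
variable {I : Type*} [Fintype I] [DecidableEq I]

/-- the square zero map attached to a family -/
noncomputable def nilQ (π : I → I) (e : I → V) : End F V :=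
  ∑ a, ((polarBilin Q).flip (e a)).smulRight (e (π a))

theorem nilQ_apply (π : I → I) (e : I → V) (v : V) :
    nilQ Q π e v = ∑ a, polar Q v (e a) • e (π a) := by
  simp [nilQ, LinearMap.sum_apply, LinearMap.smulRight_apply]

variable {Q}

theorem add_self_vec (F : Type*) {V : Type*} [Field F] [CharP F 2] [AddCommGroup V] [Module F V]
    (w : V) : w + w = 0 := by
  rw [← two_smul F w]
  have h2 : (2 : F) = 0 := CharP.cast_eq_zero F 2
  rw [h2, zero_smul]

theorem exists_OG_invol [FiniteDimensional F V] (π : I → I) (hπ : Function.Involutive π)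
    (x e : I → V) (hee : ∀ a b, polar Q (e a) (e b) = 0)
    (hxe : ∀ a b, polar Q (x a) (e b) = if a = b then 1 else 0)
    (hkey : ∀ v, Q (nilQ Q π e v) = polar Q v (nilQ Q π e v)) :
    ∃ t : OG Q, t * t = 1 ∧ (∀ v, dOG Q t v = nilQ Q π e v) ∧
      finrank F (range (dOG Q t)) = Fintype.card I := by
  have hNe : ∀ v a, polar Q (nilQ Q π e v) (e a) = 0 := by
    intro v a
    rw [nilQ_apply, ← polarBilin_apply_apply, map_sum, LinearMap.sum_apply]
    apply Finset.sum_eq_zero
    intro b _
    rw [map_smul, LinearMap.smul_apply, polarBilin_apply_apply, hee, smul_zero]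
  have hNN : ∀ v, nilQ Q π e (nilQ Q π e v) = 0 := by
    intro v
    rw [nilQ_apply Q π e (nilQ Q π e v)]
    apply Finset.sum_eq_zero
    intro a _
    rw [hNe, zero_smul]
  let g : V →ₗ[F] V := LinearMap.id + nilQ Q π e
  have hgv : ∀ v, g v = v + nilQ Q π e v := fun v => rfl
  have hinv : Function.Involutive g := by
    intro v
    rw [hgv, hgv, map_add, hNN, add_zero, add_assoc, add_self_vec F, add_zero]
  have hQg : ∀ v, Q (LinearEquiv.ofInvolutive g hinv v) = Q v := by
    intro v
    rw [LinearEquiv.coe_ofInvolutive, hgv, QuadraticMap.map_add Q, hkey, add_assoc,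
      CharTwo.add_self_eq_zero, add_zero]
  let t : OG Q := ⟨LinearEquiv.ofInvolutive g hinv, hQg⟩
  have ht : ∀ v, t.1 v = v + nilQ Q π e v := fun v => rfl
  have hd : ∀ v, dOG Q t v = nilQ Q π e v := by
    intro v
    rw [dOG_apply, ht]; abel
  have hNx : ∀ a, nilQ Q π e (x a) = e (π a) := by
    intro a
    rw [nilQ_apply]
    simp only [hxe, ite_smul, one_smul, zero_smul, Finset.sum_ite_eq, Finset.mem_univ, if_true]
  have hli : LinearIndependent F e := by
    rw [Fintype.linearIndependent_iff]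
    intro c hc j
    have h1 := congrArg (polarBilin Q (x j)) hc
    simp only [map_sum, map_smul, polarBilin_apply_apply, hxe, map_zero, smul_eq_mul, mul_ite,
      mul_one, mul_zero, Finset.sum_ite_eq, Finset.mem_univ, if_true] at h1
    exact h1
  refine ⟨t, ?_, hd, ?_⟩
  · apply Subtype.ext
    apply LinearEquiv.ext
    intro v
    exact hinv v
  · have hr : range (dOG Q t) = Submodule.span F (Set.range e) := by
      apply le_antisymm
      · rintro _ ⟨v, rfl⟩
        rw [hd, nilQ_apply]
        apply Submodule.sum_mem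
        intro a _
        exact Submodule.smul_mem _ _ (Submodule.subset_span ⟨π a, rfl⟩)
      · rw [Submodule.span_le]
        rintro _ ⟨a, rfl⟩
        exact ⟨x (π a), by rw [hd, hNx, hπ a]⟩
    rw [hr, finrank_span_eq_card hli]

theorem exists_OG_invol_nonalt [FiniteDimensional F V] [Nonempty I] (x e : I → V)
    (hee : ∀ a b, polar Q (e a) (e b) = 0)
    (hxe : ∀ a b, polar Q (x a) (e b) = if a = b then 1 else 0) (hQe : ∀ a, Q (e a) = 1) :
    ∃ t : OG Q, t * t = 1 ∧ ¬ (∀ v, polar Q v (dOG Q t v) = 0) ∧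
      finrank F (range (dOG Q t)) = Fintype.card I := by
  obtain ⟨t, ht, hd, hr⟩ := exists_OG_invol (Q := Q) _root_.id (fun _ => rfl) x e hee hxe (by
    intro v
    have e1 : nilQ Q _root_.id e v = ∑ a, polar Q v (e a) • e a := nilQ_apply Q _ e v
    rw [e1, Q_sum_smul_orth Q Finset.univ (fun a => polar Q v (e a)) e hee,
      ← polarBilin_apply_apply, map_sum]
    apply Finset.sum_congr rfl
    intro a _
    rw [map_smul, polarBilin_apply_apply, hQe, mul_one, smul_eq_mul])
  refine ⟨t, ht, ?_, hr⟩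
  intro h
  obtain ⟨a⟩ := ‹Nonempty I›
  have h1 := h (x a)
  rw [hd, nilQ_apply] at h1
  simp only [hxe, ite_smul, one_smul, zero_smul, Finset.sum_ite_eq, Finset.mem_univ, if_true,
    _root_.id] at h1
  exact one_ne_zero h1

theorem exists_OG_invol_alt [FiniteDimensional F V] {s : ℕ} (x e : Fin s ⊕ Fin s → V)
    (hee : ∀ a b, polar Q (e a) (e b) = 0)
    (hxe : ∀ a b, polar Q (x a) (e b) = if a = b then 1 else 0) (hQe : ∀ a, Q (e a) = 0) :
    ∃ t : OG Q, t * t = 1 ∧ (∀ v, polar Q v (dOG Q t v) = 0) ∧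
      finrank F (range (dOG Q t)) = 2 * s := by
  have hpol : ∀ v, polar Q v (nilQ Q Sum.swap e v) = 0 := by
    intro v
    rw [nilQ_apply, ← polarBilin_apply_apply, map_sum, Fintype.sum_sum_type]
    simp only [map_smul, smul_eq_mul, Sum.swap_inl, Sum.swap_inr, polarBilin_apply_apply]
    rw [← Finset.sum_add_distrib]
    apply Finset.sum_eq_zero
    intro i _
    rw [mul_comm, CharTwo.add_self_eq_zero]
  obtain ⟨t, ht, hd, hr⟩ := exists_OG_invol (Q := Q) Sum.swap Sum.swap_swap x e hee hxe (by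
    intro v
    rw [hpol, nilQ_apply, Q_sum_smul_orth Q Finset.univ (fun a => polar Q v (e a))
      (fun a => e a.swap) (fun a b => hee _ _)]
    apply Finset.sum_eq_zero
    intro a _
    rw [hQe, mul_zero])
  refine ⟨t, ht, fun v => by rw [hd, hpol], ?_⟩
  rw [hr, Fintype.card_sum, Fintype.card_fin, two_mul]

end Abstract

section Count

variable {ι : Type} [Fintype ι] [DecidableEq ι] {F : Type*} [Field F] [Finite F] [CharP F 2]
variable (Q : QuadraticForm F (ι → F))

theorem dOG_ne_one {V : Type*} [AddCommGroup V] [Module F V] {Q : QuadraticForm F V} {t : OG Q}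
    (h : finrank F (range (dOG Q t)) ≠ 0) : t ≠ 1 := by
  rintro rfl
  apply h
  have h0 : dOG Q (1 : OG Q) = 0 := by
    apply LinearMap.ext
    intro v
    simp [dOG_apply]
  rw [h0, LinearMap.range_zero, finrank_bot]

theorem finrank_dOG_ne_zero {V : Type*} [AddCommGroup V] [Module F V] [FiniteDimensional F V]
    {Q : QuadraticForm F V} {t : OG Q} (h : t ≠ 1) : finrank F (range (dOG Q t)) ≠ 0 := by
  intro h0
  apply h
  rw [Submodule.finrank_eq_zero, LinearMap.range_eq_bot] at h0
  apply Subtype.ext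
  apply LinearEquiv.ext
  intro v
  have := congrArg (fun f : V →ₗ[F] V => f v) h0
  simp only [dOG_apply, LinearMap.zero_apply] at this
  exact sub_eq_zero.1 this

/-- the number of classes of involutions of an orthogonal group in characteristic two -/
theorem card_invol_classes (hQ : (polarBilin Q).Nondegenerate) (n₁ n₂ : ℕ)
    (hex1 : ∀ i : Fin n₁, ∃ t : OG Q, t * t = 1 ∧ ¬ (∀ v, polar Q v (dOG Q t v) = 0) ∧
      finrank F (range (dOG Q t)) = (i : ℕ) + 1)
    (hex2 : ∀ j : Fin n₂, ∃ t : OG Q, t * t = 1 ∧ (∀ v, polar Q v (dOG Q t v) = 0) ∧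
      finrank F (range (dOG Q t)) = 2 * ((j : ℕ) + 1))
    (hle1 : ∀ t : OG Q, t * t = 1 → finrank F (range (dOG Q t)) ≤ n₁)
    (hle2 : ∀ t : OG Q, t * t = 1 → (∀ v, polar Q v (dOG Q t v) = 0) →
      finrank F (range (dOG Q t)) ≤ 2 * n₂ + 1) :
    Nat.card {C : ConjClasses ↥(Cfsg.isometryGroup F ⇑Q) //
      ∃ g : ↥(Cfsg.isometryGroup F ⇑Q), ConjClasses.mk g = C ∧ orderOf g = 2} = n₁ + n₂ := by
  have hA := polarBilin_isAlt Q
  let R : ↥(Cfsg.isometryGroup F ⇑Q) → Fin n₁ ⊕ Fin n₂ → Prop := fun g l =>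
    Sum.elim (fun i : Fin n₁ => ¬ (∀ v, polar Q v (dOG Q (isoEquiv Q g) v) = 0) ∧
        finrank F (range (dOG Q (isoEquiv Q g))) = (i : ℕ) + 1)
      (fun j : Fin n₂ => (∀ v, polar Q v (dOG Q (isoEquiv Q g) v) = 0) ∧
        finrank F (range (dOG Q (isoEquiv Q g))) = 2 * ((j : ℕ) + 1)) l
  have hmain := card_classes_of_relation (G := ↥(Cfsg.isometryGroup F ⇑Q))
    (L := Fin n₁ ⊕ Fin n₂) (fun g => orderOf g = 2) R ?_ ?_ ?_
  · rw [hmain, Fintype.card_sum, Fintype.card_fin, Fintype.card_fin]
  · intro g hg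
    have ht := isoEquiv_mul_self Q hg
    have hne : isoEquiv Q g ≠ 1 := by
      intro h1
      have : g = 1 := (isoEquiv Q).injective (by rw [h1, map_one])
      rw [this, orderOf_one] at hg
      norm_num at hg
    have hr0 := finrank_dOG_ne_zero hne
    by_cases halt : ∀ v, polar Q v (dOG Q (isoEquiv Q g) v) = 0
    · obtain ⟨k, hk, -⟩ := exists_gram_alt (B := polarBilin Q) (N := dOG Q (isoEquiv Q g)) hA hQ.1
        (dOG_adj ht) halt
      have := hle2 _ ht halt
      exact ⟨Sum.inr ⟨k - 1, by omega⟩, halt, by simp only; omega⟩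
    · have := hle1 _ ht
      exact ⟨Sum.inl ⟨finrank F (range (dOG Q (isoEquiv Q g))) - 1, by omega⟩, halt,
        by simp only; omega⟩
  · intro a b l l' ha hb hRa hRb
    rw [isConj_iff_exists_OG, exists_conj_OG_iff hQ _ _ (isoEquiv_mul_self Q ha)
      (isoEquiv_mul_self Q hb)]
    rcases l with i | j <;> rcases l' with i' | j'
    · obtain ⟨h1, h2⟩ := hRa
      obtain ⟨h3, h4⟩ := hRb
      constructor
      · rintro ⟨h5, -⟩
        congr 1
        apply Fin.ext
        omega
      · intro h5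
        have h6 : i = i' := Sum.inl_injective h5
        subst h6
        exact ⟨by rw [h2, h4], ⟨fun h => absurd h h1, fun h => absurd h h3⟩⟩
    · obtain ⟨h1, h2⟩ := hRa
      obtain ⟨h3, h4⟩ := hRb
      constructor
      · rintro ⟨-, h5⟩
        exact absurd (h5.2 h3) h1
      · intro h5
        exact absurd h5 (by simp)
    · obtain ⟨h1, h2⟩ := hRa
      obtain ⟨h3, h4⟩ := hRb
      constructor
      · rintro ⟨-, h5⟩
        exact absurd (h5.1 h1) h3
      · intro h5
        exact absurd h5 (by simp)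
    · obtain ⟨h1, h2⟩ := hRa
      obtain ⟨h3, h4⟩ := hRb
      constructor
      · rintro ⟨h5, -⟩
        congr 1
        apply Fin.ext
        omega
      · intro h5
        have h6 : j = j' := Sum.inr_injective h5
        subst h6
        exact ⟨by rw [h2, h4], ⟨fun _ => h3, fun _ => h1⟩⟩
  · have hord : ∀ t : OG Q, t * t = 1 → finrank F (range (dOG Q t)) ≠ 0 →
        orderOf ((isoEquiv Q).symm t) = 2 := by
      intro t ht hr
      apply orderOf_eq_prime
      · rw [pow_two, ← map_mul, ht, map_one]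
      · intro h1
        apply dOG_ne_one hr
        have := congrArg (isoEquiv Q) h1
        rwa [MulEquiv.apply_symm_apply, map_one] at this
    rintro (i | j)
    · obtain ⟨t, ht, h1, h2⟩ := hex1 i
      refine ⟨(isoEquiv Q).symm t, hord t ht (by omega), ?_⟩
      change (¬ (∀ v, polar Q v (dOG Q (isoEquiv Q ((isoEquiv Q).symm t)) v) = 0) ∧
        finrank F (range (dOG Q (isoEquiv Q ((isoEquiv Q).symm t)))) = (i : ℕ) + 1)
      rw [MulEquiv.apply_symm_apply]
      exact ⟨h1, h2⟩
    · obtain ⟨t, ht, h1, h2⟩ := hex2 j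
      refine ⟨(isoEquiv Q).symm t, hord t ht (by omega), ?_⟩
      change ((∀ v, polar Q v (dOG Q (isoEquiv Q ((isoEquiv Q).symm t)) v) = 0) ∧
        finrank F (range (dOG Q (isoEquiv Q ((isoEquiv Q).symm t)))) = 2 * ((j : ℕ) + 1))
      rw [MulEquiv.apply_symm_apply]
      exact ⟨h1, h2⟩

end Count

end Cfsg.Agent.Lib.Helper48
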