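import Mathlib
import Cfsg.Agent.Lib.Helper48.OrthInvolExist
import Cfsg.Agent.Lib.Helper49.HypPairs
import Cfsg.Agent.Lib.Helper49.RankParity
import Cfsg.Agent.Lib.Helper49.MinusNoLagr

set_option autoImplicit false
set_option linter.unusedSectionVars false
set_option linter.unusedSimpArgs false

namespace Cfsg.Agent.Lib.Helper48

open Module LinearMap QuadraticMap Cfsg.Agent.Lib.Helper49

variable {F : Type*} [Field F] {m : ℕ}

section Plus

theorem polar_plus_inl (u : Fin m ⊕ Fin m → F) (j : Fin m) :
    polar (plusQF m F) u (Pi.single (Sum.inl j) 1) = u (Sum.inr j) := by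
  rw [plusQF_coe, polar_quadFormPlus]
  simp [Pi.single_apply]

theorem polar_plus_inr (u : Fin m ⊕ Fin m → F) (j : Fin m) :
    polar (plusQF m F) u (Pi.single (Sum.inr j) 1) = u (Sum.inl j) := by
  rw [plusQF_coe, polar_quadFormPlus]
  simp [Pi.single_apply]

theorem plusQF_inl (j : Fin m) : plusQF m F (Pi.single (Sum.inl j) 1) = 0 := by
  rw [plusQF_coe]
  simp [Cfsg.quadFormPlus]

theorem plusQF_inl_add_inr (j : Fin m) :
    plusQF m F (Pi.single (Sum.inl j) 1 + Pi.single (Sum.inr j) 1) = 1 := by
  rw [plusQF_coe]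
  simp [Cfsg.quadFormPlus, Pi.single_apply]

variable [CharP F 2]

theorem exists_plus_nonalt (r : ℕ) (h1 : 1 ≤ r) (hr : r ≤ m) :
    ∃ t : OG (plusQF m F), t * t = 1 ∧ ¬ (∀ v, polar (plusQF m F) v (dOG (plusQF m F) t v) = 0) ∧
      finrank F (range (dOG (plusQF m F) t)) = r := by
  have hne : Nonempty (Fin r) := ⟨⟨0, h1⟩⟩
  have hinj : Function.Injective (Fin.castLE hr) := Fin.castLE_injective hr
  obtain ⟨t, ht, h2, h3⟩ := exists_OG_invol_nonalt (Q := plusQF m F) (I := Fin r)
    (fun a => Pi.single (Sum.inr (Fin.castLE hr a)) 1)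
    (fun a => Pi.single (Sum.inl (Fin.castLE hr a)) 1 + Pi.single (Sum.inr (Fin.castLE hr a)) 1)
    (by
      intro a b
      rw [polar_add_right, polar_plus_inl, polar_plus_inr]
      by_cases h : a = b
      · subst h
        simp [CharTwo.add_self_eq_zero]
      · have h' : Fin.castLE hr b ≠ Fin.castLE hr a := fun h2 => h (hinj h2).symm
        simp [Pi.single_apply, h'])
    (by
      intro a b
      rw [polar_add_right, polar_plus_inl, polar_plus_inr]
      by_cases h : a = b
      · subst h
        simp
      · have h' : Fin.castLE hr b ≠ Fin.castLE hr a := fun h2 => h (hinj h2).symm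
        simp [Pi.single_apply, h', h])
    (fun a => plusQF_inl_add_inr _)
  exact ⟨t, ht, h2, by rw [h3, Fintype.card_fin]⟩

theorem exists_plus_alt (s : ℕ) (hs : 2 * s ≤ m) :
    ∃ t : OG (plusQF m F), t * t = 1 ∧ (∀ v, polar (plusQF m F) v (dOG (plusQF m F) t v) = 0) ∧
      finrank F (range (dOG (plusQF m F) t)) = 2 * s := by
  have hs' : s + s ≤ m := by omega
  let ι : Fin s ⊕ Fin s → Fin m := fun p => Fin.castLE hs' (finSumFinEquiv p)
  have hinj : Function.Injective ι :=
    (Fin.castLE_injective hs').comp finSumFinEquiv.injective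
  exact exists_OG_invol_alt (Q := plusQF m F)
    (fun a => Pi.single (Sum.inr (ι a)) 1) (fun a => Pi.single (Sum.inl (ι a)) 1)
    (by
      intro a b
      rw [polar_plus_inl]
      simp)
    (by
      intro a b
      rw [polar_plus_inl]
      by_cases h : a = b
      · subst h
        simp
      · have h' : ι b ≠ ι a := fun h2 => h (hinj h2).symm
        simp [Pi.single_apply, h', h])
    (fun a => plusQF_inl _)

end Plus

section Minus

variable (a b : F)

theorem polar_minus_inl (u : (Fin m ⊕ Fin m) ⊕ Fin 2 → F) (j : Fin m) :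
    polar (minusQF m F a b) u (Pi.single (Sum.inl (Sum.inl j)) 1) = u (Sum.inl (Sum.inr j)) := by
  rw [minusQF_coe, polar_quadFormMinus]
  simp [Pi.single_apply]

theorem polar_minus_inr (u : (Fin m ⊕ Fin m) ⊕ Fin 2 → F) (j : Fin m) :
    polar (minusQF m F a b) u (Pi.single (Sum.inl (Sum.inr j)) 1) = u (Sum.inl (Sum.inl j)) := by
  rw [minusQF_coe, polar_quadFormMinus]
  simp [Pi.single_apply]

theorem polar_minus_zero [CharP F 2] (u : (Fin m ⊕ Fin m) ⊕ Fin 2 → F) :
    polar (minusQF m F a b) u (Pi.single (Sum.inr 0) 1) = a * u (Sum.inr 1) := by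
  have h2 : (2 : F) = 0 := CharP.cast_eq_zero F 2
  rw [minusQF_coe, polar_quadFormMinus]
  simp [Pi.single_apply, h2]

theorem minusQF_inl (j : Fin m) : minusQF m F a b (Pi.single (Sum.inl (Sum.inl j)) 1) = 0 := by
  rw [minusQF_coe]
  simp [Cfsg.quadFormMinus]

theorem minusQF_inl_add_inr (j : Fin m) :
    minusQF m F a b (Pi.single (Sum.inl (Sum.inl j)) 1 + Pi.single (Sum.inl (Sum.inr j)) 1) = 1 := by
  rw [minusQF_coe]
  simp [Cfsg.quadFormMinus, Pi.single_apply]

theorem minusQF_zero : minusQF m F a b (Pi.single (Sum.inr 0) 1) = 1 := by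
  rw [minusQF_coe]
  simp [Cfsg.quadFormMinus]

variable [CharP F 2]

theorem exists_minus_nonalt (ha : a ≠ 0) (r : ℕ) (hr : r ≤ m) :
    ∃ t : OG (minusQF m F a b), t * t = 1 ∧
      ¬ (∀ v, polar (minusQF m F a b) v (dOG (minusQF m F a b) t v) = 0) ∧
      finrank F (range (dOG (minusQF m F a b) t)) = r + 1 := by
  have hinj : Function.Injective (Fin.castLE hr) := Fin.castLE_injective hr
  obtain ⟨t, ht, h2, h3⟩ := exists_OG_invol_nonalt (Q := minusQF m F a b) (I := Fin r ⊕ Unit)
    (Sum.elim (fun i => Pi.single (Sum.inl (Sum.inr (Fin.castLE hr i))) 1)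
      (fun _ => Pi.single (Sum.inr 1) a⁻¹))
    (Sum.elim (fun i => Pi.single (Sum.inl (Sum.inl (Fin.castLE hr i))) 1 +
      Pi.single (Sum.inl (Sum.inr (Fin.castLE hr i))) 1) (fun _ => Pi.single (Sum.inr 0) 1))
    (by
      rintro (i | _) (j | _)
      · simp only [Sum.elim_inl]
        rw [polar_add_right, polar_minus_inl, polar_minus_inr]
        by_cases h : i = j
        · subst h
          simp [CharTwo.add_self_eq_zero]
        · have h' : Fin.castLE hr j ≠ Fin.castLE hr i := fun h2 => h (hinj h2).symm
          simp [Pi.single_apply, h']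
      · simp only [Sum.elim_inl, Sum.elim_inr]
        rw [polar_minus_zero]
        simp
      · simp only [Sum.elim_inl, Sum.elim_inr]
        rw [polar_add_right, polar_minus_inl, polar_minus_inr]
        simp
      · simp only [Sum.elim_inr]
        rw [polar_minus_zero]
        simp)
    (by
      rintro (i | _) (j | _)
      · simp only [Sum.elim_inl]
        rw [polar_add_right, polar_minus_inl, polar_minus_inr]
        by_cases h : i = j
        · subst h
          simp
        · have h' : Fin.castLE hr j ≠ Fin.castLE hr i := fun h2 => h (hinj h2).symm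
          simp [Pi.single_apply, h', h]
      · simp only [Sum.elim_inl, Sum.elim_inr]
        rw [polar_minus_zero]
        simp
      · simp only [Sum.elim_inl, Sum.elim_inr]
        rw [polar_add_right, polar_minus_inl, polar_minus_inr]
        simp
      · simp only [Sum.elim_inr]
        rw [polar_minus_zero]
        simp [ha])
    (by
      rintro (i | _)
      · exact minusQF_inl_add_inr a b _
      · exact minusQF_zero a b)
  exact ⟨t, ht, h2, by rw [h3, Fintype.card_sum, Fintype.card_fin]; rfl⟩

theorem exists_minus_alt (s : ℕ) (hs : 2 * s ≤ m) :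
    ∃ t : OG (minusQF m F a b), t * t = 1 ∧
      (∀ v, polar (minusQF m F a b) v (dOG (minusQF m F a b) t v) = 0) ∧
      finrank F (range (dOG (minusQF m F a b) t)) = 2 * s := by
  have hs' : s + s ≤ m := by omega
  let ι : Fin s ⊕ Fin s → Fin m := fun p => Fin.castLE hs' (finSumFinEquiv p)
  have hinj : Function.Injective ι :=
    (Fin.castLE_injective hs').comp finSumFinEquiv.injective
  exact exists_OG_invol_alt (Q := minusQF m F a b)
    (fun c => Pi.single (Sum.inl (Sum.inr (ι c))) 1) (fun c => Pi.single (Sum.inl (Sum.inl (ι c))) 1)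
    (by
      intro c d
      rw [polar_minus_inl]
      simp)
    (by
      intro c d
      rw [polar_minus_inl]
      by_cases h : c = d
      · subst h
        simp
      · have h' : ι d ≠ ι c := fun h2 => h (hinj h2).symm
        simp [Pi.single_apply, h', h])
    (fun c => minusQF_inl a b _)

end Minus

end Cfsg.Agent.Lib.Helper48
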