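import Mathlib
import Cfsg.Agent.Lib.Helper49.MinusNoLagr

set_option autoImplicit false
set_option linter.unusedSectionVars false

namespace Cfsg.Agent.Lib.Helper48

open Module LinearMap QuadraticMap Cfsg.Agent.Lib.Helper49

section Abs

variable {F V : Type*} [Field F] [AddCommGroup V] [Module F V] (Q : QuadraticForm F V)

/-- the orthogonal group is generated by reflections -/
def ReflGen : Prop := ∀ g : OG Q, ∃ vs : List V, (∀ z ∈ vs, Q z ≠ 0) ∧ g = reflProd Q vs

variable {Q}

theorem reflGen_of_ne [Fintype F] [FiniteDimensional F V] (hQ : (polarBilin Q).Nondegenerate)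
    (h : Fintype.card F ≠ 2 ∨ finrank F V ≠ 4) : ReflGen Q :=
  exists_reflProd_eq_finite Q hQ h

/-- the auxiliary vector in the exceptional case, when there is no Lagrangian -/
theorem exists_aux_vector_noLagr [Fintype F] [FiniteDimensional F V] (h2 : (2 : F) = 0)
    (hQ : (polarBilin Q).Nondegenerate) (hno : ∀ L, ¬ IsLagr Q L) (u v : V)
    (huv : Q u = Q v) (hu : Q u ≠ 0) (hne : u ≠ v) (h0 : polar Q u v = 0) :
    ∃ y, Q y ≠ 0 ∧ polar Q y u ≠ 0 ∧ polar Q y v ≠ 0 := by
  by_cases h : Fintype.card F ≠ 2 ∨ finrank F V ≠ 4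
  · exact exists_aux_vector Q h2 hQ h u v huv hu hne h0
  push Not at h
  obtain ⟨hq, hd⟩ := h
  have hone : ∀ x : F, x ≠ 0 → x = 1 := by
    intro x hx
    classical
    have h1 : Fintype.card Fˣ = 1 := by rw [Fintype.card_units, hq]
    have := Fintype.card_le_one_iff.1 h1.le (Units.mk0 x hx) 1
    simpa using congrArg Units.val this
  have hself := polar_self_of_two_eq_zero Q h2
  have hu0 : u ≠ 0 := ne_zero_of_Q_ne_zero' Q hu
  have hv0 : v ≠ 0 := ne_zero_of_Q_ne_zero' Q (huv ▸ hu)
  have hy₀ : ∃ y₀, polar Q y₀ u ≠ 0 ∧ polar Q y₀ v ≠ 0 := by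
    obtain ⟨y₁, hy₁⟩ := exists_polar_ne_zero Q hQ hu0
    obtain ⟨y₂, hy₂⟩ := exists_polar_ne_zero Q hQ hv0
    rw [polar_comm] at hy₁ hy₂
    by_cases h3 : polar Q y₁ v = 0
    · by_cases h4 : polar Q y₂ u = 0
      · refine ⟨y₁ + y₂, ?_, ?_⟩
        · rw [polar_add_left, h4, add_zero]; exact hy₁
        · rw [polar_add_left, h3, zero_add]; exact hy₂
      · exact ⟨y₂, h4, hy₂⟩
    · exact ⟨y₁, hy₁, h3⟩
  obtain ⟨y₀, h5, h6⟩ := hy₀
  by_cases h7 : Q y₀ = 0
  swap
  · exact ⟨y₀, h7, h5, h6⟩
  exfalso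
  have h5' := hone _ h5
  have h6' := hone _ h6
  have hw : Q (u + v) = 0 := by
    rw [Q_add_eq, h0, ← huv]
    linear_combination Q u * h2
  have hyw : polar Q y₀ (u + v) = 0 := by
    rw [polar_add_right, h5', h6']
    linear_combination h2
  have hw0 : u + v ≠ 0 := by
    intro h8
    apply hne
    have h9 : v + v = 0 := by
      have : (2 : F) • v = 0 := by rw [h2, zero_smul]
      rwa [two_smul] at this
    calc u = (u + v) + v - (v + v) := by abel
      _ = v := by rw [h8, h9]; abel
  have hli : LinearIndependent F ![u + v, y₀] := by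
    rw [LinearIndependent.pair_iff' hw0]
    intro c hc
    apply h5
    rw [← hc, polar_smul_left, polar_add_left, hself, polar_comm, h0]
    simp
  apply hno (Submodule.span F (Set.range ![u + v, y₀]))
  apply isLagr_of_finrank hQ
  · intro x hx
    rw [Submodule.mem_span_range_iff_exists_fun] at hx
    obtain ⟨c, rfl⟩ := hx
    simp only [Fin.sum_univ_two, Matrix.cons_val_zero, Matrix.cons_val_one]
    rw [Q_add_eq, QuadraticMap.map_smul, QuadraticMap.map_smul, hw, h7, polar_smul_left,
      polar_smul_right, polar_comm, hyw]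
    simp
  · rw [finrank_span_eq_card hli, hd]
    simp

theorem reflGen_of_noLagr [Fintype F] [FiniteDimensional F V] (h2 : (2 : F) = 0)
    (hQ : (polarBilin Q).Nondegenerate) (hno : ∀ L, ¬ IsLagr Q L) : ReflGen Q := by
  have hmap : ∀ u v : V, Q u = Q v → Q u ≠ 0 →
      ∃ vs : List V, (∀ z ∈ vs, Q z ≠ 0) ∧ (reflProd Q vs).1 u = v := by
    intro u v huv hu
    by_cases hne : u = v
    · exact ⟨[], by simp, by simp [hne]⟩
    by_cases h0 : Q (u - v) = 0
    · have h1 : polar Q u v = 0 := by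
        have := Q_sub_smul Q u v 1
        simp only [one_smul, one_pow, one_mul] at this
        rw [h0, huv, polar_comm] at this
        linear_combination this + Q v * h2
      obtain ⟨y, hy1, hy2, hy3⟩ := exists_aux_vector_noLagr h2 hQ hno u v huv hu hne h1
      obtain ⟨vs, h3, h4, -⟩ := exists_reflProd_map_aux Q u v y huv h0 hy1 hy2 hy3
      exact ⟨vs, h3, h4⟩
    · refine ⟨[u - v], ?_, ?_⟩
      · intro z hz
        simp only [List.mem_cons, List.not_mem_nil, or_false] at hz
        rw [hz]; exact h0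
      · simp [reflLin_sub_apply Q u v huv h0]
  intro g
  by_cases hV : ∃ x : V, x ≠ 0
  · obtain ⟨x, hx⟩ := hV
    obtain ⟨u₀, -, hu₀, -⟩ := exists_nonsingular_pair Q h2 hQ hx
    obtain ⟨vs₁, h11, h12⟩ := hmap (g.1 u₀) u₀ (OG_apply Q g u₀)
      (by rw [OG_apply]; exact hu₀)
    obtain ⟨vs₂, h21, h22⟩ := stab_eq_reflProd h2 _ V Q rfl hQ u₀ hu₀ (reflProd Q vs₁ * g)
      (by rw [Subgroup.coe_mul, LinearEquiv.mul_apply, h12])
    refine ⟨vs₁.reverse ++ vs₂, ?_, ?_⟩
    · intro z hz
      rcases List.mem_append.1 hz with h | h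
      · exact h11 z (List.mem_reverse.1 h)
      · exact h21 z h
    · rw [reflProd_append, reflProd_reverse, ← h22]
      group
  · push Not at hV
    refine ⟨[], by simp, ?_⟩
    apply Subtype.ext
    ext x
    rw [hV x, hV (g.1 0)]
    simp

variable [Fintype F] [FiniteDimensional F V]

theorem reflProd_mem_commutator_iff_gen (h2 : (2 : F) = 0) (hQ : (polarBilin Q).Nondegenerate)
    (hgen : ReflGen Q) (vs : List V) (hvs : ∀ v ∈ vs, Q v ≠ 0) :
    reflProd Q vs ∈ commutator (OG Q) ↔ Even vs.length := by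
  constructor
  · intro hm
    obtain ⟨ws, k1, k2, k3, k4⟩ := commutator_le_spinKer Q hgen hm
    obtain ⟨e1, e2⟩ := reflProd_eq_reflProd Q hQ vs ws hvs k1 k4
    exact (Nat.even_add.1 e1).2 k2
  · intro h1
    exact reflProd_mem_commutator_of_even_of_isSquare Q hQ vs hvs h1 (isSquare_of_two_eq_zero h2 _)

theorem mem_commutator_iff_even_rank_gen (h2 : (2 : F) = 0) (hQ : (polarBilin Q).Nondegenerate)
    (hgen : ReflGen Q) (g : OG Q) :
    g ∈ commutator (OG Q) ↔ Even (finrank F (range (dOG Q g))) := by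
  obtain ⟨vs, hvs, rfl⟩ := hgen g
  rw [reflProd_mem_commutator_iff_gen h2 hQ hgen vs hvs,
    even_finrank_range_dOG_reflProd_iff Q hQ vs hvs]

theorem index_commutator_gen (h2 : (2 : F) = 0) (hQ : (polarBilin Q).Nondegenerate)
    (hgen : ReflGen Q) (hV : ∃ x : V, x ≠ 0) : (commutator (OG Q)).index = 2 := by
  obtain ⟨x, hx⟩ := hV
  obtain ⟨u₀, -, hu₀, -⟩ := exists_nonsingular_pair Q h2 hQ hx
  rw [Subgroup.index_eq_two_iff]
  refine ⟨refl Q u₀, fun b => ?_⟩
  obtain ⟨vs, hvs, rfl⟩ := hgen b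
  have e : reflProd Q vs * refl Q u₀ = reflProd Q (vs ++ [u₀]) := by simp
  rw [e, reflProd_mem_commutator_iff_gen h2 hQ hgen vs hvs,
    reflProd_mem_commutator_iff_gen h2 hQ hgen (vs ++ [u₀]) (by
      intro v hv
      rcases List.mem_append.1 hv with h | h
      · exact hvs v h
      · simp only [List.mem_cons, List.not_mem_nil, or_false] at h
        rw [h]; exact hu₀)]
  simp only [List.length_append, List.length_cons, List.length_nil, zero_add]
  rw [Nat.even_add_one]
  by_cases he : Even vs.length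
  · exact Or.inr ⟨he, by simpa using he⟩
  · exact Or.inl ⟨he, he⟩

/-- if `t` fixes a nonsingular vector, conjugacy under `O` implies conjugacy under `Ω` -/
theorem exists_commutator_conj_of_fixed_gen (h2 : (2 : F) = 0)
    (hQ : (polarBilin Q).Nondegenerate) (hgen : ReflGen Q) (t s g : OG Q)
    (hg : g * t * g⁻¹ = s) (y : V) (hy : Q y ≠ 0) (hty : t.1 y = y) :
    ∃ k ∈ commutator (OG Q), k * t * k⁻¹ = s := by
  obtain ⟨vs, hvs, rfl⟩ := hgen g
  by_cases he : Even vs.length
  · exact ⟨_, (reflProd_mem_commutator_iff_gen h2 hQ hgen vs hvs).2 he, hg⟩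
  · refine ⟨reflProd Q (vs ++ [y]), ?_, ?_⟩
    · refine (reflProd_mem_commutator_iff_gen h2 hQ hgen _ ?_).2 ?_
      · intro z hz
        rcases List.mem_append.1 hz with h | h
        · exact hvs z h
        · simp only [List.mem_cons, List.not_mem_nil, or_false] at h
          rw [h]; exact hy
      · simp only [List.length_append, List.length_cons, List.length_nil, zero_add]
        rw [Nat.even_add_one]
        exact he
    · have hc : refl Q y * t * (refl Q y)⁻¹ = t := by
        have h1 := refl_conj Q t y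
        rw [hty] at h1
        have h3 : t * refl Q y = refl Q y * t := mul_inv_eq_iff_eq_mul.1 h1
        rw [← h3]; group
      rw [← hg]
      simp only [reflProd_append, reflProd_cons, reflProd_nil, mul_one]
      calc reflProd Q vs * refl Q y * t * (reflProd Q vs * refl Q y)⁻¹
          = reflProd Q vs * (refl Q y * t * (refl Q y)⁻¹) * (reflProd Q vs)⁻¹ := by group
        _ = _ := by rw [hc]

end Abs

end Cfsg.Agent.Lib.Helper48
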