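import Mathlib
import Cfsg.Agent.Lib.Helper48.OrthInvolStd
import Cfsg.Agent.Lib.Helper48.ReflGen

set_option autoImplicit false
set_option linter.unusedSectionVars false

namespace Cfsg.Agent.Lib.Helper48

open Module LinearMap QuadraticMap Cfsg.Agent.Lib.Helper49

section Abs

variable {F V : Type*} [Field F] [Fintype F] [CharP F 2] [AddCommGroup V] [Module F V]
  [FiniteDimensional F V] (Q : QuadraticForm F V)

/-- conjugacy under the commutator subgroup of the orthogonal group -/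
def CO (t s : OG Q) : Prop := ∃ k ∈ commutator (OG Q), k * t * k⁻¹ = s

/-- involutions of "Lagrangian type" -/
def LagT (t : OG Q) : Prop :=
  (∀ v, polar Q v (dOG Q t v) = 0) ∧ 2 * finrank F (range (dOG Q t)) = finrank F V

variable {Q}

theorem CO.refl (t : OG Q) : CO Q t t := ⟨1, one_mem _, by simp⟩

theorem CO.symm {t s : OG Q} (h : CO Q t s) : CO Q s t := by
  obtain ⟨k, hk, rfl⟩ := h
  exact ⟨k⁻¹, inv_mem hk, by group⟩

theorem CO.trans {t s u : OG Q} (h : CO Q t s) (h' : CO Q s u) : CO Q t u := by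
  obtain ⟨k, hk, rfl⟩ := h
  obtain ⟨k', hk', rfl⟩ := h'
  exact ⟨k' * k, mul_mem hk' hk, by group⟩

theorem LagT.isLagr (hQ : (polarBilin Q).Nondegenerate) {t : OG Q} (h : LagT Q t) :
    IsLagr Q (range (dOG Q t)) := by
  apply isLagr_of_finrank hQ
  · rintro _ ⟨v, rfl⟩
    rw [Q_dOG]
    exact h.1 v
  · exact h.2

theorem mem_commutator_iff_of_lagr (hQ : (polarBilin Q).Nondegenerate)
    (h : ReflGen Q) (t s k : OG Q) (hk : k * t * k⁻¹ = s)
    (hL : IsLagr Q (range (dOG Q t))) (he : Even (finrank F (range (dOG Q t)))) :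
    k ∈ commutator (OG Q) ↔ Even (finrank F ↥(range (dOG Q t) ⊓ range (dOG Q s))) := by
  have h2 : (2 : F) = 0 := CharP.cast_eq_zero F 2
  obtain ⟨vs, hvs, rfl⟩ := h k
  rw [reflProd_mem_commutator_iff_gen h2 hQ h vs hvs, ← hk, range_dOG_conj]
  have h1 := hL.even_finrank_inf_map_reflProd hQ hL vs hvs
  rw [inf_idem] at h1
  rw [Nat.even_iff] at h1 he ⊢
  rw [Nat.even_iff]
  omega

/-- outside the Lagrangian type, conjugacy under `O` implies conjugacy under `Ω` -/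
theorem CO_of_not_lagT (hQ : (polarBilin Q).Nondegenerate)
    (h : ReflGen Q) (t s g : OG Q) (ht : t * t = 1)
    (hg : g * t * g⁻¹ = s) (hn : ¬ LagT Q t) : CO Q t s := by
  have h2 : (2 : F) = 0 := CharP.cast_eq_zero F 2
  by_cases hy : ∃ y, Q y ≠ 0 ∧ t.1 y = y
  · obtain ⟨y, hy1, hy2⟩ := hy
    exact exists_commutator_conj_of_fixed_gen h2 hQ h _ _ _ hg y hy1 hy2
  · exfalso
    have hL := (isLagr_range_dOG_of_singular Q h2 hQ t ht (by
      intro y hy'
      by_contra h0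
      exact hy ⟨y, h0, hy'⟩)).1
    apply hn
    refine ⟨fun v => ?_, hL.finrank_eq hQ⟩
    have := hL.1 _ ⟨v, rfl⟩
    rwa [Q_dOG] at this

theorem LagT.conj_iff (hQ : (polarBilin Q).Nondegenerate) {t s : OG Q} (ht : t * t = 1)
    (hs : s * s = 1) (g : OG Q) (hg : g * t * g⁻¹ = s) : LagT Q t ↔ LagT Q s := by
  obtain ⟨h1, h2⟩ := (exists_conj_OG_iff hQ t s ht hs).1 ⟨g, hg⟩
  unfold LagT
  rw [h1, h2]

theorem LagT.exists_conj (hQ : (polarBilin Q).Nondegenerate) {t s : OG Q} (ht : t * t = 1)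
    (hs : s * s = 1) (h : LagT Q t) (h' : LagT Q s) : ∃ g : OG Q, g * t * g⁻¹ = s := by
  rw [exists_conj_OG_iff hQ t s ht hs]
  refine ⟨?_, fun _ => h'.1, fun _ => h.1⟩
  have := h.2
  have := h'.2
  omega

theorem CO_iff_of_lagT (hQ : (polarBilin Q).Nondegenerate)
    (h : ReflGen Q) (hV : ∃ x : V, x ≠ 0) (t₀ t s : OG Q)
    (ht₀ : t₀ * t₀ = 1) (ht : t * t = 1) (hs : s * s = 1) (h₀ : LagT Q t₀) (h₁ : LagT Q t)
    (h₂ : LagT Q s) : CO Q t s ↔ (CO Q t₀ t ↔ CO Q t₀ s) := by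
  have h2 : (2 : F) = 0 := CharP.cast_eq_zero F 2
  constructor
  · intro hts
    exact ⟨fun h => h.trans hts, fun h => h.trans hts.symm⟩
  · intro hiff
    by_cases hc : CO Q t₀ t
    · exact hc.symm.trans (hiff.1 hc)
    · have hc' : ¬ CO Q t₀ s := fun h => hc (hiff.2 h)
      obtain ⟨g, hg⟩ := h₀.exists_conj hQ ht₀ ht h₁
      obtain ⟨g', hg'⟩ := h₀.exists_conj hQ ht₀ hs h₂
      have hgn : g ∉ commutator (OG Q) := fun hm => hc ⟨g, hm, hg⟩
      have hgn' : g' ∉ commutator (OG Q) := fun hm => hc' ⟨g', hm, hg'⟩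
      have hidx := index_commutator_gen h2 hQ h hV
      refine ⟨g' * g⁻¹, ?_, ?_⟩
      · rw [Subgroup.mul_mem_iff_of_index_two hidx, inv_mem_iff]
        exact ⟨fun h => absurd h hgn', fun h => absurd h hgn⟩
      · rw [← hg, ← hg']
        group

theorem exists_lagT_not_CO (hQ : (polarBilin Q).Nondegenerate)
    (h : ReflGen Q) (hV : ∃ x : V, x ≠ 0) (t₀ : OG Q)
    (ht₀ : t₀ * t₀ = 1) (h₀ : LagT Q t₀) (he : Even (finrank F (range (dOG Q t₀)))) :
    ∃ t : OG Q, t * t = 1 ∧ LagT Q t ∧ ¬ CO Q t₀ t := by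
  have h2 : (2 : F) = 0 := CharP.cast_eq_zero F 2
  have hidx := index_commutator_gen h2 hQ h hV
  obtain ⟨r, hr⟩ : ∃ r : OG Q, r ∉ commutator (OG Q) := by
    by_contra hall
    push Not at hall
    have : commutator (OG Q) = ⊤ := by
      rw [eq_top_iff]
      exact fun x _ => hall x
    rw [this, Subgroup.index_top] at hidx
    norm_num at hidx
  have htt : (r * t₀ * r⁻¹) * (r * t₀ * r⁻¹) = 1 := by
    calc (r * t₀ * r⁻¹) * (r * t₀ * r⁻¹) = r * (t₀ * t₀) * r⁻¹ := by group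
      _ = 1 := by rw [ht₀]; group
  refine ⟨r * t₀ * r⁻¹, htt, (LagT.conj_iff hQ ht₀ htt r rfl).1 h₀, ?_⟩
  rintro ⟨k, hk, hkt⟩
  apply hr
  rw [mem_commutator_iff_of_lagr hQ h t₀ _ r rfl (h₀.isLagr hQ) he,
    ← mem_commutator_iff_of_lagr hQ h t₀ _ k hkt (h₀.isLagr hQ) he]
  exact hk

end Abs

end Cfsg.Agent.Lib.Helper48
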