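import Mathlib
import Cfsg.Agent.Lib.Helper48.OmegaInvol

set_option autoImplicit false
set_option linter.unusedSectionVars false

namespace Cfsg.Agent.Lib.Helper48

open Module LinearMap QuadraticMap Cfsg.Agent.Lib.Helper49

section Count

variable {ι : Type} [Fintype ι] [DecidableEq ι] {F : Type*} [Field F] [Fintype F] [CharP F 2]
variable (Q : QuadraticForm F (ι → F))

theorem isConj_Omega_iff (a b : ↥(Cfsg.Omega F ⇑Q)) :
    IsConj a b ↔ CO Q (isoEquiv Q a.1) (isoEquiv Q b.1) := by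
  unfold CO
  rw [← exists_Omega_conj_iff, isConj_iff]
  constructor
  · rintro ⟨c, rfl⟩
    exact ⟨c.1, c.2, rfl⟩
  · rintro ⟨g, hg, hgab⟩
    exact ⟨⟨g, hg⟩, Subtype.ext hgab⟩

/-- counting the classes of involutions of `Ω` in characteristic two -/
theorem card_Omega_invol_classes (hQ : (polarBilin Q).Nondegenerate)
    (h' : ReflGen Q) [Nonempty ι] (n₁ n₂ e : ℕ)
    (hex1 : ∀ i : Fin n₁, ∃ t : OG Q, t * t = 1 ∧ ¬ (∀ v, polar Q v (dOG Q t v) = 0) ∧
      finrank F (range (dOG Q t)) = 2 * ((i : ℕ) + 1))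
    (hex2 : ∀ j : Fin n₂, ∃ t : OG Q, t * t = 1 ∧ (∀ v, polar Q v (dOG Q t v) = 0) ∧
      finrank F (range (dOG Q t)) = 2 * ((j : ℕ) + 1))
    (hle1 : ∀ t : OG Q, t * t = 1 → finrank F (range (dOG Q t)) ≤ 2 * n₁ + 1)
    (hle2 : ∀ t : OG Q, t * t = 1 → (∀ v, polar Q v (dOG Q t v) = 0) →
      finrank F (range (dOG Q t)) ≤ 2 * n₂ + 1)
    (he : e ≤ 1)
    (h0 : e = 0 → ∀ t : OG Q, t * t = 1 → Even (finrank F (range (dOG Q t))) → ¬ LagT Q t)
    (h1 : e = 1 → ∃ t : OG Q, t * t = 1 ∧ Even (finrank F (range (dOG Q t))) ∧ LagT Q t) :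
    Nat.card {C : ConjClasses ↥(Cfsg.Omega F ⇑Q) //
      ∃ g : ↥(Cfsg.Omega F ⇑Q), ConjClasses.mk g = C ∧ orderOf g = 2} = n₁ + n₂ + e := by
  have h2 : (2 : F) = 0 := CharP.cast_eq_zero F 2
  have hA := polarBilin_isAlt Q
  have hV : ∃ x : ι → F, x ≠ 0 :=
    ⟨fun _ => 1, fun h0 => one_ne_zero (congrFun h0 (Classical.arbitrary ι))⟩
  obtain ⟨t₀, ht₀⟩ : ∃ t₀ : OG Q, e = 1 →
      (t₀ * t₀ = 1 ∧ Even (finrank F (range (dOG Q t₀))) ∧ LagT Q t₀) := by
    by_cases he1 : e = 1
    · obtain ⟨t, ht⟩ := h1 he1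
      exact ⟨t, fun _ => ht⟩
    · exact ⟨1, fun h => absurd h he1⟩
  let T : ↥(Cfsg.Omega F ⇑Q) → OG Q := fun g => isoEquiv Q g.1
  have hTT : ∀ g : ↥(Cfsg.Omega F ⇑Q), orderOf g = 2 → T g * T g = 1 := by
    intro g hg
    apply isoEquiv_mul_self
    rw [← hg, Subgroup.orderOf_coe]
  have hTe : ∀ g : ↥(Cfsg.Omega F ⇑Q), Even (finrank F (range (dOG Q (T g)))) := by
    intro g
    rw [← mem_commutator_iff_even_rank_gen h2 hQ h', ← mem_Omega_iff]
    exact g.2
  have he1_of : ∀ t : OG Q, t * t = 1 → Even (finrank F (range (dOG Q t))) → LagT Q t → e = 1 := by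
    intro t ht hev hL
    by_contra hne
    exact h0 (by omega) t ht hev hL
  let R : ↥(Cfsg.Omega F ⇑Q) → Fin n₁ ⊕ (Fin n₂ ⊕ Fin e) → Prop := fun g l =>
    Sum.elim (fun i : Fin n₁ => ¬ (∀ v, polar Q v (dOG Q (T g) v) = 0) ∧
        finrank F (range (dOG Q (T g))) = 2 * ((i : ℕ) + 1))
      (Sum.elim (fun j : Fin n₂ => (∀ v, polar Q v (dOG Q (T g) v) = 0) ∧
        finrank F (range (dOG Q (T g))) = 2 * ((j : ℕ) + 1) ∧ (LagT Q (T g) → CO Q t₀ (T g)))
        (fun _ : Fin e => LagT Q (T g) ∧ ¬ CO Q t₀ (T g))) l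
  have hmain := card_classes_of_relation (G := ↥(Cfsg.Omega F ⇑Q))
    (L := Fin n₁ ⊕ (Fin n₂ ⊕ Fin e)) (fun g => orderOf g = 2) R ?_ ?_ ?_
  · rw [hmain, Fintype.card_sum, Fintype.card_sum, Fintype.card_fin, Fintype.card_fin,
      Fintype.card_fin, add_assoc]
  · intro g hg
    have ht := hTT g hg
    have hne : T g ≠ 1 := by
      intro h1
      have h3 : g.1 = 1 := (isoEquiv Q).injective (by rw [map_one]; exact h1)
      have : g = 1 := Subtype.ext h3
      rw [this, orderOf_one] at hg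
      norm_num at hg
    have hr0 := finrank_dOG_ne_zero hne
    obtain ⟨k, hk⟩ := hTe g
    by_cases halt : ∀ v, polar Q v (dOG Q (T g) v) = 0
    · by_cases hsp : LagT Q (T g) ∧ ¬ CO Q t₀ (T g)
      · have := he1_of _ ht (hTe g) hsp.1
        exact ⟨Sum.inr (Sum.inr ⟨0, by omega⟩), hsp⟩
      · have := hle2 _ ht halt
        refine ⟨Sum.inr (Sum.inl ⟨k - 1, by omega⟩), halt, by simp only; omega, ?_⟩
        intro hL
        by_contra hc
        exact hsp ⟨hL, hc⟩
    · have := hle1 _ ht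
      exact ⟨Sum.inl ⟨k - 1, by omega⟩, halt, by simp only; omega⟩
  · intro a b l l' ha hb hRa hRb
    have hta := hTT a ha
    have htb := hTT b hb
    rw [isConj_Omega_iff]
    change CO Q (T a) (T b) ↔ l = l'
    have hfw : CO Q (T a) (T b) → (finrank F (range (dOG Q (T a))) = finrank F (range (dOG Q (T b))) ∧
        ((∀ v, polar Q v (dOG Q (T a) v) = 0) ↔ (∀ v, polar Q v (dOG Q (T b) v) = 0))) := by
      rintro ⟨k, -, hk⟩
      exact (exists_conj_OG_iff hQ _ _ hta htb).1 ⟨k, hk⟩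
    rcases l with i | j | z <;> rcases l' with i' | j' | z'
    · obtain ⟨h1, h2⟩ := hRa
      obtain ⟨h3, h4⟩ := hRb
      constructor
      · intro hc
        obtain ⟨h5, -⟩ := hfw hc
        congr 1
        apply Fin.ext
        omega
      · intro h5
        have h6 : i = i' := Sum.inl_injective h5
        subst h6
        obtain ⟨g, hg⟩ := (exists_conj_OG_iff hQ _ _ hta htb).2
          ⟨by rw [h2, h4], ⟨fun h => absurd h h1, fun h => absurd h h3⟩⟩
        exact CO_of_not_lagT hQ h' _ _ g hta hg (fun hL => h1 hL.1)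
    · obtain ⟨h1, h2⟩ := hRa
      obtain ⟨h3, h4, -⟩ := hRb
      constructor
      · intro hc
        exact absurd ((hfw hc).2.2 h3) h1
      · intro h5
        exact absurd h5 (by simp)
    · obtain ⟨h1, h2⟩ := hRa
      obtain ⟨h3, h4⟩ := hRb
      constructor
      · intro hc
        exact absurd ((hfw hc).2.2 h3.1) h1
      · intro h5
        exact absurd h5 (by simp)
    · obtain ⟨h1, h2, -⟩ := hRa
      obtain ⟨h3, h4⟩ := hRb
      constructor
      · intro hc
        exact absurd ((hfw hc).2.1 h1) h3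
      · intro h5
        exact absurd h5 (by simp)
    · obtain ⟨h1, h2, h2'⟩ := hRa
      obtain ⟨h3, h4, h4'⟩ := hRb
      constructor
      · intro hc
        obtain ⟨h5, -⟩ := hfw hc
        congr 2
        apply Fin.ext
        omega
      · intro h5
        have h6 : j = j' := Sum.inl_injective (Sum.inr_injective h5)
        subst h6
        obtain ⟨g, hg⟩ := (exists_conj_OG_iff hQ _ _ hta htb).2
          ⟨by rw [h2, h4], ⟨fun _ => h3, fun _ => h1⟩⟩
        by_cases hL : LagT Q (T a)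
        · have hL' : LagT Q (T b) := (LagT.conj_iff hQ hta htb g hg).1 hL
          exact (h2' hL).symm.trans (h4' hL')
        · exact CO_of_not_lagT hQ h' _ _ g hta hg hL
    · obtain ⟨h1, h2, h2'⟩ := hRa
      obtain ⟨h3, h4⟩ := hRb
      constructor
      · intro hc
        exfalso
        obtain ⟨k, hk, hkab⟩ := hc
        have hL : LagT Q (T a) := (LagT.conj_iff hQ hta htb k hkab).2 h3
        exact h4 ((h2' hL).trans ⟨k, hk, hkab⟩)
      · intro h5
        exact absurd h5 (by simp)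
    · obtain ⟨h1, h2⟩ := hRa
      obtain ⟨h3, h4⟩ := hRb
      constructor
      · intro hc
        exact absurd ((hfw hc).2.1 h1.1) h3
      · intro h5
        exact absurd h5 (by simp)
    · obtain ⟨h1, h2⟩ := hRa
      obtain ⟨h3, h4, h4'⟩ := hRb
      constructor
      · intro hc
        exfalso
        obtain ⟨k, hk, hkab⟩ := hc
        have hL : LagT Q (T b) := (LagT.conj_iff hQ hta htb k hkab).1 h1
        exact h2 ((h4' hL).trans (CO.symm ⟨k, hk, hkab⟩))
      · intro h5
        exact absurd h5 (by simp)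
    · obtain ⟨h1, h2⟩ := hRa
      obtain ⟨h3, h4⟩ := hRb
      have he1 : e = 1 := he1_of _ hta (hTe a) h1
      obtain ⟨k1, k2, k3⟩ := ht₀ he1
      constructor
      · intro _
        congr 2
        apply Fin.ext
        have := z.2
        have := z'.2
        omega
      · intro _
        rw [CO_iff_of_lagT hQ h' hV t₀ _ _ k1 hta htb k3 h1 h3]
        exact ⟨fun h => absurd h h2, fun h => absurd h h4⟩
  · have hlift : ∀ t : OG Q, t * t = 1 → finrank F (range (dOG Q t)) ≠ 0 →
        Even (finrank F (range (dOG Q t))) →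
        ∃ g : ↥(Cfsg.Omega F ⇑Q), orderOf g = 2 ∧ T g = t := by
      intro t ht hr hev
      have hmem : (isoEquiv Q).symm t ∈ Cfsg.Omega F ⇑Q := by
        rw [mem_Omega_iff, mem_commutator_iff_even_rank_gen h2 hQ h', MulEquiv.apply_symm_apply]
        exact hev
      refine ⟨⟨(isoEquiv Q).symm t, hmem⟩, ?_, MulEquiv.apply_symm_apply _ _⟩
      rw [← Subgroup.orderOf_coe]
      apply orderOf_eq_prime
      · rw [pow_two]
        change (isoEquiv Q).symm t * (isoEquiv Q).symm t = 1
        rw [← map_mul, ht, map_one]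
      · intro h1
        apply dOG_ne_one hr
        have := congrArg (isoEquiv Q) h1
        rwa [MulEquiv.apply_symm_apply, map_one] at this
    rintro (i | j | z)
    · obtain ⟨t, ht, h1, h2⟩ := hex1 i
      obtain ⟨g, hg, hgt⟩ := hlift t ht (by omega) (by rw [h2]; exact even_two_mul _)
      refine ⟨g, hg, ?_⟩
      change (¬ (∀ v, polar Q v (dOG Q (T g) v) = 0) ∧
        finrank F (range (dOG Q (T g))) = 2 * ((i : ℕ) + 1))
      rw [hgt]
      exact ⟨h1, h2⟩
    · obtain ⟨t, ht, h1, h2⟩ := hex2 j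
      have hev : Even (finrank F (range (dOG Q t))) := by rw [h2]; exact even_two_mul _
      by_cases hL : LagT Q t
      · have he1 : e = 1 := he1_of _ ht hev hL
        obtain ⟨k1, k2, k3⟩ := ht₀ he1
        have hrk : finrank F (range (dOG Q t₀)) = 2 * ((j : ℕ) + 1) := by
          have := hL.2
          have := k3.2
          omega
        obtain ⟨g, hg, hgt⟩ := hlift t₀ k1 (by omega) k2
        refine ⟨g, hg, ?_⟩
        change ((∀ v, polar Q v (dOG Q (T g) v) = 0) ∧
          finrank F (range (dOG Q (T g))) = 2 * ((j : ℕ) + 1) ∧ (LagT Q (T g) → CO Q t₀ (T g)))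
        rw [hgt]
        exact ⟨k3.1, hrk, fun _ => CO.refl _⟩
      · obtain ⟨g, hg, hgt⟩ := hlift t ht (by omega) hev
        refine ⟨g, hg, ?_⟩
        change ((∀ v, polar Q v (dOG Q (T g) v) = 0) ∧
          finrank F (range (dOG Q (T g))) = 2 * ((j : ℕ) + 1) ∧ (LagT Q (T g) → CO Q t₀ (T g)))
        rw [hgt]
        exact ⟨h1, h2, fun h => absurd h hL⟩
    · have he1 : e = 1 := by
        have := z.2
        omega
      obtain ⟨k1, k2, k3⟩ := ht₀ he1
      obtain ⟨t, ht, hL, hnc⟩ := exists_lagT_not_CO hQ h' hV t₀ k1 k3 k2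
      have hrk : finrank F (range (dOG Q t)) = finrank F (range (dOG Q t₀)) := by
        have := hL.2
        have := k3.2
        omega
      have hr0 : finrank F (range (dOG Q t)) ≠ 0 := by
        intro h0'
        have h3 := hL.2
        rw [h0', Module.finrank_fintype_fun_eq_card] at h3
        have : 0 < Fintype.card ι := Fintype.card_pos
        omega
      obtain ⟨g, hg, hgt⟩ := hlift t ht hr0 (by rw [hrk]; exact k2)
      refine ⟨g, hg, ?_⟩
      change (LagT Q (T g) ∧ ¬ CO Q t₀ (T g))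
      rw [hgt]
      exact ⟨hL, hnc⟩

end Count

end Cfsg.Agent.Lib.Helper48
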