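import Mathlib
import Cfsg.Agent.Lib.Helper50.SemiConj

set_option autoImplicit false

namespace Cfsg.Agent.Lib.Helper48

open Matrix Polynomial

variable {F : Type*} [Field F] {n : ℕ}

theorem dvd_of_aeval_eq_zero' (M : Matrix (Fin n) (Fin n) F) (Q P : F[X]) (hQ : aeval M Q = 0)
    (hP : Irreducible P) (hd : P ∣ M.charpoly) : P ∣ Q := by
  by_contra h
  obtain ⟨a, b, hab⟩ := (hP.coprime_iff_not_dvd).2 h
  have h1 := congrArg (aeval M) hab
  rw [map_add, map_mul, map_mul, hQ, mul_zero, add_zero, map_one] at h1
  have h2 := congrArg Matrix.det h1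
  rw [det_mul, Cfsg.Agent.Lib.Helper50.SemiConj.det_aeval_eq_zero M P hP hd, mul_zero, det_one] at h2
  exact zero_ne_one h2

theorem multiset_prod_two {R : Type*} [CommMonoid R] (a b : R) (s : Multiset R)
    (h : ∀ x ∈ s, x = a ∨ x = b) : ∃ k l, s.prod = a ^ k * b ^ l := by
  induction s using Multiset.induction with
  | empty => exact ⟨0, 0, by simp⟩
  | cons x s ih =>
    obtain ⟨k, l, hkl⟩ := ih (fun y hy => h y (Multiset.mem_cons_of_mem hy))
    rcases h x (Multiset.mem_cons_self x s) with rfl | rfl
    · exact ⟨k + 1, l, by rw [Multiset.prod_cons, hkl, pow_succ]; ac_rfl⟩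
    · exact ⟨k, l + 1, by rw [Multiset.prod_cons, hkl, pow_succ]; ac_rfl⟩

theorem charpoly_of_two_factors (M : Matrix (Fin n) (Fin n) F) (A B : F[X]) (hA : A.Monic)
    (hB : B.Monic) (hAi : Irreducible A) (hBi : Irreducible B) (h : aeval M (A * B) = 0) :
    ∃ k l, M.charpoly = A ^ k * B ^ l := by
  classical
  have hne : M.charpoly ≠ 0 := (charpoly_monic M).ne_zero
  obtain ⟨k, l, hkl⟩ := multiset_prod_two A B
    (UniqueFactorizationMonoid.normalizedFactors M.charpoly) (by
      intro x hx
      have hxi := UniqueFactorizationMonoid.irreducible_of_normalized_factor x hx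
      have hxd := UniqueFactorizationMonoid.dvd_of_mem_normalizedFactors hx
      have hxn := UniqueFactorizationMonoid.normalize_normalized_factor x hx
      have hxm : x.Monic := by
        rw [← hxn]; exact Polynomial.monic_normalize hxi.ne_zero
      have h1 := dvd_of_aeval_eq_zero' M (A * B) x h hxi hxd
      rcases hxi.prime.dvd_or_dvd h1 with h2 | h2
      · left
        exact eq_of_monic_of_associated hxm hA (hxi.associated_of_dvd hAi h2)
      · right
        exact eq_of_monic_of_associated hxm hB (hxi.associated_of_dvd hBi h2))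
  refine ⟨k, l, ?_⟩
  have h2 := UniqueFactorizationMonoid.prod_normalizedFactors hne
  rw [hkl] at h2
  exact (eq_of_monic_of_associated ((hA.pow k).mul (hB.pow l)) (charpoly_monic M) h2).symm

/-- diagonal matrix with `j` entries `a` and `n - j` entries `b` -/
def dg (n : ℕ) (a b : F) (j : ℕ) : Matrix (Fin n) (Fin n) F :=
  diagonal (fun k : Fin n => if (k : ℕ) < j then a else b)

theorem charpoly_dg (a b : F) (j : ℕ) (hj : j ≤ n) :
    (dg n a b j).charpoly = (X - C a) ^ j * (X - C b) ^ (n - j) := by
  rw [dg, charpoly_diagonal,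
    Fin.prod_univ_eq_prod_range (fun k => X - C (if k < j then a else b)) n]
  have h1 : ∀ k ∈ Finset.range n, (X - C (if k < j then a else b) : F[X]) =
      if k < j then X - C a else X - C b := by
    intro k _
    split_ifs <;> rfl
  rw [Finset.prod_congr rfl h1, Finset.prod_ite, Finset.prod_const, Finset.prod_const]
  have e1 : (Finset.range n).filter (fun x => x < j) = Finset.range j := by
    ext x; simp only [Finset.mem_filter, Finset.mem_range]; omega
  have e2 : ((Finset.range n).filter (fun x => ¬ x < j)).card = n - j := by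
    have := Finset.card_filter_add_card_filter_not (s := Finset.range n) (fun x => x < j)
    rw [e1, Finset.card_range, Finset.card_range] at this
    omega
  rw [e1, Finset.card_range, e2]

theorem rootMultiplicity_two (a b : F) (hab : a ≠ b) (k l : ℕ) :
    rootMultiplicity a ((X - C a) ^ k * (X - C b) ^ l) = k := by
  have h1 : (X - C a) ^ k * (X - C b) ^ l ≠ 0 :=
    mul_ne_zero (pow_ne_zero _ (X_sub_C_ne_zero a)) (pow_ne_zero _ (X_sub_C_ne_zero b))
  rw [rootMultiplicity_mul h1, rootMultiplicity_X_sub_C_pow, rootMultiplicity_eq_zero, add_zero]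
  rw [IsRoot.def, eval_pow, eval_sub, eval_X, eval_C]
  exact pow_ne_zero _ (sub_ne_zero.2 hab)

end Cfsg.Agent.Lib.Helper48
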