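import Mathlib
import Cfsg.Prelude.Def_Classical
import Cfsg.Agent.Lib.Helper48.QuadF2Count
import Cfsg.Agent.Lib.Helper50.SympCount

set_option autoImplicit false

namespace Cfsg.Agent.Lib.Helper48

open Finset Cfsg.Agent.Lib.Helper50.Symp

variable {Y : Type*} [AddCommGroup Y] [Module (ZMod 2) Y] [Fintype Y]

/-- a nondegenerate alternating form over the field with two elements has a symplectic basis -/
theorem exists_symplectic_equiv (B : LinearMap.BilinForm (ZMod 2) Y) (hB : B.IsAlt)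
    (hnd : ∀ w, w ≠ 0 → ∃ u, B w u ≠ 0) (m : ℕ) (hcard : Fintype.card Y = 2 ^ (2 * m)) :
    ∃ g : V2 m ≃ₗ[ZMod 2] Y, ∀ u v, B (g u) (g v) = pol m u v := by
  classical
  have h1 := card_frames hB m ⊤ (fun w _ hw => by
    obtain ⟨u, hu⟩ := hnd w hw
    exact ⟨u, Submodule.mem_top, hu⟩) (by
    rw [Nat.card_congr (Submodule.topEquiv (R := ZMod 2) (M := Y)).toEquiv,
      Nat.card_eq_fintype_card, Nat.card_eq_fintype_card, hcard, ZMod.card])
  have h2 : 0 < Nat.card {x : (Fin m → Y) × (Fin m → Y) // IsFr B m ⊤ x} := by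
    rw [h1]
    apply Finset.prod_pos
    intro i _
    rw [Nat.card_eq_fintype_card, ZMod.card]
    have : 1 < 2 ^ (2 * (i + 1)) := Nat.one_lt_pow (by omega) (by omega)
    have h3 : 0 < 2 ^ (2 * i + 1) := by positivity
    exact Nat.mul_pos (by omega) h3
  obtain ⟨⟨⟨e, f⟩, -, -, hee, hff, hef⟩⟩ := (Nat.card_pos_iff.1 h2).1
  simp only at hee hff hef
  have hfe : ∀ i j, B (f i) (e j) = if i = j then 1 else 0 := by
    intro i j
    rw [← hB.neg_eq, hef]
    by_cases h : i = j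
    · subst h; simp
    · rw [if_neg h, if_neg (Ne.symm h), neg_zero]
  let g₀ : V2 m →ₗ[ZMod 2] Y := Fintype.linearCombination (ZMod 2) (Sum.elim e f)
  have hg₀ : ∀ u, g₀ u = ∑ i, u (.inl i) • e i + ∑ i, u (.inr i) • f i := by
    intro u
    simp only [g₀, Fintype.linearCombination_apply, Fintype.sum_sum_type, Sum.elim_inl,
      Sum.elim_inr]
  have hpol : ∀ u v, B (g₀ u) (g₀ v) = pol m u v := by
    intro u v
    rw [hg₀, hg₀, pol_eq]
    simp only [map_add, map_sum, map_smul, LinearMap.add_apply, LinearMap.sum_apply,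
      LinearMap.smul_apply, hee, hff, hef, hfe, smul_eq_mul, mul_zero, Finset.sum_const_zero,
      mul_ite, mul_one, Finset.sum_ite_eq', Finset.mem_univ, if_true,
      zero_add, add_zero]
    rw [← Finset.sum_add_distrib]
    apply Finset.sum_congr rfl
    intro i _
    ring
  have hinj : Function.Injective g₀ := by
    rw [injective_iff_map_eq_zero]
    intro u hu
    by_contra hne
    obtain ⟨v, hv⟩ := pol_nondeg u hne
    apply hv
    rw [← hpol, hu, map_zero]
  have hbij : Function.Bijective g₀ := by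
    rw [Fintype.bijective_iff_injective_and_card]
    exact ⟨hinj, by rw [card_V2, hcard]⟩
  exact ⟨LinearEquiv.ofBijective g₀ hbij, hpol⟩

variable (Q : Y → ZMod 2) (B : LinearMap.BilinForm (ZMod 2) Y)

theorem isAlt_of_polar (hQ : ∀ u v, Q (u + v) = Q u + Q v + B u v) : B.IsAlt := by
  intro u
  have h0 : Q 0 = 0 := polar_map_zero Q (fun u v => B u v) hQ (fun u u' w => by simp)
  have h1 := hQ u u
  have h2 : u + u = 0 := by
    rw [← two_smul (ZMod 2) u]
    have : (2 : ZMod 2) = 0 := by decide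
    rw [this, zero_smul]
  rw [h2, h0, zmod2_add_self, zero_add] at h1
  exact h1.symm

theorem exists_qw_equiv (hQ : ∀ u v, Q (u + v) = Q u + Q v + B u v)
    (hnd : ∀ w, w ≠ 0 → ∃ u, B w u ≠ 0) (m : ℕ) (hcard : Fintype.card Y = 2 ^ (2 * m)) :
    ∃ (g : V2 m ≃ₗ[ZMod 2] Y) (w : V2 m), (∀ v, Q (g v) = qw w v) ∧
      charSum Q = sgn2 (Cfsg.quadFormPlus m (ZMod 2) w) * 2 ^ m := by
  obtain ⟨g, hg⟩ := exists_symplectic_equiv B (isAlt_of_polar Q B hQ) hnd m hcard
  have hpol : IsPol (fun v => Q (g v)) := by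
    intro u v
    simp only
    rw [map_add, hQ, hg]
  obtain ⟨w, hw⟩ := exists_qw_eq hpol
  refine ⟨g, w, fun v => (congrFun hw v).symm, ?_⟩
  rw [← charSum_qw, hw]
  exact (charSum_comp Q g.toEquiv).symm

/-- a nondegenerate quadratic form over the field with two elements with positive character sum
is of plus type -/
theorem exists_equiv_plus (hQ : ∀ u v, Q (u + v) = Q u + Q v + B u v)
    (hnd : ∀ w, w ≠ 0 → ∃ u, B w u ≠ 0) (m : ℕ) (hcard : Fintype.card Y = 2 ^ (2 * m))
    (hpos : 0 < charSum Q) :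
    ∃ g : V2 m ≃ₗ[ZMod 2] Y, ∀ v, Q (g v) = Cfsg.quadFormPlus m (ZMod 2) v := by
  obtain ⟨g, w, hg, hc⟩ := exists_qw_equiv Q B hQ hnd m hcard
  have hw : Cfsg.quadFormPlus m (ZMod 2) w = 0 := by
    by_contra hne
    rw [hc, sgn2_of_ne_zero hne] at hpos
    have : (0 : ℤ) < 2 ^ m := by positivity
    linarith
  obtain ⟨g', hg'⟩ := (plus_iff w).2 hw
  refine ⟨g'.symm.trans g, fun v => ?_⟩
  rw [LinearEquiv.trans_apply, hg, hg', LinearEquiv.apply_symm_apply]

/-- a nondegenerate quadratic form over the field with two elements with negative character sum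
is of minus type -/
theorem exists_equiv_minus (hQ : ∀ u v, Q (u + v) = Q u + Q v + B u v)
    (hnd : ∀ w, w ≠ 0 → ∃ u, B w u ≠ 0) (k : ℕ) (hcard : Fintype.card Y = 2 ^ (2 * (k + 1)))
    (hneg : charSum Q < 0) :
    ∃ g : ((Fin k ⊕ Fin k) ⊕ Fin 2 → ZMod 2) ≃ₗ[ZMod 2] Y,
      ∀ v, Q (g v) = Cfsg.quadFormMinus k (ZMod 2) 1 1 v := by
  obtain ⟨g, w, hg, hc⟩ := exists_qw_equiv Q B hQ hnd (k + 1) hcard
  have hw : Cfsg.quadFormPlus (k + 1) (ZMod 2) w = 1 := by
    apply zmod2_eq_one_of_ne_zero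
    intro h0
    rw [hc, h0, sgn2_zero] at hneg
    have : (0 : ℤ) < 2 ^ (k + 1) := by positivity
    linarith
  obtain ⟨g', hg'⟩ := (minus_iff w).2 hw
  refine ⟨g'.symm.trans g, fun v => ?_⟩
  rw [LinearEquiv.trans_apply, hg, hg', LinearEquiv.apply_symm_apply]

end Cfsg.Agent.Lib.Helper48
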