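import Mathlib
import Cfsg.Prelude.Def_Classical
import Cfsg.Agent.Lib.Helper48.QuadF2Count

set_option autoImplicit false
set_option linter.unusedSectionVars false

namespace Cfsg.Agent.Lib.Helper48

open Finset Module

variable {m : ℕ}

theorem pol_smul_left (c : ZMod 2) (u v : V2 m) : pol m (c • u) v = c • pol m u v := by
  rw [pol_eq, pol_eq, smul_eq_mul, Finset.mul_sum]
  apply Finset.sum_congr rfl
  intro i _
  simp only [Pi.smul_apply, smul_eq_mul]
  ring

/-- `pol` as a bilinear form -/
def polBilin (m : ℕ) : LinearMap.BilinForm (ZMod 2) (V2 m) :=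
  LinearMap.mk₂ (ZMod 2) (pol m) pol_add_left pol_smul_left pol_add_right
    (fun c u v => by rw [pol_comm, pol_smul_left, pol_comm])

theorem polBilin_apply (u v : V2 m) : polBilin m u v = pol m u v := rfl

theorem polBilin_nondegenerate : (polBilin m).Nondegenerate := by
  constructor
  · intro x hx
    by_contra hne
    obtain ⟨u, hu⟩ := pol_nondeg x hne
    apply hu
    rw [pol_comm]
    exact hx u
  · intro x hx
    by_contra hne
    obtain ⟨u, hu⟩ := pol_nondeg x hne
    exact hu (hx u)

theorem finrank_V2 : finrank (ZMod 2) (V2 m) = 2 * m := by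
  rw [Module.finrank_pi]
  simp only [Fintype.card_sum, Fintype.card_fin]
  ring

theorem IsPol.le_orthogonal {q : V2 m → ZMod 2} (hq : IsPol q) (U : Submodule (ZMod 2) (V2 m))
    (hU : ∀ u ∈ U, q u = 0) : U ≤ (polBilin m).orthogonal U := by
  intro x hx n hn
  have h := hq n x
  rw [hU _ (U.add_mem hn hx), hU _ hn, hU _ hx, zero_add, zero_add] at h
  exact h.symm

theorem IsPol.finrank_le {q : V2 m → ZMod 2} (hq : IsPol q) (U : Submodule (ZMod 2) (V2 m))
    (hU : ∀ u ∈ U, q u = 0) : finrank (ZMod 2) U ≤ m := by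
  have h1 := Submodule.finrank_mono (hq.le_orthogonal U hU)
  rw [LinearMap.BilinForm.finrank_orthogonal polBilin_nondegenerate, finrank_V2] at h1
  omega

theorem IsPol.charSum_pos {q : V2 m → ZMod 2} (hq : IsPol q) (U : Submodule (ZMod 2) (V2 m))
    (hU : ∀ u ∈ U, q u = 0) (hdim : finrank (ZMod 2) U = m) : 0 < charSum q := by
  classical
  have hUo : U = (polBilin m).orthogonal U := by
    apply Submodule.eq_of_le_of_finrank_eq (hq.le_orthogonal U hU)
    rw [LinearMap.BilinForm.finrank_orthogonal polBilin_nondegenerate, finrank_V2, hdim]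
    omega
  have h1 : ∀ u : U, charSum (fun v => q v + pol m v u) = charSum q := by
    intro u
    rw [hq.charSum_translate, hU u u.2, sgn2_zero, one_mul]
  have h2 : (Fintype.card U : ℤ) * charSum q = ∑ u : U, charSum (fun v => q v + pol m v u) := by
    rw [Finset.sum_congr rfl (fun u _ => h1 u), Finset.sum_const, Finset.card_univ]
    simp
  unfold charSum at h2
  rw [Finset.sum_comm] at h2
  have h3 : ∀ v : V2 m, ∑ u : U, sgn2 (q v + pol m v u) =
      if v ∈ U then (Fintype.card U : ℤ) else 0 := by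
    intro v
    simp_rw [sgn2_add]
    rw [← Finset.mul_sum]
    split_ifs with hv
    · rw [hU v hv, sgn2_zero, one_mul]
      apply sum_sgn2_eq_card
      intro u
      have := hq.le_orthogonal U hU u.2 v hv
      exact this
    · have : ∃ u₀ : U, pol m v u₀ ≠ 0 := by
        by_contra hcon
        push Not at hcon
        apply hv
        rw [hUo]
        intro n hn
        rw [polBilin_apply, pol_comm]
        exact hcon ⟨n, hn⟩
      obtain ⟨u₀, hu₀⟩ := this
      rw [sum_sgn2_eq_zero (fun u : U => pol m v u) (fun u u' => pol_add_right v u u') u₀ hu₀,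
        mul_zero]
  rw [Finset.sum_congr rfl (fun v _ => h3 v)] at h2
  have hcard : (0 : ℤ) < Fintype.card U := by exact_mod_cast Fintype.card_pos
  have h4 : (Fintype.card U : ℤ) ≤ ∑ v : V2 m, if v ∈ U then (Fintype.card U : ℤ) else 0 := by
    have := Finset.single_le_sum (f := fun v : V2 m => if v ∈ U then (Fintype.card U : ℤ) else 0)
      (fun v _ => by split_ifs <;> omega) (Finset.mem_univ (0 : V2 m))
    simpa using this
  rw [← h2] at h4
  by_contra hneg
  have h5 : (∑ v, sgn2 (q v)) ≤ 0 := not_lt.1 hneg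
  nlinarith

/-- the standard totally singular subspace of the plus type form -/
def inclL (m : ℕ) : (Fin m → ZMod 2) →ₗ[ZMod 2] V2 m :=
  LinearMap.pi (fun j => Sum.elim (fun i => LinearMap.proj i) (fun _ => 0) j)

theorem inclL_inl (x : Fin m → ZMod 2) (i : Fin m) : inclL m x (Sum.inl i) = x i := rfl

theorem inclL_inr (x : Fin m → ZMod 2) (i : Fin m) : inclL m x (Sum.inr i) = 0 := rfl

theorem exists_singular_plus :
    ∃ U : Submodule (ZMod 2) (V2 m), (∀ u ∈ U, Cfsg.quadFormPlus m (ZMod 2) u = 0) ∧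
      finrank (ZMod 2) U = m := by
  refine ⟨LinearMap.range (inclL m), ?_, ?_⟩
  · rintro _ ⟨x, rfl⟩
    rw [quadFormPlus_apply]
    apply Finset.sum_eq_zero
    intro i _
    rw [inclL_inr, mul_zero]
  · rw [LinearMap.finrank_range_of_inj, Module.finrank_fin_fun]
    intro x y h
    funext i
    have := congrFun h (Sum.inl i)
    exact this

/-- the standard totally singular subspace of the minus type form -/
def inclM (k : ℕ) : (Fin k → ZMod 2) →ₗ[ZMod 2] ((Fin k ⊕ Fin k) ⊕ Fin 2 → ZMod 2) :=
  LinearMap.pi (fun j => Sum.elim (Sum.elim (fun i => LinearMap.proj i) (fun _ => 0))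
    (fun _ => 0) j)

theorem exists_singular_minus (k : ℕ) :
    ∃ U : Submodule (ZMod 2) ((Fin k ⊕ Fin k) ⊕ Fin 2 → ZMod 2),
      (∀ u ∈ U, Cfsg.quadFormMinus k (ZMod 2) 1 1 u = 0) ∧ finrank (ZMod 2) U = k := by
  refine ⟨LinearMap.range (inclM k), ?_, ?_⟩
  · rintro _ ⟨x, rfl⟩
    unfold Cfsg.quadFormMinus
    have e1 : ∀ i, inclM k x (Sum.inl (Sum.inr i)) = 0 := fun i => rfl
    have e2 : ∀ t, inclM k x (Sum.inr t) = 0 := fun t => rfl
    simp [e1, e2]
  · rw [LinearMap.finrank_range_of_inj, Module.finrank_fin_fun]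
    intro x y h
    funext i
    have := congrFun h (Sum.inl (Sum.inl i))
    exact this

theorem finrank_le_minus (k : ℕ) (U : Submodule (ZMod 2) ((Fin k ⊕ Fin k) ⊕ Fin 2 → ZMod 2))
    (hU : ∀ u ∈ U, Cfsg.quadFormMinus k (ZMod 2) 1 1 u = 0) : finrank (ZMod 2) U ≤ k := by
  let U' : Submodule (ZMod 2) (V2 (k + 1)) := U.map (reidx k).symm.toLinearMap
  have hdim : finrank (ZMod 2) U' = finrank (ZMod 2) U := LinearEquiv.finrank_map_eq _ _
  have hU' : ∀ u ∈ U', qw (w1 k) u = 0 := by
    rintro _ ⟨u, hu, rfl⟩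
    rw [← quadFormMinus_reidx]
    simpa using hU u hu
  have h1 := (isPol_qw (w1 k)).finrank_le U' hU'
  by_contra hcon
  have h2 : finrank (ZMod 2) U' = k + 1 := by omega
  have h3 := (isPol_qw (w1 k)).charSum_pos U' hU' h2
  rw [charSum_qw, quadFormPlus_w1, sgn2_one] at h3
  have hpos : (0 : ℤ) < 2 ^ (k + 1) := by positivity
  linarith

end Cfsg.Agent.Lib.Helper48
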