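import Mathlib

set_option autoImplicit false

namespace Cfsg.Agent.Lib.Helper48

open Polynomial DirectSum

variable {F : Type*} [Field F]

/-- top coefficient of the remainder modulo `f` -/
noncomputable def lam (f g : F[X]) : F := (g % f).coeff (f.natDegree - 1)

theorem lam_add (f g h : F[X]) : lam f (g + h) = lam f g + lam f h := by
  simp [lam, add_mod]

theorem lam_C_mul (f : F[X]) (c : F) (g : F[X]) : lam f (C c * g) = c * lam f g := by
  unfold lam
  rw [← smul_eq_C_mul, mod_def, mod_def, smul_modByMonic, coeff_smul, smul_eq_mul]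

theorem lam_congr {f g h : F[X]} (hd : f ∣ g - h) : lam f g = lam f h := by
  unfold lam; rw [mod_eq_of_dvd_sub hd]

theorem lam_zero (f : F[X]) : lam f 0 = 0 := by simp [lam]

theorem exists_lam_ne_zero {f g : F[X]} (hf : f ≠ 0) (hg : ¬ f ∣ g) :
    ∃ h, lam f (g * h) ≠ 0 := by
  set g₀ := g % f with hg₀
  have hg₀ne : g₀ ≠ 0 := fun h => hg ((EuclideanDomain.mod_eq_zero).1 h)
  have hdeg : g₀.degree < f.degree := degree_mod_lt g hf
  have hnat : g₀.natDegree < f.natDegree := natDegree_lt_natDegree hg₀ne hdeg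
  refine ⟨X ^ (f.natDegree - 1 - g₀.natDegree), ?_⟩
  have h1 : lam f (g * X ^ (f.natDegree - 1 - g₀.natDegree)) =
      lam f (g₀ * X ^ (f.natDegree - 1 - g₀.natDegree)) := lam_congr (by
    rw [← sub_mul]
    apply Dvd.dvd.mul_right
    refine ⟨g / f, ?_⟩
    have := EuclideanDomain.div_add_mod g f
    rw [hg₀]
    linear_combination -this)
  rw [h1]
  unfold lam
  have h2 : (g₀ * X ^ (f.natDegree - 1 - g₀.natDegree)).degree < f.degree := by
    rw [degree_mul, degree_X_pow, degree_eq_natDegree hg₀ne, degree_eq_natDegree hf]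
    norm_cast
    omega
  rw [(mod_eq_self_iff hf).2 h2]
  have h3 : (g₀ * X ^ (f.natDegree - 1 - g₀.natDegree)).coeff
      (g₀.natDegree + (f.natDegree - 1 - g₀.natDegree)) = g₀.coeff g₀.natDegree :=
    coeff_mul_X_pow _ _ _
  have h4 : g₀.natDegree + (f.natDegree - 1 - g₀.natDegree) = f.natDegree - 1 := by omega
  rw [h4] at h3
  rw [h3]
  exact leadingCoeff_ne_zero.2 hg₀ne

/-- a representative -/
noncomputable def rep {f : F[X]} (q : F[X] ⧸ Submodule.span F[X] {f}) : F[X] := Quotient.out q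

theorem dvd_rep_sub {f a : F[X]} {q : F[X] ⧸ Submodule.span F[X] {f}}
    (h : Submodule.Quotient.mk a = q) : f ∣ rep q - a := by
  have h1 : (Submodule.Quotient.mk (rep q) : F[X] ⧸ Submodule.span F[X] {f}) =
      Submodule.Quotient.mk a := by
    rw [h]; exact Submodule.Quotient.mk_out q
  rw [Submodule.Quotient.eq, Submodule.mem_span_singleton] at h1
  obtain ⟨c, hc⟩ := h1
  exact ⟨c, by rw [← hc, smul_eq_mul, mul_comm]⟩

theorem mk_rep {f : F[X]} (q : F[X] ⧸ Submodule.span F[X] {f}) :
    Submodule.Quotient.mk (rep q) = q := Submodule.Quotient.mk_out q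

theorem dvd_rep_add {f : F[X]} (q q' : F[X] ⧸ Submodule.span F[X] {f}) :
    f ∣ rep (q + q') - (rep q + rep q') :=
  dvd_rep_sub (by rw [Submodule.Quotient.mk_add, mk_rep, mk_rep])

theorem dvd_rep_smul {f : F[X]} (r : F[X]) (q : F[X] ⧸ Submodule.span F[X] {f}) :
    f ∣ rep (r • q) - r * rep q :=
  dvd_rep_sub (by rw [← smul_eq_mul, Submodule.Quotient.mk_smul, mk_rep])

theorem dvd_rep_zero {f : F[X]} : f ∣ rep (0 : F[X] ⧸ Submodule.span F[X] {f}) := by
  have := dvd_rep_sub (f := f) (a := 0) (q := 0) (Submodule.Quotient.mk_zero _)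
  simpa using this

theorem not_dvd_rep {f : F[X]} {q : F[X] ⧸ Submodule.span F[X] {f}} (hq : q ≠ 0) :
    ¬ f ∣ rep q := by
  intro h
  apply hq
  rw [← mk_rep q, Submodule.Quotient.mk_eq_zero, Submodule.mem_span_singleton]
  obtain ⟨c, hc⟩ := h
  exact ⟨c, by rw [hc, smul_eq_mul, mul_comm]⟩

section DS

variable {ι : Type*} [Fintype ι] (f : ι → F[X])

/-- the form on a direct sum of cyclic modules -/
noncomputable def dsForm (x y : ⨁ i, F[X] ⧸ Submodule.span F[X] {f i}) : F :=
  ∑ i, lam (f i) (rep (x i) * rep (y i))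

theorem dsForm_comm (x y : ⨁ i, F[X] ⧸ Submodule.span F[X] {f i}) :
    dsForm f x y = dsForm f y x := by
  unfold dsForm
  exact Finset.sum_congr rfl (fun i _ => by rw [mul_comm])

theorem dsForm_add_left (x x' y : ⨁ i, F[X] ⧸ Submodule.span F[X] {f i}) :
    dsForm f (x + x') y = dsForm f x y + dsForm f x' y := by
  unfold dsForm
  rw [← Finset.sum_add_distrib]
  refine Finset.sum_congr rfl (fun i _ => ?_)
  rw [← lam_add, ← add_mul, DirectSum.add_apply]
  apply lam_congr
  rw [← sub_mul]
  exact (dvd_rep_add _ _).mul_right _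

theorem dsForm_smul_left (r : F[X]) (x y : ⨁ i, F[X] ⧸ Submodule.span F[X] {f i}) :
    dsForm f (r • x) y = ∑ i, lam (f i) (r * (rep (x i) * rep (y i))) := by
  unfold dsForm
  refine Finset.sum_congr rfl (fun i _ => ?_)
  rw [DirectSum.smul_apply, ← mul_assoc]
  apply lam_congr
  rw [← sub_mul]
  exact (dvd_rep_smul _ _).mul_right _

theorem dsForm_smul_swap (r : F[X]) (x y : ⨁ i, F[X] ⧸ Submodule.span F[X] {f i}) :
    dsForm f (r • x) y = dsForm f x (r • y) := by
  rw [dsForm_smul_left, dsForm_comm f x, dsForm_smul_left]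
  exact Finset.sum_congr rfl (fun i _ => by rw [mul_comm (rep (x i))])

theorem dsForm_C_smul (c : F) (x y : ⨁ i, F[X] ⧸ Submodule.span F[X] {f i}) :
    dsForm f (C c • x) y = c * dsForm f x y := by
  rw [dsForm_smul_left]
  unfold dsForm
  rw [Finset.mul_sum]
  exact Finset.sum_congr rfl (fun i _ => lam_C_mul _ _ _)

theorem dsForm_nondeg (hf : ∀ i, f i ≠ 0) (x : ⨁ i, F[X] ⧸ Submodule.span F[X] {f i})
    (hx : ∀ y, dsForm f x y = 0) : x = 0 := by
  classical
  by_contra hne
  have : ∃ i, x i ≠ 0 := by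
    by_contra hcon
    push Not at hcon
    apply hne
    apply DFinsupp.ext
    intro i
    exact hcon i
  obtain ⟨i, hi⟩ := this
  obtain ⟨h, hh⟩ := exists_lam_ne_zero (hf i) (not_dvd_rep hi)
  apply hh
  have h0 := hx (DirectSum.of (fun i => F[X] ⧸ Submodule.span F[X] {f i}) i
    (Submodule.Quotient.mk h))
  unfold dsForm at h0
  rw [Finset.sum_eq_single i] at h0
  · rw [← h0, DirectSum.of_eq_same]
    apply lam_congr
    rw [← mul_sub]
    apply Dvd.dvd.mul_left
    have := dvd_rep_sub (f := f i) (a := h) rfl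
    rw [← neg_sub]
    exact (dvd_neg).2 this
  · intro j _ hj
    rw [DirectSum.of_eq_of_ne _ _ _ hj]
    rw [← lam_zero (f j)]
    apply lam_congr
    rw [sub_zero]
    exact dvd_rep_zero.mul_left _
  · intro h; exact absurd (Finset.mem_univ i) h

end DS

section Main

variable {V : Type*} [AddCommGroup V] [Module F V] [FiniteDimensional F V]

/-- Every endomorphism is self-adjoint for some nondegenerate symmetric bilinear form. -/
theorem exists_selfAdjoint_form (φ : Module.End F V) :
    ∃ B : LinearMap.BilinForm F V, (∀ x, (∀ y, B x y = 0) → x = 0) ∧ (∀ x y, B x y = B y x) ∧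
      ∀ x y, B (φ x) y = B x (φ y) := by
  have htors : Module.IsTorsion F[X] (Module.AEval' φ) :=
    Module.AEval.isTorsion_of_finiteDimensional F V φ
  obtain ⟨ι, _, p, hp, e, ⟨E⟩⟩ := Module.equiv_directSum_of_isTorsion htors
  let f : ι → F[X] := fun i => p i ^ e i
  have hf : ∀ i, f i ≠ 0 := fun i => pow_ne_zero _ (hp i).ne_zero
  let o := Module.AEval'.of φ
  have hadd : ∀ x x' y : V, dsForm f (E (o (x + x'))) (E (o y)) =
      dsForm f (E (o x)) (E (o y)) + dsForm f (E (o x')) (E (o y)) := by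
    intro x x' y
    rw [map_add, map_add, dsForm_add_left]
  have hsmul : ∀ (c : F) (x y : V), dsForm f (E (o (c • x))) (E (o y)) =
      c * dsForm f (E (o x)) (E (o y)) := by
    intro c x y
    rw [map_smul, ← Module.AEval.C_smul, map_smul, dsForm_C_smul]
  let B : LinearMap.BilinForm F V := LinearMap.mk₂ F (fun x y => dsForm f (E (o x)) (E (o y)))
    hadd hsmul
    (by intro x y y'; rw [dsForm_comm, hadd, dsForm_comm f (E (o x)), dsForm_comm f (E (o x))])
    (by intro c x y; rw [dsForm_comm, hsmul, dsForm_comm, smul_eq_mul])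
  refine ⟨B, ?_, ?_, ?_⟩
  · intro x hx
    have h1 : E (o x) = 0 := by
      apply dsForm_nondeg f hf
      intro y
      have := hx (o.symm (E.symm y))
      simpa [B] using this
    have h2 : o x = 0 := by simpa using h1
    simpa using h2
  · intro x y
    exact dsForm_comm f _ _
  · intro x y
    change dsForm f (E (o (φ x))) (E (o y)) = dsForm f (E (o x)) (E (o (φ y)))
    rw [← Module.AEval'.X_smul_of, ← Module.AEval'.X_smul_of, map_smul, map_smul,
      dsForm_smul_swap]

/-- A square matrix over a field is similar to its transpose. -/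
theorem isConj_transpose {n : Type*} [Fintype n] [DecidableEq n] (A : Matrix n n F) :
    IsConj A A.transpose := by
  obtain ⟨B, hnd, -, hadj⟩ := exists_selfAdjoint_form (Matrix.toLin' A)
  let G : Matrix n n F := LinearMap.BilinForm.toMatrix' B
  have hB : ∀ x y, B x y = x ⬝ᵥ G.mulVec y := by
    intro x y
    rw [← Matrix.toBilin'_apply', Matrix.toBilin'_toMatrix']
  have hGA : G * A = A.transpose * G := by
    ext i j
    have h := hadj (Pi.single i 1) (Pi.single j 1)
    rw [hB, hB, Matrix.toLin'_apply, Matrix.toLin'_apply, Matrix.mulVec_mulVec,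
      ← Matrix.vecMul_transpose, ← Matrix.dotProduct_mulVec, Matrix.mulVec_mulVec] at h
    simpa using h.symm
  have hdet : IsUnit G := by
    rw [Matrix.isUnit_iff_isUnit_det, isUnit_iff_ne_zero]
    intro h0
    obtain ⟨v, hv, hv0⟩ := Matrix.exists_vecMul_eq_zero_iff.2 h0
    apply hv
    apply hnd
    intro y
    rw [hB, Matrix.dotProduct_mulVec, hv0, zero_dotProduct]
  obtain ⟨Gu, hGu⟩ := hdet
  exact ⟨Gu, by rw [SemiconjBy, hGu, hGA]⟩

end Main

end Cfsg.Agent.Lib.Helper48
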