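import Mathlib

set_option autoImplicit false

namespace Cfsg.Agent.Lib.Helper48

open Module LinearMap Polynomial DirectSum

variable {K : Type*} [Field K]

/-- Sylvester's determinant identity for linear maps -/
theorem det_one_add_comp_comm {V Q : Type*} [AddCommGroup V] [Module K V] [FiniteDimensional K V]
    [AddCommGroup Q] [Module K Q] [FiniteDimensional K Q] (A : Q →ₗ[K] V) (B : V →ₗ[K] Q) :
    LinearMap.det (1 + A ∘ₗ B) = LinearMap.det (1 + B ∘ₗ A) := by
  classical
  let bV := Module.finBasis K V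
  let bQ := Module.finBasis K Q
  rw [← LinearMap.det_toMatrix bV, ← LinearMap.det_toMatrix bQ, map_add, map_add,
    LinearMap.toMatrix_comp bV bQ bV, LinearMap.toMatrix_comp bQ bV bQ, LinearMap.toMatrix_one,
    LinearMap.toMatrix_one, Matrix.det_one_add_mul_comm]

theorem exists_det_lsmul_eq [Finite K] (p : K[X]) (hp : Irreducible p)
    [Finite (K[X] ⧸ Submodule.span K[X] {p})] (a : K) :
    ∃ r : K[X], LinearMap.det (Algebra.lsmul K K (K[X] ⧸ Submodule.span K[X] {p}) r) = a := by
  let I : Ideal K[X] := Ideal.span {p}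
  haveI : I.IsMaximal := PrincipalIdealRing.isMaximal_of_irreducible hp
  letI : Field (K[X] ⧸ I) := Ideal.Quotient.field I
  haveI : Finite (K[X] ⧸ I) := inferInstanceAs (Finite (K[X] ⧸ Submodule.span K[X] {p}))
  obtain ⟨y, hy⟩ := FiniteField.norm_surjective K (K[X] ⧸ I) a
  obtain ⟨r, rfl⟩ := Ideal.Quotient.mk_surjective y
  refine ⟨r, ?_⟩
  rw [← hy, Algebra.norm_apply]
  congr 1

variable {V : Type*} [AddCommGroup V] [Module K V] [FiniteDimensional K V]

/-- If `K[X]/(p)` is a direct summand of the module of `φ`, the determinant is onto on the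
commutant of `φ`. -/
theorem exists_commute_det_eq_of_summand [Finite K] (φ : End K V) (p : K[X]) (hp : Irreducible p)
    (A' : (K[X] ⧸ Submodule.span K[X] {p}) →ₗ[K[X]] AEval' φ)
    (B' : AEval' φ →ₗ[K[X]] (K[X] ⧸ Submodule.span K[X] {p}))
    (hBA : ∀ z, B' (A' z) = z) (a : K) :
    ∃ c : End K V, Commute c φ ∧ LinearMap.det c = a := by
  have : Finite V := Module.finite_of_finite K
  have hsurj : Function.Surjective (fun v : V => B' (AEval'.of φ v)) := by
    intro z
    exact ⟨(AEval'.of φ).symm (A' z), by simp [hBA]⟩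
  have : Finite (K[X] ⧸ Submodule.span K[X] {p}) := Finite.of_surjective _ hsurj
  obtain ⟨r, hr⟩ := exists_det_lsmul_eq p hp a
  let A : (K[X] ⧸ Submodule.span K[X] {p}) →ₗ[K] V :=
    (AEval'.of φ).symm.toLinearMap ∘ₗ (A'.restrictScalars K) ∘ₗ
      (Algebra.lsmul K K (K[X] ⧸ Submodule.span K[X] {p}) (r - 1))
  let B : V →ₗ[K] (K[X] ⧸ Submodule.span K[X] {p}) :=
    (B'.restrictScalars K) ∘ₗ (AEval'.of φ).toLinearMap
  have hA : ∀ z, A z = (AEval'.of φ).symm (A' ((r - 1) • z)) := fun z => rfl
  have hB : ∀ v, B v = B' (AEval'.of φ v) := fun v => rfl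
  refine ⟨1 + A ∘ₗ B, ?_, ?_⟩
  · apply LinearMap.ext
    intro v
    simp only [Module.End.mul_apply, LinearMap.add_apply, Module.End.one_apply,
      LinearMap.comp_apply, map_add]
    congr 1
    rw [hA, hA, hB, hB, ← AEval'.X_smul_of, map_smul B', smul_comm, map_smul A',
      AEval'.of_symm_X_smul]
  · rw [det_one_add_comp_comm, ← hr]
    congr 1
    apply LinearMap.ext
    intro z
    rw [LinearMap.add_apply, Module.End.one_apply, LinearMap.comp_apply, hA, hB,
      LinearEquiv.apply_symm_apply, hBA, Algebra.lsmul_coe, sub_smul, one_smul]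
    abel

/-- For an endomorphism of finite order prime to the characteristic of a finite field, acting on a
nonzero space, the determinant is onto on its commutant. -/
theorem exists_commute_det_eq [Finite K] [Nontrivial V] (φ : End K V) (k : ℕ) (hk : (k : K) ≠ 0)
    (hφ : φ ^ k = 1) (a : K) :
    ∃ c : End K V, Commute c φ ∧ LinearMap.det c = a := by
  classical
  have htors : Module.IsTorsion K[X] (AEval' φ) :=
    Module.AEval.isTorsion_of_finiteDimensional K V φ
  obtain ⟨ι, _, p, hp, e, ⟨E⟩⟩ := Module.equiv_directSum_of_isTorsion htors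
  have hann : ∀ m : AEval' φ, (X ^ k - 1 : K[X]) • m = 0 := by
    intro m
    obtain ⟨v, rfl⟩ := (AEval'.of φ).surjective m
    rw [← AEval.of_aeval_smul]
    simp [hφ]
  have hsqf : Squarefree (X ^ k - 1 : K[X]) :=
    ((X_pow_sub_one_separable_iff).2 hk).squarefree
  have hdvd : ∀ i, p i ^ e i ∣ X ^ k - 1 := by
    intro i
    have h1 := hann (E.symm (DirectSum.lof K[X] ι (fun i => K[X] ⧸ Submodule.span K[X] {p i ^ e i}) i
      (Submodule.Quotient.mk 1)))
    rw [← map_smul, ← map_smul, ← Submodule.Quotient.mk_smul, smul_eq_mul, mul_one] at h1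
    have h2 := E.symm.injective (h1.trans (map_zero _).symm)
    rw [DirectSum.lof_eq_of] at h2
    have h3 := DirectSum.of_injective _ (h2.trans (map_zero _).symm)
    rw [Submodule.Quotient.mk_eq_zero, Submodule.mem_span_singleton] at h3
    obtain ⟨c, hc⟩ := h3
    exact ⟨c, by rw [← hc, smul_eq_mul, mul_comm]⟩
  have hle : ∀ i, e i ≤ 1 := by
    intro i
    by_contra hcon
    have h2 : p i * p i ∣ X ^ k - 1 := by
      refine dvd_trans ?_ (hdvd i)
      rw [← sq]
      exact pow_dvd_pow _ (by omega)
    exact (hp i).not_isUnit (hsqf _ h2)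
  obtain ⟨i₀, hi₀⟩ : ∃ i, e i = 1 := by
    by_contra hcon
    push Not at hcon
    have h0 : ∀ i, e i = 0 := fun i => by have := hle i; have := hcon i; omega
    have hsub : Subsingleton (⨁ i, K[X] ⧸ Submodule.span K[X] {p i ^ e i}) := by
      constructor
      intro x y
      apply DFinsupp.ext
      intro i
      have : Subsingleton (K[X] ⧸ Submodule.span K[X] {p i ^ e i}) := by
        rw [Submodule.Quotient.subsingleton_iff, h0 i, pow_zero]
        exact Ideal.span_singleton_one
      exact Subsingleton.elim _ _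
    have : Subsingleton V := by
      constructor
      intro x y
      apply (AEval'.of φ).injective
      apply E.injective
      exact Subsingleton.elim _ _
    exact not_subsingleton V this
  have heq : Submodule.span K[X] {p i₀ ^ e i₀} = Submodule.span K[X] {p i₀} := by
    rw [hi₀, pow_one]
  let T := Submodule.quotEquivOfEq _ _ heq
  refine exists_commute_det_eq_of_summand φ (p i₀) (hp i₀)
    (E.symm.toLinearMap ∘ₗ
      DirectSum.lof K[X] ι (fun i => K[X] ⧸ Submodule.span K[X] {p i ^ e i}) i₀ ∘ₗ
      T.symm.toLinearMap)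
    (T.toLinearMap ∘ₗ
      DirectSum.component K[X] ι (fun i => K[X] ⧸ Submodule.span K[X] {p i ^ e i}) i₀ ∘ₗ
      E.toLinearMap) ?_ a
  intro z
  simp only [LinearMap.comp_apply, LinearEquiv.coe_coe, LinearEquiv.apply_symm_apply,
    DirectSum.component.lof_self]

end Cfsg.Agent.Lib.Helper48
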