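import Cfsg.Agent.Lib.Helper48.Singer3
import Cfsg.Agent.Lib.Helper7.Basic

/-! Transport lemma and counterexamples for the Singer normaliser in `SL_3`. -/

set_option autoImplicit false

namespace Cfsg.Agent.Lib.Helper48

open Cfsg Cfsg.Geo Polynomial
open scoped MatrixGroups Matrix

variable {F : Type*} [Field F]

/-- an element of `SL_n` with a two-dimensional eigenspace which is conjugate into `N(K)` is scalar. -/
theorem sing_not_conj {n : ℕ} (hn : n.Prime) (K : Subalgebra F (Matrix (Fin n) (Fin n) F))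
    (hK : IsFieldSubalgebra n K) (x P : Matrix.SpecialLinearGroup (Fin n) F) (c : F)
    (u w : Fin n → F) (hu : u ≠ 0) (hw : ∀ a : F, w ≠ a • u)
    (hxu : (x : Matrix (Fin n) (Fin n) F) *ᵥ u = c • u) (hxw : (x : Matrix (Fin n) (Fin n) F) *ᵥ w = c • w)
    (hP : P⁻¹ * x * P ∈ (subalgebraNormalizer K).comap
      (Matrix.SpecialLinearGroup.toGL : Matrix.SpecialLinearGroup (Fin n) F →* GL (Fin n) F)) :
    (x : Matrix (Fin n) (Fin n) F) = c • 1 := by
  obtain ⟨Pi, hPi⟩ : ∃ Pi : Matrix (Fin n) (Fin n) F, Pi = ((P⁻¹ : Matrix.SpecialLinearGroup (Fin n) F) :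
      Matrix (Fin n) (Fin n) F) := ⟨_, rfl⟩
  have h1 : Pi * (P : Matrix (Fin n) (Fin n) F) = 1 := by
    rw [hPi, ← Matrix.SpecialLinearGroup.coe_mul, inv_mul_cancel, Matrix.SpecialLinearGroup.coe_one]
  have h2 : (P : Matrix (Fin n) (Fin n) F) * Pi = 1 := by
    rw [hPi, ← Matrix.SpecialLinearGroup.coe_mul, mul_inv_cancel, Matrix.SpecialLinearGroup.coe_one]
  have hg : ((Matrix.SpecialLinearGroup.toGL (P⁻¹ * x * P) : GL (Fin n) F) : Matrix (Fin n) (Fin n) F) =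
      Pi * (x : Matrix (Fin n) (Fin n) F) * (P : Matrix (Fin n) (Fin n) F) := by
    rw [hPi]; rfl
  have hinj : ∀ v : Fin n → F, Pi *ᵥ v = 0 → v = 0 := by
    intro v hv
    calc v = ((P : Matrix (Fin n) (Fin n) F) * Pi) *ᵥ v := by rw [h2, Matrix.one_mulVec]
      _ = 0 := by rw [← Matrix.mulVec_mulVec, hv, Matrix.mulVec_zero]
  have key := sing_scalar_of_two_eig hn K hK _ hP c (Pi *ᵥ u) (Pi *ᵥ w) (fun h => hu (hinj u h))
    (fun a h => hw a (by
      have : Pi *ᵥ (w - a • u) = 0 := by rw [Matrix.mulVec_sub, Matrix.mulVec_smul, h, sub_self]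
      exact sub_eq_zero.1 (hinj _ this)))
    (by rw [hg, Matrix.mulVec_mulVec, mul_assoc, h2, mul_one, ← Matrix.mulVec_mulVec, hxu,
      Matrix.mulVec_smul])
    (by rw [hg, Matrix.mulVec_mulVec, mul_assoc, h2, mul_one, ← Matrix.mulVec_mulVec, hxw,
      Matrix.mulVec_smul])
  rw [hg] at key
  calc (x : Matrix (Fin n) (Fin n) F)
      = ((P : Matrix (Fin n) (Fin n) F) * Pi) * (x : Matrix (Fin n) (Fin n) F) *
        ((P : Matrix (Fin n) (Fin n) F) * Pi) := by rw [h2, one_mul, mul_one]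
    _ = (P : Matrix (Fin n) (Fin n) F) * (Pi * (x : Matrix (Fin n) (Fin n) F) *
        (P : Matrix (Fin n) (Fin n) F)) * Pi := by simp only [mul_assoc]
    _ = c • 1 := by rw [key, mul_smul_comm, mul_one, smul_mul_assoc, h2]

/-- counterexample in characteristic three. -/
theorem s3_ce_char3 (h3 : (3 : F) = 0) :
    ∃ x : Matrix.SpecialLinearGroup (Fin 3) F,
      ((x ^ 3 : Matrix.SpecialLinearGroup (Fin 3) F) : Matrix (Fin 3) (Fin 3) F) = (1 : F) • 1 ∧
      (∀ z : F, (x : Matrix (Fin 3) (Fin 3) F) ≠ z • 1) ∧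
      ∃ u w : Fin 3 → F, u ≠ 0 ∧ (∀ a : F, w ≠ a • u) ∧
        (x : Matrix (Fin 3) (Fin 3) F) *ᵥ u = (1 : F) • u ∧ (x : Matrix (Fin 3) (Fin 3) F) *ᵥ w = (1 : F) • w := by
  refine ⟨⟨!![1, 1, 0; 0, 1, 0; 0, 0, 1], by rw [Matrix.det_fin_three]; simp⟩, ?_, ?_,
    ![1, 0, 0], ![0, 0, 1], ?_, ?_, ?_, ?_⟩
  · show (!![1, 1, 0; 0, 1, 0; 0, 0, 1] : Matrix (Fin 3) (Fin 3) F) ^ 3 = (1 : F) • 1
    ext i j
    fin_cases i <;> fin_cases j <;>
      simp [pow_succ, Matrix.mul_apply, Fin.sum_univ_three]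
    linear_combination h3
  · intro z h
    have := congrFun (congrFun h 0) 1
    simp at this
  · intro h
    have := congrFun h 0
    simp at this
  · intro a h
    have := congrFun h 2
    simp at this
  · ext i
    fin_cases i <;> simp [Matrix.mulVec, dotProduct, Fin.sum_univ_three]
  · ext i
    fin_cases i <;> simp [Matrix.mulVec, dotProduct, Fin.sum_univ_three]

/-- counterexample when `F` has an element of order nine. -/
theorem s3_ce_nine (η : F) (h9 : η ^ 9 = 1) (h3 : η ^ 3 ≠ 1) :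
    ∃ x : Matrix.SpecialLinearGroup (Fin 3) F,
      ((x ^ 3 : Matrix.SpecialLinearGroup (Fin 3) F) : Matrix (Fin 3) (Fin 3) F) = (η ^ 3) • 1 ∧
      (∀ z : F, (x : Matrix (Fin 3) (Fin 3) F) ≠ z • 1) ∧
      ∃ u w : Fin 3 → F, u ≠ 0 ∧ (∀ a : F, w ≠ a • u) ∧
        (x : Matrix (Fin 3) (Fin 3) F) *ᵥ u = η • u ∧ (x : Matrix (Fin 3) (Fin 3) F) *ᵥ w = η • w := by
  have hη : η ≠ 0 := by
    rintro rfl
    simp at h9
  refine ⟨⟨!![η, 0, 0; 0, η, 0; 0, 0, η ^ 7], by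
      rw [Matrix.det_fin_three]; simp; linear_combination h9⟩, ?_, ?_,
    ![1, 0, 0], ![0, 1, 0], ?_, ?_, ?_, ?_⟩
  · show (!![η, 0, 0; 0, η, 0; 0, 0, η ^ 7] : Matrix (Fin 3) (Fin 3) F) ^ 3 = (η ^ 3) • 1
    ext i j
    fin_cases i <;> fin_cases j <;>
      simp [pow_succ, Matrix.mul_apply, Fin.sum_univ_three]
    linear_combination (η ^ 12 + η ^ 3) * h9
  · intro z h
    have e0 := congrFun (congrFun h 0) 0
    have e2 := congrFun (congrFun h 2) 2
    simp at e0 e2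
    apply h3
    have h6 : η ^ 6 = 1 := by
      have : η * η ^ 6 = η * 1 := by rw [mul_one, ← pow_succ', e2, ← e0]
      exact mul_left_cancel₀ hη this
    have : η ^ 3 * η ^ 6 = 1 := by rw [← pow_add]; exact h9
    rwa [h6, mul_one] at this
  · intro h
    have := congrFun h 0
    simp at this
  · intro a h
    have := congrFun h 1
    simp at this
  · ext i
    fin_cases i <;> simp [Matrix.mulVec, dotProduct, Fin.sum_univ_three]
  · ext i
    fin_cases i <;> simp [Matrix.mulVec, dotProduct, Fin.sum_univ_three]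

/-- the index of a subgroup of `SL_3(q)` containing an element of order three, `q ≡ 2, 5 (mod 9)`. -/
theorem s3_index [Fintype F] (q : ℕ) (hq : Fintype.card F = q) (hq9 : q % 9 = 2 ∨ q % 9 = 5)
    (H : Subgroup (Matrix.SpecialLinearGroup (Fin 3) F)) (y : Matrix.SpecialLinearGroup (Fin 3) F)
    (hy : y ∈ H) (hy3 : y ^ 3 = 1) (hy1 : y ≠ 1) : ¬ 3 ∣ H.index := by
  intro hidx
  have ho : orderOf (⟨y, hy⟩ : H) = 3 := by
    have : Fact (Nat.Prime 3) := ⟨Nat.prime_three⟩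
    apply orderOf_eq_prime
    · exact Subtype.ext hy3
    · intro h; exact hy1 (congrArg Subtype.val h)
  have h3H : 3 ∣ Nat.card H := by
    have := orderOf_dvd_natCard (⟨y, hy⟩ : H)
    rwa [ho] at this
  have h9 : 9 ∣ Nat.card (Matrix.SpecialLinearGroup (Fin 3) F) := by
    rw [← H.card_mul_index]
    exact Nat.mul_dvd_mul h3H hidx
  have hGL : 9 ∣ Nat.card (GL (Fin 3) F) := by
    rw [Cfsg.Agent.Lib.Helper7.card_GL_eq_card_SL_mul]
    exact Dvd.dvd.mul_right h9 _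
  rw [Matrix.card_GL_field, Fin.prod_univ_three, hq] at hGL
  simp only [Fin.val_zero, Fin.val_one, Fin.val_two, pow_zero, pow_one] at hGL
  have hq1 : 1 ≤ q := by omega
  have hA1 : 1 ≤ q ^ 3 := Nat.one_le_pow _ _ hq1
  have hA2 : q ≤ q ^ 3 := by nlinarith [Nat.one_le_pow 2 q hq1]
  have hA3 : q ^ 2 ≤ q ^ 3 := Nat.pow_le_pow_right hq1 (by norm_num)
  have hmod : ((q ^ 3 - 1) * (q ^ 3 - q) * (q ^ 3 - q ^ 2)) % 9 = 0 := Nat.mod_eq_zero_of_dvd hGL
  rcases hq9 with h | h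
  · have hA : q ^ 3 % 9 = 8 := by simp [Nat.pow_mod, h]
    have hB : q ^ 2 % 9 = 4 := by simp [Nat.pow_mod, h]
    have e1 : (q ^ 3 - 1) % 9 = 7 := by omega
    have e2 : (q ^ 3 - q) % 9 = 6 := by omega
    have e3 : (q ^ 3 - q ^ 2) % 9 = 4 := by omega
    rw [Nat.mul_mod, Nat.mul_mod (q ^ 3 - 1), e1, e2, e3] at hmod
    norm_num at hmod
  · have hA : q ^ 3 % 9 = 8 := by simp [Nat.pow_mod, h]
    have hB : q ^ 2 % 9 = 7 := by simp [Nat.pow_mod, h]
    have e1 : (q ^ 3 - 1) % 9 = 7 := by omega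
    have e2 : (q ^ 3 - q) % 9 = 3 := by omega
    have e3 : (q ^ 3 - q ^ 2) % 9 = 1 := by omega
    rw [Nat.mul_mod, Nat.mul_mod (q ^ 3 - 1), e1, e2, e3] at hmod
    norm_num at hmod

end Cfsg.Agent.Lib.Helper48
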