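import Cfsg.Agent.Lib.Helper48.SingerN

/-! The Frobenius element of the normaliser of a field subalgebra of full degree. -/

set_option autoImplicit false

namespace Cfsg.Agent.Lib.Helper48

open Cfsg Cfsg.Geo Polynomial
open scoped MatrixGroups Matrix

variable {n : ℕ} {F : Type*} [Field F]

/-- abstract version: `L` a finite field extension of `F` acting on `F^n` through `ρ`, `e` an `L`-equivariant
identification of `L` with `F^n`. -/
theorem frob_abs [Fintype F] {L : Type*} [Field L] [Algebra F L] [Finite L]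
    (e : L ≃ₗ[F] (Fin n → F)) (ρ : L → Matrix (Fin n) (Fin n) F)
    (he : ∀ k l, e (k * l) = ρ k *ᵥ e l) :
    ∃ M : Matrix (Fin n) (Fin n) F, M.charpoly = X ^ n - 1 ∧
      (∀ k, M * ρ k = ρ (k ^ Fintype.card F) * M) ∧ M *ᵥ e 1 = e 1 ∧ (1 < n → M ≠ 1) := by
  classical
  have hfr : Module.finrank F L = n := by
    rw [e.finrank_eq, Module.finrank_fin_fun]
  have : FiniteDimensional F L := e.symm.finiteDimensional
  obtain ⟨f, hf⟩ : ∃ f : L →ₗ[F] L, f = (FiniteField.frobeniusAlgHom F L).toLinearMap := ⟨_, rfl⟩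
  have hfa : ∀ l, f l = l ^ Fintype.card F := by
    intro l; rw [hf]; rfl
  have hmin : minpoly F f = X ^ n - 1 := by
    rw [hf, FiniteField.minpoly_frobeniusAlgHom, hfr]
  have hn0 : 0 < n := by
    rw [← hfr]; exact Module.finrank_pos
  have hchar : f.charpoly = X ^ n - 1 := by
    have h1 : minpoly F f ∣ f.charpoly := LinearMap.minpoly_dvd_charpoly f
    rw [hmin, ← C_1] at h1
    rw [← C_1]
    apply Polynomial.eq_of_monic_of_dvd_of_natDegree_le (monic_X_pow_sub_C 1 hn0.ne') f.charpoly_monic h1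
    rw [LinearMap.charpoly_natDegree, hfr, natDegree_X_pow_sub_C]
  refine ⟨LinearMap.toMatrix' (e.conj f), ?_, ?_, ?_, ?_⟩
  · rw [← LinearMap.toMatrix_eq_toMatrix', LinearMap.charpoly_toMatrix, LinearEquiv.charpoly_conj, hchar]
  · intro k
    apply Matrix.toLin'.injective
    apply LinearMap.ext
    intro v
    obtain ⟨l, rfl⟩ := e.surjective v
    rw [Matrix.toLin'_apply, Matrix.toLin'_apply, ← Matrix.mulVec_mulVec, ← Matrix.mulVec_mulVec,
      LinearMap.toMatrix'_mulVec, LinearMap.toMatrix'_mulVec, ← he, LinearEquiv.conj_apply_apply,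
      LinearEquiv.conj_apply_apply, e.symm_apply_apply, e.symm_apply_apply, hfa, hfa, mul_pow, he]
  · rw [LinearMap.toMatrix'_mulVec, LinearEquiv.conj_apply_apply, e.symm_apply_apply, hfa, one_pow]
  · intro h1n hM
    have hf1 : f = 1 := by
      apply LinearMap.ext
      intro l
      apply e.injective
      have h2 : LinearMap.toMatrix' (e.conj f) *ᵥ e l = e l := by rw [hM, Matrix.one_mulVec]
      rw [LinearMap.toMatrix'_mulVec, LinearEquiv.conj_apply_apply, e.symm_apply_apply] at h2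
      exact h2
    rw [hf1, minpoly.one] at hmin
    have h3 := congrArg natDegree hmin
    rw [← C_1, natDegree_X_sub_C, natDegree_X_pow_sub_C] at h3
    omega

/-- an element of finite order mapping `K` into itself normalises `K`. -/
theorem mem_normalizer_of_pow (K : Subalgebra F (Matrix (Fin n) (Fin n) F)) (g : GL (Fin n) F) (m : ℕ)
    (hm : 0 < m) (hg : g ^ m = 1)
    (h : ∀ k ∈ K, (g : Matrix (Fin n) (Fin n) F) * k * ((g⁻¹ : GL (Fin n) F) : Matrix (Fin n) (Fin n) F) ∈ K) :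
    g ∈ subalgebraNormalizer K := by
  have hj : ∀ j : ℕ, ∀ k ∈ K, ((g ^ j : GL (Fin n) F) : Matrix (Fin n) (Fin n) F) * k *
      (((g ^ j)⁻¹ : GL (Fin n) F) : Matrix (Fin n) (Fin n) F) ∈ K := by
    intro j
    induction j with
    | zero => intro k hk; simpa using hk
    | succ j ih =>
      intro k hk
      have := ih _ (h k hk)
      rw [pow_succ, mul_inv_rev, Units.val_mul, Units.val_mul]
      simpa only [mul_assoc] using this
  intro k
  refine ⟨h k, fun hk => ?_⟩
  have h1 := hj (m - 1) _ hk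
  have h2 : ((g ^ (m - 1) : GL (Fin n) F) : Matrix (Fin n) (Fin n) F) * (g : Matrix (Fin n) (Fin n) F) = 1 := by
    rw [← Units.val_mul, ← pow_succ, Nat.sub_add_cancel hm, hg, Units.val_one]
  have h3 : ((g⁻¹ : GL (Fin n) F) : Matrix (Fin n) (Fin n) F) *
      (((g ^ (m - 1))⁻¹ : GL (Fin n) F) : Matrix (Fin n) (Fin n) F) = 1 := by
    rw [← Units.val_mul, ← mul_inv_rev, ← pow_succ, Nat.sub_add_cancel hm, hg, inv_one, Units.val_one]
  have h4 : ((g ^ (m - 1) : GL (Fin n) F) : Matrix (Fin n) (Fin n) F) *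
      ((g : Matrix (Fin n) (Fin n) F) * k * ((g⁻¹ : GL (Fin n) F) : Matrix (Fin n) (Fin n) F)) *
      (((g ^ (m - 1))⁻¹ : GL (Fin n) F) : Matrix (Fin n) (Fin n) F) = k := by
    calc _ = (((g ^ (m - 1) : GL (Fin n) F) : Matrix (Fin n) (Fin n) F) * (g : Matrix (Fin n) (Fin n) F)) * k *
          (((g⁻¹ : GL (Fin n) F) : Matrix (Fin n) (Fin n) F) *
          (((g ^ (m - 1))⁻¹ : GL (Fin n) F) : Matrix (Fin n) (Fin n) F)) := by simp only [mul_assoc]
      _ = k := by rw [h2, h3, one_mul, mul_one]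
  rwa [h4] at h1

/-- L2: the Frobenius element of `N(K)`. -/
theorem exists_frob_strong [Fintype F] (hn : 0 < n) (K : Subalgebra F (Matrix (Fin n) (Fin n) F))
    (hK : IsFieldSubalgebra n K) :
    ∃ φ : GL (Fin n) F, φ ∈ subalgebraNormalizer K ∧
      (φ : Matrix (Fin n) (Fin n) F).charpoly = X ^ n - 1 ∧ φ ^ n = 1 ∧
      (∃ u : Fin n → F, u ≠ 0 ∧ (φ : Matrix (Fin n) (Fin n) F) *ᵥ u = u) ∧
      (∀ k ∈ K, (φ : Matrix (Fin n) (Fin n) F) * k = k ^ Fintype.card F * (φ : Matrix (Fin n) (Fin n) F)) ∧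
      (1 < n → φ ≠ 1) := by
  classical
  have : NeZero n := ⟨hn.ne'⟩
  have hf : IsField K :=
    { exists_pair_ne := ⟨0, 1, fun h => by
        have h1 : (0 : Matrix (Fin n) (Fin n) F) = 1 := congrArg Subtype.val h
        exact zero_ne_one h1⟩
      mul_comm := fun x y => Subtype.ext (hK.comm x.1 x.2 y.1 y.2)
      mul_inv_cancel := fun {x} hx => by
        obtain ⟨y, hy, hxy⟩ := hK.inv x.1 x.2 (fun h => hx (Subtype.ext h))
        exact ⟨⟨y, hy⟩, Subtype.ext hxy⟩ }
  obtain ⟨u, hu⟩ : ∃ u : Fin n → F, u ≠ 0 := ⟨Pi.single 0 1, by simp⟩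
  obtain ⟨M, hM1, hM2, hM3, hM4⟩ := @frob_abs n F _ _ K hf.toField K.algebra inferInstance
    (LinearEquiv.ofBijective (singOrb K u) (singOrb_bijective K hK hu)) Subtype.val (by
      intro k l
      show ((k : Matrix (Fin n) (Fin n) F) * (l : Matrix (Fin n) (Fin n) F)) *ᵥ u =
        (k : Matrix (Fin n) (Fin n) F) *ᵥ ((l : Matrix (Fin n) (Fin n) F) *ᵥ u)
      rw [Matrix.mulVec_mulVec])
  have hMn : M ^ n = 1 := by
    have := Matrix.aeval_self_charpoly M
    rw [hM1] at this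
    simpa [sub_eq_zero] using this
  have hMM : M * M ^ (n - 1) = 1 := by rw [← pow_succ', Nat.sub_add_cancel hn, hMn]
  have hMM' : M ^ (n - 1) * M = 1 := by rw [← pow_succ, Nat.sub_add_cancel hn, hMn]
  have hsemi : ∀ k ∈ K, M * k = k ^ Fintype.card F * M := fun k hk => hM2 ⟨k, hk⟩
  refine ⟨⟨M, M ^ (n - 1), hMM, hMM'⟩, ?_, hM1, ?_, ⟨u, hu, ?_⟩, hsemi,
    fun h1 h => hM4 h1 (congrArg Units.val h)⟩
  · apply mem_normalizer_of_pow K _ n hn
    · apply Units.ext
      rw [Units.val_pow_eq_pow_val]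
      exact hMn
    · intro k hk
      show M * k * M ^ (n - 1) ∈ K
      rw [hsemi k hk, mul_assoc, hMM, mul_one]
      exact K.pow_mem hk _
  · apply Units.ext
    rw [Units.val_pow_eq_pow_val]
    exact hMn
  · have : (1 : Matrix (Fin n) (Fin n) F) *ᵥ u = u := Matrix.one_mulVec u
    have h3 : M *ᵥ ((1 : Matrix (Fin n) (Fin n) F) *ᵥ u) = (1 : Matrix (Fin n) (Fin n) F) *ᵥ u := hM3
    rwa [this] at h3

end Cfsg.Agent.Lib.Helper48
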