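import Cfsg.Agent.Lib.Helper77.Asch.DEG

/-! Normaliser of a field subalgebra of full degree (Singer normaliser): eigenspaces of non-scalar elements. -/

set_option autoImplicit false

namespace Cfsg.Agent.Lib.Helper48

open Cfsg Cfsg.Geo
open scoped MatrixGroups Matrix

variable {n : ℕ} {F : Type*} [Field F]

/-- nonzero elements of a field subalgebra act injectively. -/
theorem sing_eq_zero {r : ℕ} (K : Subalgebra F (Matrix (Fin n) (Fin n) F)) (hK : IsFieldSubalgebra r K)
    {k : Matrix (Fin n) (Fin n) F} (hk : k ∈ K) {u : Fin n → F} (hu : u ≠ 0) (h : k *ᵥ u = 0) : k = 0 := by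
  by_contra hne
  obtain ⟨y, hy, hxy⟩ := hK.inv k hk hne
  have h1 : y * k = 1 := by rw [hK.comm y hy k hk]; exact hxy
  apply hu
  calc u = (y * k) *ᵥ u := by rw [h1, Matrix.one_mulVec]
    _ = 0 := by rw [← Matrix.mulVec_mulVec, h, Matrix.mulVec_zero]

/-- the orbit map `k ↦ k u`. -/
def singOrb (K : Subalgebra F (Matrix (Fin n) (Fin n) F)) (u : Fin n → F) : K →ₗ[F] (Fin n → F) where
  toFun k := (k : Matrix (Fin n) (Fin n) F) *ᵥ u
  map_add' a b := by simp [Matrix.add_mulVec]
  map_smul' c a := by simp [Matrix.smul_mulVec]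

theorem singOrb_apply (K : Subalgebra F (Matrix (Fin n) (Fin n) F)) (u : Fin n → F) (k : K) :
    singOrb K u k = (k : Matrix (Fin n) (Fin n) F) *ᵥ u := rfl

theorem singOrb_injective {r : ℕ} (K : Subalgebra F (Matrix (Fin n) (Fin n) F)) (hK : IsFieldSubalgebra r K)
    {u : Fin n → F} (hu : u ≠ 0) : Function.Injective (singOrb K u) :=
  (injective_iff_map_eq_zero _).2 fun k hk => Subtype.ext (sing_eq_zero K hK k.2 hu hk)

theorem singOrb_bijective (K : Subalgebra F (Matrix (Fin n) (Fin n) F)) (hK : IsFieldSubalgebra n K)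
    {u : Fin n → F} (hu : u ≠ 0) : Function.Bijective (singOrb K u) :=
  ⟨singOrb_injective K hK hu, (LinearMap.injective_iff_surjective_of_finrank_eq_finrank
    (by rw [hK.finrank_eq, Module.finrank_fin_fun])).1 (singOrb_injective K hK hu)⟩

/-- `V = K u`. -/
theorem sing_exists (K : Subalgebra F (Matrix (Fin n) (Fin n) F)) (hK : IsFieldSubalgebra n K)
    {u : Fin n → F} (hu : u ≠ 0) (w : Fin n → F) : ∃ k ∈ K, k *ᵥ u = w := by
  obtain ⟨k, hk⟩ := (singOrb_bijective K hK hu).2 w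
  exact ⟨k, k.2, hk⟩

/-- L1: an element of the normaliser of `K` (degree `n` prime) with a two-dimensional eigenspace is scalar. -/
theorem sing_scalar_of_two_eig (hn : n.Prime) (K : Subalgebra F (Matrix (Fin n) (Fin n) F))
    (hK : IsFieldSubalgebra n K) (g : GL (Fin n) F) (hg : g ∈ subalgebraNormalizer K) (c : F)
    (u w : Fin n → F) (hu : u ≠ 0) (hw : ∀ a : F, w ≠ a • u)
    (hgu : (g : Matrix (Fin n) (Fin n) F) *ᵥ u = c • u) (hgw : (g : Matrix (Fin n) (Fin n) F) *ᵥ w = c • w) :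
    (g : Matrix (Fin n) (Fin n) F) = c • 1 := by
  classical
  have hgi : ((g⁻¹ : GL (Fin n) F) : Matrix (Fin n) (Fin n) F) * (g : Matrix (Fin n) (Fin n) F) = 1 := by
    rw [← Units.val_mul, inv_mul_cancel, Units.val_one]
  have hc : c ≠ 0 := by
    rintro rfl
    apply hu
    calc u = (((g⁻¹ : GL (Fin n) F) : Matrix (Fin n) (Fin n) F) * (g : Matrix (Fin n) (Fin n) F)) *ᵥ u := by
          rw [hgi, Matrix.one_mulVec]
      _ = 0 := by rw [← Matrix.mulVec_mulVec, hgu, zero_smul, Matrix.mulVec_zero]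
  obtain ⟨k, hk, hkw⟩ := sing_exists K hK hu w
  -- `g` commutes with `k`
  have hα : (g : Matrix (Fin n) (Fin n) F) * k * ((g⁻¹ : GL (Fin n) F) : Matrix (Fin n) (Fin n) F) ∈ K :=
    (hg k).1 hk
  have hαk : (g : Matrix (Fin n) (Fin n) F) * k * ((g⁻¹ : GL (Fin n) F) : Matrix (Fin n) (Fin n) F) = k := by
    have h1 : ((g : Matrix (Fin n) (Fin n) F) * k * ((g⁻¹ : GL (Fin n) F) : Matrix (Fin n) (Fin n) F) - k) *ᵥ u
        = 0 := by
      have h2 : ((g : Matrix (Fin n) (Fin n) F) * k * ((g⁻¹ : GL (Fin n) F) : Matrix (Fin n) (Fin n) F)) *ᵥ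
          (c • u) = c • (k *ᵥ u) := by
        rw [← hgu, Matrix.mulVec_mulVec, mul_assoc, hgi, mul_one, ← Matrix.mulVec_mulVec, hkw, hgw]
      rw [Matrix.mulVec_smul] at h2
      have h3 := smul_right_injective _ hc h2
      rw [Matrix.sub_mulVec, h3, sub_self]
    exact sub_eq_zero.1 (sing_eq_zero K hK (K.sub_mem hα hk) hu h1)
  have hgk : (g : Matrix (Fin n) (Fin n) F) * k = k * (g : Matrix (Fin n) (Fin n) F) := by
    calc (g : Matrix (Fin n) (Fin n) F) * k
        = (g : Matrix (Fin n) (Fin n) F) * k * (((g⁻¹ : GL (Fin n) F) : Matrix (Fin n) (Fin n) F) *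
            (g : Matrix (Fin n) (Fin n) F)) := by rw [hgi, mul_one]
      _ = k * (g : Matrix (Fin n) (Fin n) F) := by rw [← mul_assoc, hαk]
  -- the subalgebra of elements commuting with `g`
  obtain ⟨K', hK'⟩ : ∃ K', K' = K ⊓ Subalgebra.centralizer F {(g : Matrix (Fin n) (Fin n) F)} := ⟨_, rfl⟩
  have hmem : ∀ x, x ∈ K' ↔ x ∈ K ∧ (g : Matrix (Fin n) (Fin n) F) * x = x * (g : Matrix (Fin n) (Fin n) F) := by
    intro x
    rw [hK', Algebra.mem_inf, Subalgebra.mem_centralizer_iff]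
    simp
  have hF' : IsFieldSubalgebra (Module.finrank F K') K' :=
    { comm := fun x hx y hy => hK.comm x ((hmem x).1 hx).1 y ((hmem y).1 hy).1
      inv := fun x hx hx0 => by
        obtain ⟨y, hy, hxy⟩ := hK.inv x ((hmem x).1 hx).1 hx0
        have hyx : y * x = 1 := by rw [hK.comm y hy x ((hmem x).1 hx).1]; exact hxy
        refine ⟨y, (hmem y).2 ⟨hy, ?_⟩, hxy⟩
        calc (g : Matrix (Fin n) (Fin n) F) * y = (y * x) * ((g : Matrix (Fin n) (Fin n) F) * y) := by
              rw [hyx, one_mul]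
          _ = y * ((g : Matrix (Fin n) (Fin n) F) * x) * y := by
              rw [((hmem x).1 hx).2]; simp only [mul_assoc]
          _ = y * (g : Matrix (Fin n) (Fin n) F) * (x * y) := by simp only [mul_assoc]
          _ = y * (g : Matrix (Fin n) (Fin n) F) := by rw [hxy, mul_one]
      finrank_eq := rfl }
  have hdvd := Cfsg.Agent.Lib.Helper77.Asch.deg_dvd hn.pos _ K' hF'
  have : Nonempty (Fin n) := ⟨⟨0, hn.pos⟩⟩
  rcases (Nat.dvd_prime hn).1 hdvd with h1 | h1
  · exfalso
    have h2 := (finrank_eq_one_iff_of_nonzero' (1 : K') one_ne_zero).1 h1 ⟨k, (hmem k).2 ⟨hk, hgk⟩⟩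
    obtain ⟨a, ha⟩ := h2
    have h3 : a • (1 : Matrix (Fin n) (Fin n) F) = k := congrArg Subtype.val ha
    apply hw a
    rw [← hkw, ← h3, Matrix.smul_mulVec, Matrix.one_mulVec]
  · have hle : Subalgebra.toSubmodule K' ≤ Subalgebra.toSubmodule K := fun x hx => ((hmem x).1 hx).1
    have heq : Subalgebra.toSubmodule K' = Subalgebra.toSubmodule K :=
      Submodule.eq_of_le_of_finrank_eq hle (by
        show Module.finrank F K' = Module.finrank F K
        rw [h1, hK.finrank_eq])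
    have hall : ∀ x ∈ K, (g : Matrix (Fin n) (Fin n) F) * x = x * (g : Matrix (Fin n) (Fin n) F) := by
      intro x hx
      have : x ∈ Subalgebra.toSubmodule K' := by rw [heq]; exact hx
      exact ((hmem x).1 this).2
    apply Matrix.toLin'.injective
    apply LinearMap.ext
    intro v
    obtain ⟨x, hx, hxv⟩ := sing_exists K hK hu v
    rw [Matrix.toLin'_apply, Matrix.toLin'_apply, ← hxv, Matrix.mulVec_mulVec, hall x hx,
      ← Matrix.mulVec_mulVec, hgu, Matrix.mulVec_smul, Matrix.smul_mulVec, Matrix.one_mulVec]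

end Cfsg.Agent.Lib.Helper48
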