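import Mathlib

set_option autoImplicit false

namespace Cfsg.Agent.Lib.Helper48

open Module LinearMap

variable {K V : Type*} [Field K] [AddCommGroup V] [Module K V]

/-- a rank one endomorphism of square zero is `x ↦ φ x • v` with `φ v = 0` -/
theorem exists_vec_dual_of_rank_one (M : End K V) (hr : finrank K (range M) = 1)
    (hsq : M * M = 0) :
    ∃ (v : V) (φ : Dual K V), v ≠ 0 ∧ φ ≠ 0 ∧ φ v = 0 ∧ ∀ x, M x = φ x • v := by
  obtain ⟨⟨v, hvr⟩, hv0, hv⟩ := finrank_eq_one_iff'.1 hr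
  have hv0' : v ≠ 0 := fun h => hv0 (Subtype.ext h)
  obtain ⟨ψ, hψ⟩ : ∃ ψ : Dual K V, ψ v ≠ 0 := by
    by_contra hcon
    push Not at hcon
    exact hv0' ((Module.forall_dual_apply_eq_zero_iff K v).1 hcon)
  let φ : Dual K V := (ψ v)⁻¹ • (ψ ∘ₗ M)
  have hM : ∀ x, M x = φ x • v := by
    intro x
    obtain ⟨c, hc⟩ := hv ⟨M x, ⟨x, rfl⟩⟩
    have hc' : c • v = M x := congrArg Subtype.val hc
    simp only [φ, LinearMap.smul_apply, LinearMap.comp_apply, smul_eq_mul]
    rw [← hc', map_smul, smul_eq_mul]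
    congr 1
    field_simp
  have hφ : φ ≠ 0 := by
    intro h0
    obtain ⟨x, hx⟩ := hvr
    apply hv0'
    rw [← hx, hM, h0]
    simp
  refine ⟨v, φ, hv0', hφ, ?_, hM⟩
  obtain ⟨x, hx⟩ : ∃ x, φ x ≠ 0 := by
    by_contra hcon
    push Not at hcon
    exact hφ (LinearMap.ext hcon)
  have h2 : M (M x) = 0 := by
    rw [← Module.End.mul_apply, hsq]; rfl
  rw [hM x, map_smul, hM v, smul_smul] at h2
  rcases smul_eq_zero.1 h2 with h | h
  · exact (mul_eq_zero.1 h).resolve_left hx
  · exact absurd h hv0'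

variable [FiniteDimensional K V]

theorem exists_equiv_of_pairs {v v' : V} {φ φ' : Dual K V} (hv : v ≠ 0) (hφ : φ ≠ 0)
    (h : φ v = 0) (hv' : v' ≠ 0) (hφ' : φ' ≠ 0) (h' : φ' v' = 0) :
    ∃ g : V ≃ₗ[K] V, g v = v' ∧ ∀ x, φ' (g x) = φ x := by
  classical
  obtain ⟨n, b, i, j, hij, hbi, hbj⟩ := exists_basis_of_pairing_eq_zero h hφ hv
  obtain ⟨n', b', i', j', hij', hbi', hbj'⟩ := exists_basis_of_pairing_eq_zero h' hφ' hv'
  have : Fintype n := FiniteDimensional.fintypeBasisIndex b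
  have : Fintype n' := FiniteDimensional.fintypeBasisIndex b'
  have hcard : Fintype.card n = Fintype.card n' := by
    rw [← Module.finrank_eq_card_basis b, ← Module.finrank_eq_card_basis b']
  let e₀ : n ≃ n' := Fintype.equivOfCardEq hcard
  let e₁ : n ≃ n' := e₀.trans (Equiv.swap (e₀ i) i')
  have he₁i : e₁ i = i' := by simp [e₁]
  let e₂ : n ≃ n' := e₁.trans (Equiv.swap (e₁ j) j')
  have he₂j : e₂ j = j' := by simp [e₂]
  have he₂i : e₂ i = i' := by
    simp only [e₂, Equiv.trans_apply, he₁i]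
    apply Equiv.swap_apply_of_ne_of_ne
    · intro hh
      rw [← he₁i] at hh
      exact hij (e₁.injective hh)
    · exact hij'
  refine ⟨b.equiv b' e₂, ?_, ?_⟩
  · rw [hbi, Basis.equiv_apply, he₂i, hbi']
  · have : φ' ∘ₗ (b.equiv b' e₂ : V →ₗ[K] V) = φ := by
      apply b.ext
      intro k
      simp only [LinearMap.comp_apply, LinearEquiv.coe_coe, Basis.equiv_apply]
      rw [hbj, hbj', Basis.coord_apply, Basis.coord_apply, Basis.repr_self, Basis.repr_self]
      by_cases hk : k = j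
      · subst hk; rw [he₂j]; simp
      · have hk' : e₂ k ≠ j' := by
          intro hh; rw [← he₂j] at hh; exact hk (e₂.injective hh)
        rw [Finsupp.single_eq_of_ne (Ne.symm hk'), Finsupp.single_eq_of_ne (Ne.symm hk)]
    intro x
    exact congrArg (fun f : Dual K V => f x) this

theorem exists_dilation {v : V} {φ : Dual K V} (hv : v ≠ 0) (hφ : φ ≠ 0)
    (h : φ v = 0) (h3 : 3 ≤ finrank K V) (a : K) :
    ∃ c : End K V, LinearMap.det c = a ∧ c v = v ∧ ∀ x, φ (c x) = φ x := by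
  classical
  obtain ⟨n, b, i, j, hij, hbi, hbj⟩ := exists_basis_of_pairing_eq_zero h hφ hv
  have : Fintype n := FiniteDimensional.fintypeBasisIndex b
  have hcard : 3 ≤ Fintype.card n := by rwa [← Module.finrank_eq_card_basis b]
  obtain ⟨k, hki, hkj⟩ : ∃ k, k ≠ i ∧ k ≠ j := by
    by_contra hcon
    push Not at hcon
    have hsub : (Finset.univ : Finset n) ⊆ {i, j} := by
      intro k _
      by_cases hk : k = i
      · simp [hk]
      · simp [hcon k hk]
    have := Finset.card_le_card hsub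
    have h2 : ({i, j} : Finset n).card ≤ 2 := Finset.card_le_two
    rw [Finset.card_univ] at this
    omega
  refine ⟨LinearMap.transvection ((a - 1) • b.coord k) (b k), ?_, ?_, ?_⟩
  · rw [LinearMap.transvection.det]
    simp
  · rw [LinearMap.transvection.apply, hbi]
    simp [Finsupp.single_eq_of_ne hki]
  · intro x
    rw [LinearMap.transvection.apply, map_add, map_smul, hbj]
    simp [Finsupp.single_eq_of_ne (Ne.symm hkj)]

/-- Two rank one square zero endomorphisms are conjugate under an element of determinant one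
(dimension at least three). -/
theorem exists_det_one_conj (M M' : End K V) (hr : finrank K (range M) = 1) (hsq : M * M = 0)
    (hr' : finrank K (range M') = 1) (hsq' : M' * M' = 0) (h3 : 3 ≤ finrank K V) :
    ∃ h : End K V, LinearMap.det h = 1 ∧ h * M = M' * h := by
  obtain ⟨v, φ, hv, hφ, hφv, hM⟩ := exists_vec_dual_of_rank_one M hr hsq
  obtain ⟨v', φ', hv', hφ', hφv', hM'⟩ := exists_vec_dual_of_rank_one M' hr' hsq'
  obtain ⟨g, hgv, hgφ⟩ := exists_equiv_of_pairs hv hφ hφv hv' hφ' hφv'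
  obtain ⟨c, hcd, hcv, hcφ⟩ := exists_dilation hv hφ hφv h3 (LinearMap.det (g : V →ₗ[K] V))⁻¹
  refine ⟨(g : V →ₗ[K] V) * c, ?_, ?_⟩
  · rw [map_mul, hcd, mul_inv_cancel₀]
    exact (LinearEquiv.isUnit_det' g).ne_zero
  · apply LinearMap.ext
    intro x
    simp only [Module.End.mul_apply, LinearEquiv.coe_coe]
    rw [hM, hM', map_smul, map_smul, hcv, hgv, hgφ, hcφ]

end Cfsg.Agent.Lib.Helper48
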