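import Mathlib
import Cfsg.Agent.Lib.Helper48.Transv

set_option autoImplicit false

namespace Cfsg.Agent.Lib.Helper48

open Module LinearMap

variable {K V : Type*} [Field K] [AddCommGroup V] [Module K V]

/-- action of the units of `End` on pairs (vector, functional) -/
@[reducible] noncomputable def pairAction : MulAction (End K V)ˣ (V × Dual K V) where
  smul g p := ((g : End K V) p.1, p.2 ∘ₗ ((g⁻¹ : (End K V)ˣ) : End K V))
  one_smul p := by
    apply Prod.ext
    · rfl
    · apply LinearMap.ext; intro x; rfl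
  mul_smul g h p := by
    apply Prod.ext
    · rfl
    · apply LinearMap.ext
      intro x
      change p.2 ((((g * h)⁻¹ : (End K V)ˣ) : End K V) x) =
        p.2 (((h⁻¹ : (End K V)ˣ) : End K V) (((g⁻¹ : (End K V)ˣ) : End K V) x))
      rw [mul_inv_rev, Units.val_mul, Module.End.mul_apply]

theorem card_ne_zero (W : Type*) [Zero W] [Finite W] :
    Nat.card {w : W // w ≠ 0} = Nat.card W - 1 := by
  classical
  have : Fintype W := Fintype.ofFinite W
  rw [Nat.card_eq_fintype_card, Nat.card_eq_fintype_card, Fintype.card_subtype_compl,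
    Fintype.card_subtype_eq]

theorem units_inv_apply_apply (g : (End K V)ˣ) (x : V) :
    ((g⁻¹ : (End K V)ˣ) : End K V) ((g : End K V) x) = x := by
  rw [← Module.End.mul_apply, Units.inv_mul, Module.End.one_apply]

theorem units_apply_inv_apply (g : (End K V)ˣ) (x : V) :
    (g : End K V) (((g⁻¹ : (End K V)ˣ) : End K V) x) = x := by
  rw [← Module.End.mul_apply, Units.mul_inv, Module.End.one_apply]

section Count

variable [Finite K] [FiniteDimensional K V]

theorem card_pairs :
    Nat.card {p : V × Dual K V // p.1 ≠ 0 ∧ p.2 ≠ 0 ∧ p.2 p.1 = 0} =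
      (Nat.card K ^ finrank K V - 1) * (Nat.card K ^ (finrank K V - 1) - 1) := by
  classical
  have : Finite V := Module.finite_of_finite K
  have : Finite (Dual K V) := Module.finite_of_finite K
  let e : {p : V × Dual K V // p.1 ≠ 0 ∧ p.2 ≠ 0 ∧ p.2 p.1 = 0} ≃
      Σ φ : {φ : Dual K V // φ ≠ 0}, {v : ker φ.1 // v ≠ 0} :=
    { toFun := fun p => ⟨⟨p.1.2, p.2.2.1⟩, ⟨⟨p.1.1, p.2.2.2⟩,
        fun h => p.2.1 (congrArg Subtype.val h)⟩⟩
      invFun := fun s => ⟨(s.2.1.1, s.1.1), ⟨fun h => s.2.2 (Subtype.ext h), s.1.2, s.2.1.2⟩⟩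
      left_inv := fun _ => rfl
      right_inv := fun _ => rfl }
  have : Fintype {φ : Dual K V // φ ≠ 0} := Fintype.ofFinite _
  rw [Nat.card_congr e, Nat.card_sigma]
  have h1 : ∀ φ : {φ : Dual K V // φ ≠ 0}, Nat.card {v : ker φ.1 // v ≠ 0} =
      Nat.card K ^ (finrank K V - 1) - 1 := by
    intro φ
    rw [card_ne_zero, Module.natCard_eq_pow_finrank (K := K)]
    have := Module.Dual.finrank_ker_add_one_of_ne_zero φ.2
    congr 2
    omega
  rw [Finset.sum_congr rfl (fun φ _ => h1 φ), Finset.sum_const, Finset.card_univ, smul_eq_mul,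
    ← Nat.card_eq_fintype_card, card_ne_zero, Module.natCard_eq_pow_finrank (K := K),
    Subspace.dual_finrank_eq]

end Count

section Main

variable {v₀ : V} {φ₀ : Dual K V}

theorem commute_iff_of_pair (hv : v₀ ≠ 0) (hφ : φ₀ ≠ 0) {M : End K V}
    (hM : ∀ x, M x = φ₀ x • v₀) (g : (End K V)ˣ) :
    Commute (g : End K V) M ↔
      ∃ c : Kˣ, (g : End K V) v₀ = (c : K) • v₀ ∧ ∀ x, φ₀ ((g : End K V) x) = (c : K) * φ₀ x := by
  constructor
  · intro hc
    have h1 : ∀ x, φ₀ x • (g : End K V) v₀ = φ₀ ((g : End K V) x) • v₀ := by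
      intro x
      have := congrArg (fun f : End K V => f x) hc.eq
      simp only [Module.End.mul_apply] at this
      rw [hM, hM, map_smul] at this
      exact this
    obtain ⟨x₀, hx₀⟩ : ∃ x, φ₀ x ≠ 0 := by
      by_contra hcon
      push Not at hcon
      exact hφ (LinearMap.ext hcon)
    let c : K := (φ₀ x₀)⁻¹ * φ₀ ((g : End K V) x₀)
    have hgv : (g : End K V) v₀ = c • v₀ := by
      have := h1 x₀
      simp only [c]
      rw [mul_smul, ← this, smul_smul, inv_mul_cancel₀ hx₀, one_smul]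
    have hc0 : c ≠ 0 := by
      intro h0
      rw [h0, zero_smul] at hgv
      apply hv
      have := units_inv_apply_apply g v₀
      rw [hgv, map_zero] at this
      exact this.symm
    refine ⟨Units.mk0 c hc0, hgv, ?_⟩
    intro x
    have := h1 x
    rw [hgv, smul_smul] at this
    have h2 := sub_eq_zero.2 this
    rw [← sub_smul] at h2
    rcases smul_eq_zero.1 h2 with h | h
    · rw [Units.val_mk0]
      linear_combination -h
    · exact absurd h hv
  · rintro ⟨c, h1, h2⟩
    apply LinearMap.ext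
    intro x
    simp only [Module.End.mul_apply]
    rw [hM, hM, map_smul, h1, h2, smul_smul, mul_comm]

theorem mem_stabilizer_pair_iff (g : (End K V)ˣ) :
    g ∈ @MulAction.stabilizer _ _ _ pairAction (v₀, φ₀) ↔
      (g : End K V) v₀ = v₀ ∧ ∀ x, φ₀ ((g : End K V) x) = φ₀ x := by
  letI := pairAction (K := K) (V := V)
  rw [MulAction.mem_stabilizer_iff]
  change ((g : End K V) v₀, φ₀ ∘ₗ ((g⁻¹ : (End K V)ˣ) : End K V)) = (v₀, φ₀) ↔ _
  rw [Prod.ext_iff]
  simp only
  constructor
  · rintro ⟨h1, h2⟩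
    refine ⟨h1, fun x => ?_⟩
    conv_lhs => rw [← h2]
    rw [LinearMap.comp_apply, units_inv_apply_apply]
  · rintro ⟨h1, h2⟩
    refine ⟨h1, ?_⟩
    apply LinearMap.ext
    intro x
    rw [LinearMap.comp_apply, ← h2, units_apply_inv_apply]

theorem orbit_pair_eq [FiniteDimensional K V] (hv : v₀ ≠ 0) (hφ : φ₀ ≠ 0) (h0 : φ₀ v₀ = 0) :
    @MulAction.orbit (End K V)ˣ _ pairAction.toSMul (v₀, φ₀) =
      {p : V × Dual K V | p.1 ≠ 0 ∧ p.2 ≠ 0 ∧ p.2 p.1 = 0} := by
  letI := pairAction (K := K) (V := V)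
  ext p
  constructor
  · rintro ⟨g, rfl⟩
    change (g : End K V) v₀ ≠ 0 ∧ φ₀ ∘ₗ ((g⁻¹ : (End K V)ˣ) : End K V) ≠ 0 ∧
      (φ₀ ∘ₗ ((g⁻¹ : (End K V)ˣ) : End K V)) ((g : End K V) v₀) = 0
    refine ⟨?_, ?_, ?_⟩
    · intro h
      apply hv
      have := units_inv_apply_apply g v₀
      rw [h, map_zero] at this
      exact this.symm
    · intro h
      apply hφ
      apply LinearMap.ext
      intro x
      have := congrArg (fun f : Dual K V => f ((g : End K V) x)) h
      simp only [LinearMap.comp_apply, units_inv_apply_apply] at this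
      exact this
    · rw [LinearMap.comp_apply, units_inv_apply_apply, h0]
  · rintro ⟨h1, h2, h3⟩
    obtain ⟨g, hg1, hg2⟩ := exists_equiv_of_pairs hv hφ h0 h1 h2 h3
    let gu : (End K V)ˣ := ⟨g.toLinearMap, g.symm.toLinearMap,
      by ext x; simp, by ext x; simp⟩
    refine ⟨gu, ?_⟩
    change ((gu : End K V) v₀, φ₀ ∘ₗ ((gu⁻¹ : (End K V)ˣ) : End K V)) = p
    apply Prod.ext
    · exact hg1
    · apply LinearMap.ext
      intro x
      change φ₀ (g.symm x) = p.2 x
      rw [← hg2, LinearEquiv.apply_symm_apply]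

theorem card_commute_eq (hv : v₀ ≠ 0) (hφ : φ₀ ≠ 0) {M : End K V}
    (hM : ∀ x, M x = φ₀ x • v₀) :
    Nat.card {g : (End K V)ˣ // Commute (g : End K V) M} =
      Nat.card Kˣ * Nat.card (@MulAction.stabilizer _ _ _ pairAction (v₀, φ₀)) := by
  rw [← Nat.card_prod]
  symm
  let sc : Kˣ →* (End K V)ˣ := Units.map (algebraMap K (End K V)).toMonoidHom
  have hsc : ∀ (c : Kˣ) (x : V), ((sc c : (End K V)ˣ) : End K V) x = (c : K) • x := fun c x => rfl
  let Ψ : Kˣ × (@MulAction.stabilizer _ _ _ pairAction (v₀, φ₀)) →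
      {g : (End K V)ˣ // Commute (g : End K V) M} := fun cg =>
    ⟨sc cg.1 * cg.2.1, by
      rw [commute_iff_of_pair hv hφ hM]
      obtain ⟨h1, h2⟩ := (mem_stabilizer_pair_iff cg.2.1).1 cg.2.2
      refine ⟨cg.1, ?_, ?_⟩
      · rw [Units.val_mul, Module.End.mul_apply, h1, hsc]
      · intro x
        rw [Units.val_mul, Module.End.mul_apply, hsc, map_smul, h2, smul_eq_mul]⟩
  apply Nat.card_eq_of_bijective Ψ
  constructor
  · rintro ⟨c, g, hg⟩ ⟨c', g', hg'⟩ h
    have h' : sc c * g = sc c' * g' := congrArg Subtype.val h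
    obtain ⟨h1, -⟩ := (mem_stabilizer_pair_iff g).1 hg
    obtain ⟨h1', -⟩ := (mem_stabilizer_pair_iff g').1 hg'
    have h3 := congrArg (fun u : (End K V)ˣ => (u : End K V) v₀) h'
    simp only [Units.val_mul, Module.End.mul_apply, h1, h1', hsc] at h3
    have h4 : c = c' := by
      apply Units.ext
      have h5 := sub_eq_zero.2 h3
      rw [← sub_smul] at h5
      rcases smul_eq_zero.1 h5 with h | h
      · exact sub_eq_zero.1 h
      · exact absurd h hv
    subst h4
    have h6 : g = g' := mul_left_cancel h'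
    subst h6
    rfl
  · rintro ⟨h, hh⟩
    obtain ⟨c, h1, h2⟩ := (commute_iff_of_pair hv hφ hM h).1 hh
    refine ⟨⟨c, ⟨(sc c)⁻¹ * h, ?_⟩⟩, ?_⟩
    · rw [mem_stabilizer_pair_iff, ← map_inv]
      constructor
      · rw [Units.val_mul, Module.End.mul_apply, h1, hsc, smul_smul, Units.inv_mul, one_smul]
      · intro x
        rw [Units.val_mul, Module.End.mul_apply, hsc, map_smul, h2, smul_eq_mul, ← mul_assoc,
          Units.inv_mul, one_mul]
    · apply Subtype.ext
      change sc c * ((sc c)⁻¹ * h) = h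
      rw [mul_inv_cancel_left]

/-- order of the centraliser of a rank one square zero endomorphism -/
theorem card_commute_mul [Finite K] [FiniteDimensional K V] (M : End K V)
    (hr : finrank K (range M) = 1) (hsq : M * M = 0) :
    Nat.card {g : (End K V)ˣ // Commute (g : End K V) M} *
      ((Nat.card K ^ finrank K V - 1) * (Nat.card K ^ (finrank K V - 1) - 1)) =
      Nat.card Kˣ * Nat.card (End K V)ˣ := by
  obtain ⟨v₀, φ₀, hv, hφ, h0, hM⟩ := exists_vec_dual_of_rank_one M hr hsq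
  rw [card_commute_eq hv hφ hM, ← card_pairs (K := K) (V := V)]
  letI := pairAction (K := K) (V := V)
  have h1 := Subgroup.card_eq_card_quotient_mul_card_subgroup
    (MulAction.stabilizer (End K V)ˣ (v₀, φ₀))
  rw [← Nat.card_congr (MulAction.orbitEquivQuotientStabilizer (End K V)ˣ (v₀, φ₀))] at h1
  have h2 : Nat.card (MulAction.orbit (End K V)ˣ (v₀, φ₀)) =
      Nat.card {p : V × Dual K V // p.1 ≠ 0 ∧ p.2 ≠ 0 ∧ p.2 p.1 = 0} := by
    rw [orbit_pair_eq hv hφ h0]
    rfl
  rw [h1, h2]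
  ring

end Main

end Cfsg.Agent.Lib.Helper48
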