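import Mathlib

set_option autoImplicit false

namespace Cfsg.Agent.Lib.Helper48

theorem val2_decomp (n : ℕ) (hn : n ≠ 0) : ∃ n', Odd n' ∧ n = 2 ^ padicValNat 2 n * n' := by
  obtain ⟨k, m, hm, rfl⟩ := Nat.exists_eq_two_pow_mul_odd hn
  have hm0 : m ≠ 0 := by rintro rfl; simp at hm
  have h2 : ¬ 2 ∣ m := by
    intro h
    exact (Nat.not_even_iff_odd.2 hm) (even_iff_two_dvd.2 h)
  refine ⟨m, hm, ?_⟩
  rw [padicValNat.mul (pow_ne_zero _ two_ne_zero) hm0, padicValNat.prime_pow,
    padicValNat.eq_zero_of_not_dvd h2, add_zero]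

variable {F : Type*} [Field F] [Fintype F]

theorem neg_one_ne_one_of_odd_card (hq : Odd (Fintype.card F)) : (-1 : F) ≠ 1 := by
  intro h
  have h2 : (2 : F) = 0 := by linear_combination (-1 : F) * h
  have hchar : ringChar F = 2 := by
    have hd : ringChar F ∣ 2 := by
      rw [← ringChar.spec]; exact_mod_cast h2
    rcases (Nat.dvd_prime Nat.prime_two).1 hd with h1 | h1
    · exact absurd h1 (CharP.ringChar_ne_one)
    · exact h1
  have := FiniteField.even_card_of_char_two hchar
  exact (Nat.not_even_iff_odd.2 hq) (Nat.even_iff.2 this)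

/-- an element of the multiplicative group of exact order `q - 1` -/
theorem exists_unit_orderOf : ∃ z : Fˣ, orderOf z = Fintype.card F - 1 := by
  classical
  obtain ⟨g, hg⟩ := IsCyclic.exists_generator (α := Fˣ)
  refine ⟨g, ?_⟩
  rw [orderOf_eq_card_of_forall_mem_zpowers hg, Nat.card_eq_fintype_card, Fintype.card_units]

theorem exists_pow_eq_neg_one_iff (hq : Odd (Fintype.card F)) (n : ℕ) (hn : n ≠ 0) :
    (∃ c : F, c ≠ 0 ∧ c ^ n = -1) ↔ padicValNat 2 n < padicValNat 2 (Fintype.card F - 1) := by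
  have hN0 : Fintype.card F - 1 ≠ 0 := by
    have : 1 < Fintype.card F := Fintype.one_lt_card
    omega
  obtain ⟨n', hn', hnd⟩ := val2_decomp n hn
  obtain ⟨N', hN', hNd⟩ := val2_decomp _ hN0
  set a := padicValNat 2 n with ha
  set b := padicValNat 2 (Fintype.card F - 1) with hb
  constructor
  · rintro ⟨c, hc0, hc⟩
    by_contra hcon
    have hba : b ≤ a := not_lt.1 hcon
    have h1 : c ^ (n * N') = -1 := by rw [pow_mul, hc, hN'.neg_one_pow]
    have h2 : n * N' = (Fintype.card F - 1) * (2 ^ (a - b) * n') := by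
      rw [hNd]
      conv_lhs => rw [hnd]
      have : (2 : ℕ) ^ a = 2 ^ b * 2 ^ (a - b) := by rw [← pow_add]; congr 1; omega
      rw [this]; ring
    rw [h2, pow_mul, FiniteField.pow_card_sub_one_eq_one c hc0, one_pow] at h1
    exact neg_one_ne_one_of_odd_card hq h1.symm
  · intro hab
    obtain ⟨z, hz⟩ := exists_unit_orderOf (F := F)
    set t := 2 ^ (b - (a + 1)) * N' with ht
    have htN : t * 2 ^ (a + 1) = Fintype.card F - 1 := by
      rw [hNd, ht]
      have : (2 : ℕ) ^ b = 2 ^ (b - (a + 1)) * 2 ^ (a + 1) := by rw [← pow_add]; congr 1; omega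
      rw [this]; ring
    have hy2 : ((z : F) ^ (t * 2 ^ a)) ^ 2 = 1 := by
      rw [← pow_mul, mul_assoc, ← pow_succ, htN]
      exact FiniteField.pow_card_sub_one_eq_one _ z.ne_zero
    have hy1 : (z : F) ^ (t * 2 ^ a) ≠ 1 := by
      intro h
      have hlt : t * 2 ^ a < orderOf z := by
        rw [hz, ← htN, pow_succ, ← mul_assoc]
        have hpos : 0 < t * 2 ^ a := by
          apply Nat.mul_pos _ (by positivity)
          rw [ht]
          apply Nat.mul_pos (by positivity)
          exact hN'.pos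
        omega
      have hne : t * 2 ^ a ≠ 0 := by
        intro h0
        rw [pow_succ, ← mul_assoc, h0, zero_mul] at htN
        exact hN0 htN.symm
      apply pow_ne_one_of_lt_orderOf hne hlt
      apply Units.ext
      rw [Units.val_pow_eq_pow_val, h, Units.val_one]
    have hy : (z : F) ^ (t * 2 ^ a) = -1 := by
      rcases sq_eq_one_iff_of_ne_zero_aux hy2 with h | h
      · exact absurd h hy1
      · exact h
    refine ⟨(z : F) ^ t, pow_ne_zero _ z.ne_zero, ?_⟩
    rw [hnd, ← pow_mul, ← mul_assoc, pow_mul, hy, hn'.neg_one_pow]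
where
  sq_eq_one_iff_of_ne_zero_aux {x : F} (h : x ^ 2 = 1) : x = 1 ∨ x = -1 := by
    have : (x - 1) * (x + 1) = 0 := by linear_combination h
    rcases mul_eq_zero.1 this with h | h
    · exact Or.inl (sub_eq_zero.1 h)
    · exact Or.inr (eq_neg_of_add_eq_zero_left h)

end Cfsg.Agent.Lib.Helper48
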